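import Mathlib
import Cfsg.Prelude.Def_Sporadic_a

set_option autoImplicit false

namespace Cfsg.Agent.Lib.Helper3

open Cfsg

/-- index of a point: residues `0..22`, the extra point is `23`. -/
def idx : GolayPt → ℕ
  | none => 23
  | some x => x.val

/-- the point with a given index -/
def pt (i : ℕ) : GolayPt := if i < 23 then some (i : ZMod 23) else none

theorem idx_lt (p : GolayPt) : idx p < 24 := by
  cases p with
  | none => simp [idx]
  | some x => have := ZMod.val_lt x; simp only [idx]; omega

theorem pt_idx (p : GolayPt) : pt (idx p) = p := by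
  cases p with
  | none => simp [idx, pt]
  | some x =>
    have := ZMod.val_lt x
    simp [idx, pt, this]

theorem idx_pt {i : ℕ} (hi : i < 24) : idx (pt i) = i := by
  by_cases h : i < 23
  · simp [pt, h, idx, ZMod.val_natCast, Nat.mod_eq_of_lt h]
  · simp only [pt, h, if_false, idx]; omega

theorem idx_injective : Function.Injective idx := fun a b h => by
  rw [← pt_idx a, ← pt_idx b, h]

/-- the binary word encoded by a bit mask -/
def word (n : ℕ) : GolayPt → ZMod 2 := fun p => if n.testBit (idx p) then 1 else 0

theorem word_zero : word 0 = 0 := by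
  funext p
  simp [word]

theorem word_xor (a b : ℕ) : word (a ^^^ b) = word a + word b := by
  funext p
  simp only [word, Nat.testBit_xor, Pi.add_apply]
  cases a.testBit (idx p) <;> cases b.testBit (idx p) <;> decide

/-- the subset encoded by a bit mask -/
def fs (n : ℕ) : Finset GolayPt := Finset.univ.filter fun p => n.testBit (idx p) = true

theorem mem_fs {n : ℕ} {p : GolayPt} : p ∈ fs n ↔ n.testBit (idx p) = true := by
  simp [fs]

theorem support₂_word (n : ℕ) : support₂ (word n) = fs n := by
  ext p
  simp only [support₂, word, fs, Finset.mem_filter, Finset.mem_univ, true_and]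
  cases h : n.testBit (idx p) <;> simp [h]

theorem support₂_injective : Function.Injective (support₂ : (GolayPt → ZMod 2) → Finset GolayPt) := by
  intro v w h
  funext p
  have h1 : p ∈ support₂ v ↔ p ∈ support₂ w := by rw [h]
  simp only [support₂, Finset.mem_filter, Finset.mem_univ, true_and] at h1
  generalize v p = a at h1
  generalize w p = b at h1
  revert a b
  decide

theorem fs_injOn {m n : ℕ} (hm : m < 2 ^ 24) (hn : n < 2 ^ 24) (h : fs m = fs n) : m = n := by
  apply Nat.eq_of_testBit_eq
  intro i
  by_cases hi : i < 24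
  · have h1 : pt i ∈ fs m ↔ pt i ∈ fs n := by rw [h]
    rw [mem_fs, mem_fs, idx_pt hi] at h1
    cases hm' : m.testBit i <;> cases hn' : n.testBit i <;> simp_all
  · have h24 : 2 ^ 24 ≤ 2 ^ i := Nat.pow_le_pow_right (by norm_num) (by omega)
    rw [Nat.testBit_eq_false_of_lt (lt_of_lt_of_le hm h24),
      Nat.testBit_eq_false_of_lt (lt_of_lt_of_le hn h24)]

/-- population count of the low `k` bits -/
def pcAux : ℕ → ℕ → ℕ
  | 0, _ => 0
  | k + 1, n => pcAux k n + (if n.testBit k then 1 else 0)

/-- population count of the low 24 bits -/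
def pc (n : ℕ) : ℕ := pcAux 24 n

theorem pcAux_eq (k n : ℕ) :
    pcAux k n = ∑ i ∈ Finset.range k, if n.testBit i = true then 1 else 0 := by
  induction k with
  | zero => simp [pcAux]
  | succ k ih => rw [Finset.sum_range_succ, pcAux, ih]

theorem card_fs (n : ℕ) : (fs n).card = pc n := by
  rw [fs, Finset.card_filter, Fintype.sum_option, pc, pcAux_eq, Finset.sum_range_succ, add_comm]
  congr 1

theorem hammingNorm_word (n : ℕ) : hammingNorm (word n) = pc n := by
  rw [← card_fs, ← support₂_word]
  rfl

/-- all xor-combinations of a list of masks, shifted by `v` -/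
def gen : List ℕ → ℕ → List ℕ
  | [], v => [v]
  | b :: bs, v => gen bs v ++ gen bs (v ^^^ b)

theorem zmod2_cases (a : ZMod 2) : a = 0 ∨ a = 1 := by
  revert a; decide

theorem mem_gen_iff (L : List ℕ) : ∀ (v : ℕ) (w : GolayPt → ZMod 2),
    (∃ m ∈ gen L v, w = word m) ↔
      w + word v ∈ Submodule.span (ZMod 2) (word '' {n | n ∈ L}) := by
  have hchar : ∀ x : GolayPt → ZMod 2, x + x = 0 := by
    intro x; funext p; exact CharTwo.add_self_eq_zero (x p)
  induction L with
  | nil =>
    intro v w
    simp only [gen, List.mem_singleton, exists_eq_left, List.not_mem_nil, Set.ofPred_false,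
      Set.image_empty, Submodule.span_empty, Submodule.mem_bot]
    constructor
    · rintro rfl; exact hchar _
    · intro h
      have : w = w + (word v + word v) := by rw [hchar, add_zero]
      rw [this, ← add_assoc, h, zero_add]
  | cons b bs ih =>
    intro v w
    have hset : word '' {n | n ∈ b :: bs} = insert (word b) (word '' {n | n ∈ bs}) := by
      ext x
      simp only [Set.mem_image, Set.mem_ofPred_eq, List.mem_cons, Set.mem_insert_iff]
      constructor
      · rintro ⟨n, rfl | hn, rfl⟩
        · exact Or.inl rfl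
        · exact Or.inr ⟨n, hn, rfl⟩
      · rintro (rfl | ⟨n, hn, rfl⟩)
        · exact ⟨b, Or.inl rfl, rfl⟩
        · exact ⟨n, Or.inr hn, rfl⟩
    rw [hset, Submodule.mem_span_insert]
    simp only [gen, List.mem_append]
    constructor
    · rintro ⟨m, hm | hm, rfl⟩
      · exact ⟨0, _, (ih v (word m)).1 ⟨m, hm, rfl⟩, by simp⟩
      · have := (ih (v ^^^ b) (word m)).1 ⟨m, hm, rfl⟩
        refine ⟨1, _, this, ?_⟩
        rw [word_xor, one_smul]
        have e : word b + (word m + (word v + word b)) = word m + word v + (word b + word b) := by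
          abel
        rw [e, hchar, add_zero]
    · rintro ⟨a, z, hz, he⟩
      rcases zmod2_cases a with rfl | rfl
      · rw [zero_smul, zero_add] at he
        rw [← he] at hz
        obtain ⟨m, hm, hw⟩ := (ih v w).2 hz
        exact ⟨m, Or.inl hm, hw⟩
      · rw [one_smul] at he
        have : w + word (v ^^^ b) = z := by
          rw [word_xor, ← add_assoc, he]
          have e : word b + z + word b = z + (word b + word b) := by abel
          rw [e, hchar, add_zero]
        rw [← this] at hz
        obtain ⟨m, hm, hw⟩ := (ih (v ^^^ b) w).2 hz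
        exact ⟨m, Or.inr hm, hw⟩

theorem mem_span_iff (L : List ℕ) (w : GolayPt → ZMod 2) :
    w ∈ Submodule.span (ZMod 2) (word '' {n | n ∈ L}) ↔ ∃ m ∈ gen L 0, w = word m := by
  rw [mem_gen_iff, word_zero, add_zero]

/-- xor of a list -/
def xorAll : List ℕ → ℕ
  | [] => 0
  | a :: l => a ^^^ xorAll l

theorem word_xorAll_mem (L l : List ℕ) (h : ∀ x ∈ l, x ∈ L) :
    word (xorAll l) ∈ Submodule.span (ZMod 2) (word '' {n | n ∈ L}) := by
  induction l with
  | nil => simp [xorAll, word_zero]
  | cons a l ih =>
    rw [xorAll, word_xor]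
    exact Submodule.add_mem _ (Submodule.subset_span ⟨a, h a (by simp), rfl⟩)
      (ih (fun x hx => h x (by simp [hx])))

/-- masks of the generators: the 23 translates of the squares and the all-one word -/
def gensL : List ℕ := [340831, 681662, 1363324, 2726648, 5453296, 2517985, 5035970, 1683333,
  3366666, 6733332, 5078057, 1767507, 3535014, 7070028, 5751449, 3114291, 6228582, 4068557,
  8137114, 7885621, 7382635, 6376663, 4364719, 16777215]

/-- reduced echelon basis of the code -/
def EL : List ℕ := [8391797, 4196943, 2101096, 1050548, 525274, 262637, 133817, 69395, 36294,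
  18147, 10558, 5279]

/-- certificates expressing the echelon basis through the generators -/
def certL : List (List ℕ) := [[1, 2, 4, 7, 9, 10, 23], [0, 2, 3, 4, 6, 7, 8, 10], [1, 6, 9],
  [0, 5, 8], [0, 5, 6, 7, 8, 10], [0, 7, 8, 9, 10], [2, 3, 5, 6, 8, 9], [0, 1, 3, 5, 6, 10],
  [0, 3, 4, 7, 9], [0, 2, 3, 4, 5, 10], [1, 4, 5, 7, 9], [0, 3, 4, 6, 8]]

/-- the 4096 code words as masks, in increasing order -/
def codeList : List ℕ := gen EL 0

set_option maxRecDepth 100000 in
theorem qrWord_eq : ∀ t : ZMod 23, ∀ p : GolayPt, qrWord t p = word (gensL.getD t.val 0) p := by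
  decide +kernel

theorem one_eq_word : (1 : GolayPt → ZMod 2) = word 16777215 := by
  funext p
  revert p
  decide +kernel

theorem gens_set : Set.range qrWord ∪ {1} = word '' {n | n ∈ gensL} := by
  ext w
  constructor
  · rintro (⟨t, rfl⟩ | h)
    · refine ⟨gensL.getD t.val 0, ?_, (funext (qrWord_eq t)).symm⟩
      revert t
      decide +kernel
    · rw [Set.mem_singleton_iff] at h
      subst h
      exact ⟨16777215, by decide, one_eq_word.symm⟩
  · rintro ⟨n, hn, rfl⟩
    have key : ∀ n ∈ gensL, (∃ t : ZMod 23, gensL.getD t.val 0 = n) ∨ n = 16777215 := by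
      decide +kernel
    rcases key n hn with ⟨t, rfl⟩ | rfl
    · exact Or.inl ⟨t, funext (qrWord_eq t)⟩
    · exact Or.inr one_eq_word.symm

set_option maxRecDepth 100000 in
theorem gens_mem_codeList : ∀ n ∈ gensL, n ∈ codeList := by decide +kernel

theorem EL_cert : EL = certL.map (fun l => xorAll (l.map (fun i => gensL.getD i 0))) := by
  decide +kernel

theorem cert_mem : ∀ l ∈ certL, ∀ x ∈ l.map (fun i => gensL.getD i 0), x ∈ gensL := by
  decide +kernel

theorem golayCode_eq_span : golayCode = Submodule.span (ZMod 2) (word '' {n | n ∈ EL}) := by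
  rw [golayCode, gens_set]
  apply le_antisymm
  · rw [Submodule.span_le]
    rintro _ ⟨n, hn, rfl⟩
    exact (mem_span_iff EL _).2 ⟨n, gens_mem_codeList n hn, rfl⟩
  · rw [Submodule.span_le]
    rintro _ ⟨n, hn, rfl⟩
    have hn' : n ∈ EL := hn
    rw [EL_cert, List.mem_map] at hn'
    obtain ⟨l, hl, rfl⟩ := hn'
    exact word_xorAll_mem gensL _ (cert_mem l hl)

theorem mem_golayCode_iff (w : GolayPt → ZMod 2) : w ∈ golayCode ↔ ∃ m ∈ codeList, w = word m := by
  rw [golayCode_eq_span, mem_span_iff]
  rfl

theorem word_mem_golayCode {m : ℕ} (hm : m ∈ codeList) : word m ∈ golayCode :=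
  (mem_golayCode_iff _).2 ⟨m, hm, rfl⟩

theorem mem_supports_iff (b : Finset GolayPt) :
    b ∈ supports (golayCode : Set (GolayPt → ZMod 2)) ↔ ∃ m ∈ codeList, b = fs m := by
  constructor
  · rintro ⟨w, hw, rfl⟩
    obtain ⟨m, hm, rfl⟩ := (mem_golayCode_iff w).1 hw
    exact ⟨m, hm, support₂_word m⟩
  · rintro ⟨m, hm, rfl⟩
    exact ⟨word m, word_mem_golayCode hm, support₂_word m⟩

set_option maxRecDepth 100000 in
theorem codeList_chain : codeList.IsChain (· < ·) := by decide +kernel

theorem codeList_pairwise : codeList.Pairwise (· < ·) := List.isChain_iff_pairwise.1 codeList_chain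

theorem codeList_nodup : codeList.Nodup := codeList_pairwise.imp (fun h => h.ne)

set_option maxRecDepth 100000 in
theorem codeList_lt : ∀ m ∈ codeList, m < 2 ^ 24 := by decide +kernel

set_option maxRecDepth 100000 in
theorem codeList_weights : ∀ m ∈ codeList, pc m = 0 ∨ pc m = 8 ∨ pc m = 12 ∨ pc m = 16 ∨ pc m = 24 := by
  decide +kernel

set_option maxRecDepth 100000 in
theorem codeList_length : codeList.length = 4096 := by decide +kernel

/-- code words of weight `k` -/
def wtList (k : ℕ) : List ℕ := codeList.filter (fun m => pc m == k)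

theorem mem_wtList {k m : ℕ} : m ∈ wtList k ↔ m ∈ codeList ∧ pc m = k := by
  simp [wtList]

theorem wtList_nodup (k : ℕ) : (wtList k).Nodup := codeList_nodup.filter _

set_option maxRecDepth 100000 in
theorem wtList_8_length : (wtList 8).length = 759 := by decide +kernel

set_option maxRecDepth 100000 in
theorem wtList_12_length : (wtList 12).length = 2576 := by decide +kernel

theorem wordsOfWeight_eq (k : ℕ) :
    wordsOfWeight (golayCode : Set (GolayPt → ZMod 2)) k = ↑((wtList k).toFinset.image fs) := by
  ext b
  simp only [wordsOfWeight, Set.mem_ofPred_eq, Finset.coe_image, List.coe_toFinset, Set.mem_image,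
    mem_wtList]
  constructor
  · rintro ⟨hb, hc⟩
    obtain ⟨m, hm, rfl⟩ := (mem_supports_iff b).1 hb
    exact ⟨m, ⟨hm, by rw [← card_fs, hc]⟩, rfl⟩
  · rintro ⟨m, ⟨hm, hc⟩, rfl⟩
    exact ⟨(mem_supports_iff _).2 ⟨m, hm, rfl⟩, by rw [card_fs, hc]⟩

theorem wordsOfWeight_ncard (k : ℕ) :
    (wordsOfWeight (golayCode : Set (GolayPt → ZMod 2)) k).ncard = (wtList k).length := by
  rw [wordsOfWeight_eq, Set.ncard_coe_finset, Finset.card_image_of_injOn,
    List.toFinset_card_of_nodup (wtList_nodup k)]
  intro a ha b hb h
  simp only [List.coe_toFinset, Set.mem_ofPred_eq, mem_wtList] at ha hb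
  exact fs_injOn (codeList_lt a ha.1) (codeList_lt b hb.1) h

end Cfsg.Agent.Lib.Helper3
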