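import Mathlib
import Cfsg.Prelude.Def_Sporadic_a
import Cfsg.Agent.Lib.Helper3.Golay

set_option autoImplicit false

namespace Cfsg.Agent.Lib.Helper3

open Cfsg
open scoped Pointwise

theorem word_injOn {m n : ℕ} (hm : m < 2 ^ 24) (hn : n < 2 ^ 24) (h : word m = word n) : m = n := by
  apply fs_injOn hm hn
  rw [← support₂_word, ← support₂_word, h]

theorem card_golayCode : Nat.card golayCode = 4096 := by
  have h1 : (golayCode : Set (GolayPt → ZMod 2)) = ↑(codeList.toFinset.image word) := by
    ext w
    simp only [SetLike.mem_coe, mem_golayCode_iff, Finset.coe_image, List.coe_toFinset,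
      Set.mem_image, Set.mem_ofPred_eq]
    constructor
    · rintro ⟨m, hm, rfl⟩; exact ⟨m, hm, rfl⟩
    · rintro ⟨m, hm, rfl⟩; exact ⟨m, hm, rfl⟩
  have h2 : Nat.card golayCode = (golayCode : Set (GolayPt → ZMod 2)).ncard := rfl
  rw [h2, h1, Set.ncard_coe_finset, Finset.card_image_of_injOn,
    List.toFinset_card_of_nodup codeList_nodup, codeList_length]
  intro a ha b hb h
  simp only [List.coe_toFinset, Set.mem_ofPred_eq] at ha hb
  exact word_injOn (codeList_lt a ha) (codeList_lt b hb) h

theorem finrank_golayCode : Module.finrank (ZMod 2) golayCode = 12 := by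
  have h := Module.natCard_eq_pow_finrank (K := ZMod 2) (V := golayCode)
  rw [card_golayCode, Nat.card_zmod] at h
  have : (2 : ℕ) ^ 12 = 2 ^ Module.finrank (ZMod 2) golayCode := by rw [← h]; norm_num
  exact (Nat.pow_right_injective (le_refl 2) this).symm

theorem weights (w : GolayPt → ZMod 2) (hw : w ∈ golayCode) :
    hammingNorm w = 0 ∨ hammingNorm w = 8 ∨ hammingNorm w = 12 ∨ hammingNorm w = 16 ∨
      hammingNorm w = 24 := by
  obtain ⟨m, hm, rfl⟩ := (mem_golayCode_iff w).1 hw
  rw [hammingNorm_word]
  exact codeList_weights m hm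

theorem word_and (a b : ℕ) (p : GolayPt) : word (a &&& b) p = word a p * word b p := by
  simp only [word, Nat.testBit_and]
  cases a.testBit (idx p) <;> cases b.testBit (idx p) <;> simp

theorem sum_word (n : ℕ) : ∑ p, word n p = (pc n : ZMod 2) := by
  rw [← card_fs, fs, Finset.card_filter]
  push_cast
  rfl

theorem EL_orth : ∀ a ∈ EL, ∀ b ∈ EL, pc (a &&& b) % 2 = 0 := by decide +kernel

theorem self_orth (v w : GolayPt → ZMod 2) (hv : v ∈ golayCode) (hw : w ∈ golayCode) :
    ∑ i, v i * w i = 0 := by
  rw [golayCode_eq_span] at hv hw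
  induction hv using Submodule.span_induction with
  | mem x hx =>
    obtain ⟨a, ha, rfl⟩ := hx
    induction hw using Submodule.span_induction with
    | mem y hy =>
      obtain ⟨b, hb, rfl⟩ := hy
      have : ∑ i, word a i * word b i = ∑ i, word (a &&& b) i :=
        Finset.sum_congr rfl (fun i _ => (word_and a b i).symm)
      rw [this, sum_word]
      exact (ZMod.natCast_eq_zero_iff _ _).2 (Nat.dvd_of_mod_eq_zero (EL_orth a ha b hb))
    | zero => simp
    | add x y _ _ hx hy =>
      simp only [Pi.add_apply, mul_add, Finset.sum_add_distrib, hx, hy, add_zero]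
    | smul c x _ hx =>
      simp only [Pi.smul_apply, smul_eq_mul]
      have : ∑ i, word a i * (c * x i) = c * ∑ i, word a i * x i := by
        rw [Finset.mul_sum]
        exact Finset.sum_congr rfl (fun i _ => by ring)
      rw [this, hx, mul_zero]
  | zero => simp
  | add x y _ _ hx hy =>
    simp only [Pi.add_apply, add_mul, Finset.sum_add_distrib, hx, hy, add_zero]
  | smul c x _ hx =>
    simp only [Pi.smul_apply, smul_eq_mul]
    have : ∑ i, c * x i * w i = c * ∑ i, x i * w i := by
      rw [Finset.mul_sum]
      exact Finset.sum_congr rfl (fun i _ => by ring)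
    rw [this, hx, mul_zero]

theorem fs_xor (a b : ℕ) : fs (a ^^^ b) = symmDiff (fs a) (fs b) := by
  ext p
  simp only [mem_fs, Finset.mem_symmDiff, Nat.testBit_xor]
  cases a.testBit (idx p) <;> cases b.testBit (idx p) <;> simp

theorem xor_mem_codeList {a b : ℕ} (ha : a ∈ codeList) (hb : b ∈ codeList) :
    ∃ c ∈ codeList, fs c = symmDiff (fs a) (fs b) := by
  have h : word a + word b ∈ golayCode :=
    Submodule.add_mem _ (word_mem_golayCode ha) (word_mem_golayCode hb)
  obtain ⟨c, hc, he⟩ := (mem_golayCode_iff _).1 h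
  refine ⟨c, hc, ?_⟩
  rw [← fs_xor, ← support₂_word, ← support₂_word, word_xor, he]

/-- supports of code words are closed under symmetric difference -/
theorem symmDiff_mem_supports {b c : Finset GolayPt}
    (hb : b ∈ supports (golayCode : Set (GolayPt → ZMod 2)))
    (hc : c ∈ supports (golayCode : Set (GolayPt → ZMod 2))) :
    symmDiff b c ∈ supports (golayCode : Set (GolayPt → ZMod 2)) := by
  obtain ⟨m, hm, rfl⟩ := (mem_supports_iff b).1 hb
  obtain ⟨n, hn, rfl⟩ := (mem_supports_iff c).1 hc
  obtain ⟨k, hk, he⟩ := xor_mem_codeList hm hn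
  exact (mem_supports_iff _).2 ⟨k, hk, he.symm⟩

theorem card_of_mem_supports {b : Finset GolayPt}
    (hb : b ∈ supports (golayCode : Set (GolayPt → ZMod 2))) :
    b.card = 0 ∨ b.card = 8 ∨ b.card = 12 ∨ b.card = 16 ∨ b.card = 24 := by
  obtain ⟨m, hm, rfl⟩ := (mem_supports_iff b).1 hb
  rw [card_fs]
  exact codeList_weights m hm

theorem card_symmDiff_add {α : Type*} [DecidableEq α] (b c : Finset α) :
    (symmDiff b c).card + 2 * (b ∩ c).card = b.card + c.card := by
  have h1 : symmDiff b c = (b \ c) ∪ (c \ b) := rfl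
  have h2 : Disjoint (b \ c) (c \ b) := by
    rw [Finset.disjoint_left]
    intro x hx hx'
    rw [Finset.mem_sdiff] at hx hx'
    exact hx.2 hx'.1
  rw [h1, Finset.card_union_of_disjoint h2]
  have h3 := Finset.card_sdiff_add_card_inter b c
  have h4 := Finset.card_sdiff_add_card_inter c b
  rw [Finset.inter_comm c b] at h4
  omega

/-- two code words of weight 8 sharing 5 points coincide -/
theorem octad_unique {b c s : Finset GolayPt} (hb : b ∈ octads) (hc : c ∈ octads)
    (hs : s.card = 5) (hsb : s ⊆ b) (hsc : s ⊆ c) : b = c := by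
  have h1 := card_of_mem_supports (symmDiff_mem_supports hb.1 hc.1)
  have h2 := card_symmDiff_add b c
  have h3 : 5 ≤ (b ∩ c).card := by
    rw [← hs]
    exact Finset.card_le_card (Finset.subset_inter hsb hsc)
  rw [hb.2, hc.2] at h2
  have h4 : (symmDiff b c).card = 0 := by omega
  rw [Finset.card_eq_zero] at h4
  exact symmDiff_eq_bot.1 h4

theorem octads_ncard : octads.ncard = 759 := by
  rw [octads, wordsOfWeight_ncard, wtList_8_length]

theorem dodecads_ncard : dodecads.ncard = 2576 := by
  rw [dodecads, wordsOfWeight_ncard, wtList_12_length]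

/-- the octads as a finset -/
def octadFinset : Finset (Finset GolayPt) := (wtList 8).toFinset.image fs

theorem coe_octadFinset : (octadFinset : Set (Finset GolayPt)) = octads := (wordsOfWeight_eq 8).symm

theorem mem_octadFinset {b : Finset GolayPt} : b ∈ octadFinset ↔ b ∈ octads := by
  rw [← coe_octadFinset]; rfl

theorem card_octadFinset : octadFinset.card = 759 := by
  rw [← Set.ncard_coe_finset, coe_octadFinset, octads_ncard]

theorem octads_steiner : IsSteinerSystem 5 8 octads := by
  refine ⟨fun b hb => hb.2, fun s hs => ?_⟩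
  have hex : ∃ b ∈ octads, s ⊆ b := by
    obtain ⟨T, hT⟩ : ∃ T : Finset (Finset GolayPt),
      T = octadFinset.biUnion (fun o => o.powersetCard 5) := ⟨_, rfl⟩
    have hcard : T.card = 42504 := by
      rw [hT, Finset.card_biUnion]
      · have : ∀ o ∈ octadFinset, (o.powersetCard 5).card = 56 := by
          intro o ho
          rw [Finset.card_powersetCard, (mem_octadFinset.1 ho).2]
          decide
        rw [Finset.sum_congr rfl this, Finset.sum_const, card_octadFinset, smul_eq_mul]
      · intro o ho o' ho' hne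
        rw [Function.onFun, Finset.disjoint_left]
        intro x hx hx'
        rw [Finset.mem_powersetCard] at hx hx'
        exact hne (octad_unique (mem_octadFinset.1 ho) (mem_octadFinset.1 ho') hx.2 hx.1 hx'.1)
    have hsub : T ⊆ (Finset.univ : Finset GolayPt).powersetCard 5 := by
      intro x hx
      rw [hT, Finset.mem_biUnion] at hx
      obtain ⟨o, _, hxo⟩ := hx
      rw [Finset.mem_powersetCard] at hxo ⊢
      exact ⟨Finset.subset_univ _, hxo.2⟩
    have hcard2 : ((Finset.univ : Finset GolayPt).powersetCard 5).card = 42504 := by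
      rw [Finset.card_powersetCard]
      have h24 : (Finset.univ : Finset GolayPt).card = 24 := by decide +kernel
      rw [h24]
      decide +kernel
    have heq : T = (Finset.univ : Finset GolayPt).powersetCard 5 :=
      Finset.eq_of_subset_of_card_le hsub (le_of_eq (hcard2.trans hcard.symm))
    have hsT : s ∈ T := by
      rw [heq, Finset.mem_powersetCard]
      exact ⟨Finset.subset_univ _, hs⟩
    rw [hT, Finset.mem_biUnion] at hsT
    obtain ⟨o, ho, hso⟩ := hsT
    exact ⟨o, mem_octadFinset.1 ho, (Finset.mem_powersetCard.1 hso).1⟩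
  obtain ⟨b, hb, hsb⟩ := hex
  exact ⟨b, ⟨hb, hsb⟩, fun c hc => octad_unique hc.1 hb hs hc.2 hsb⟩

end Cfsg.Agent.Lib.Helper3
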