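import Mathlib
import Cfsg.Prelude.Def_Sporadic_a
import Cfsg.Agent.Lib.Helper3.Golay2

set_option autoImplicit false

namespace Cfsg.Agent.Lib.Helper3

open Cfsg
open scoped Pointwise

theorem smul_support₂ (σ : Equiv.Perm GolayPt) (w : GolayPt → ZMod 2) :
    σ • support₂ w = support₂ (fun p => w (σ.symm p)) := by
  ext p
  rw [← Finset.inv_smul_mem_iff]
  simp only [support₂, Finset.mem_filter, Finset.mem_univ, true_and, Equiv.Perm.smul_def]
  rfl

theorem supports_finite : (supports (golayCode : Set (GolayPt → ZMod 2))).Finite :=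
  Set.toFinite _

theorem mem_M24_iff (σ : Equiv.Perm GolayPt) :
    σ ∈ M24 ↔ ∀ b ∈ supports (golayCode : Set (GolayPt → ZMod 2)),
      σ • b ∈ supports (golayCode : Set (GolayPt → ZMod 2)) :=
  MulAction.mem_stabilizer_set' supports_finite

theorem mem_M24_of (σ : Equiv.Perm GolayPt)
    (h : ∀ w ∈ golayCode, (fun p => w (σ.symm p)) ∈ golayCode) : σ ∈ M24 := by
  rw [mem_M24_iff]
  rintro _ ⟨w, hw, rfl⟩
  rw [smul_support₂]
  exact ⟨_, h w hw, rfl⟩

theorem mem_M24_of_gens (σ : Equiv.Perm GolayPt) (S : Set (GolayPt → ZMod 2))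
    (hS : golayCode = Submodule.span (ZMod 2) S)
    (h : ∀ w ∈ S, (fun p => w (σ.symm p)) ∈ golayCode) : σ ∈ M24 := by
  apply mem_M24_of
  have hle : golayCode ≤ golayCode.comap (LinearMap.funLeft (ZMod 2) (ZMod 2) σ.symm) := by
    conv_lhs => rw [hS]
    rw [Submodule.span_le]
    intro w hw
    exact h w hw
  intro w hw
  exact hle hw

/-- same criterion using `σ` itself rather than its inverse -/
theorem mem_M24_of_gens' (σ : Equiv.Perm GolayPt) (S : Set (GolayPt → ZMod 2))
    (hS : golayCode = Submodule.span (ZMod 2) S)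
    (h : ∀ w ∈ S, (fun p => w (σ p)) ∈ golayCode) : σ ∈ M24 := by
  have : σ⁻¹ ∈ M24 := mem_M24_of_gens σ⁻¹ S hS h
  simpa using M24.inv_mem this

theorem mem_M24_of_masks (σ : Equiv.Perm GolayPt)
    (h : ∀ m ∈ EL, ∃ m' ∈ codeList, ∀ p, word m (σ p) = word m' p) : σ ∈ M24 := by
  apply mem_M24_of_gens' σ _ golayCode_eq_span
  rintro _ ⟨m, hm, rfl⟩
  obtain ⟨m', hm', he⟩ := h m hm
  rw [funext he]
  exact word_mem_golayCode hm'

theorem shift_mem : Equiv.optionCongr (Equiv.addRight (1 : ZMod 23)) ∈ M24 := by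
  apply mem_M24_of_gens' _ _ rfl
  rintro w (⟨t, rfl⟩ | hw)
  · apply Submodule.subset_span
    left
    refine ⟨t - 1, ?_⟩
    funext p
    cases p with
    | none => rfl
    | some x =>
      have e : (Equiv.optionCongr (Equiv.addRight (1 : ZMod 23))) (some x) = some (x + 1) := rfl
      rw [e]
      simp only [qrWord]
      congr 1
      apply propext
      constructor
      · rintro ⟨r, hr⟩; exact ⟨r, by rw [hr]; ring⟩
      · rintro ⟨r, hr⟩; exact ⟨r, by linear_combination hr⟩
  · rw [Set.mem_singleton_iff] at hw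
    subst hw
    apply Submodule.subset_span
    right
    rfl

theorem mulSquare_mem (u : (ZMod 23)ˣ) (hu : IsSquare u) :
    Equiv.optionCongr (Units.mulLeft u) ∈ M24 := by
  obtain ⟨v, rfl⟩ := hu
  apply mem_M24_of_gens' _ _ rfl
  obtain ⟨a, ha⟩ : ∃ a : ZMod 23, a = (v : ZMod 23) := ⟨_, rfl⟩
  obtain ⟨b, hb⟩ : ∃ b : ZMod 23, b = ((v⁻¹ : (ZMod 23)ˣ) : ZMod 23) := ⟨_, rfl⟩
  have hab : a * b = 1 := by rw [ha, hb]; simp
  rintro w (⟨t, rfl⟩ | hw)
  · apply Submodule.subset_span
    left
    refine ⟨b * b * t, ?_⟩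
    funext p
    cases p with
    | none => rfl
    | some x =>
      have e : (Equiv.optionCongr (Units.mulLeft (v * v))) (some x) = some (a * a * x) := by
        rw [ha]
        simp
      rw [e]
      simp only [qrWord]
      congr 1
      apply propext
      constructor
      · rintro ⟨r, hr⟩
        refine ⟨a * r, ?_⟩
        rw [hr]
        linear_combination (a * b * t + t) * hab
      · rintro ⟨r, hr⟩
        refine ⟨b * r, ?_⟩
        linear_combination b * b * hr + (- x * a * b - x) * hab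
  · rw [Set.mem_singleton_iff] at hw
    subst hw
    apply Submodule.subset_span
    right
    rfl

set_option maxRecDepth 100000 in
theorem projInv_mem : projInv ∈ M24 := by
  apply mem_M24_of_masks
  have key : ∀ m ∈ EL, ∃ m' ∈ codeList, ∀ p, word m (projInvFun p) = word m' p := by
    decide +kernel
  exact key

set_option maxRecDepth 100000 in
theorem cubeTwist_mem : cubeTwist ∈ M24 := by
  apply mem_M24_of_masks
  have key : ∀ m ∈ EL, ∃ m' ∈ codeList, ∀ p, word m (cubeTwistFun p) = word m' p := by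
    decide +kernel
  exact key

end Cfsg.Agent.Lib.Helper3
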