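import Mathlib
import Cfsg.Prelude.Def_Sporadic_a
import Cfsg.Agent.Lib.Helper3.M24a

set_option autoImplicit false

namespace Cfsg.Agent.Lib.Helper3

open Cfsg
open scoped Pointwise

/-- `T` is the index table of the permutation `σ`. -/
def Rep (σ : Equiv.Perm GolayPt) (T : List ℕ) : Prop := ∀ p, idx (σ p) = T.getD (idx p) 0

/-- table lookup of letter `a` at index `i` -/
def lk (tabs : List (List ℕ)) (a i : ℕ) : ℕ :=
  match tabs[a]? with
  | some T => T.getD i 0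
  | none => i

/-- evaluate a word at an index -/
def ev (tabs : List (List ℕ)) : List ℕ → ℕ → ℕ
  | [], i => i
  | a :: l, i => lk tabs a (ev tabs l i)

/-- the permutation given by a word -/
def wp (ps : List (Equiv.Perm GolayPt)) (l : List ℕ) : Equiv.Perm GolayPt :=
  (l.map (fun a => ps.getD a 1)).prod

theorem rep_lk {ps : List (Equiv.Perm GolayPt)} {tabs : List (List ℕ)}
    (h : List.Forall₂ Rep ps tabs) : ∀ (a : ℕ) (q : GolayPt),
    idx ((ps.getD a 1) q) = lk tabs a (idx q) := by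
  induction h with
  | nil => intro a q; simp [lk]
  | cons hab _ ih =>
    intro a q
    cases a with
    | zero => simpa [lk] using hab q
    | succ a => simpa [lk] using ih a q

theorem idx_wp {ps : List (Equiv.Perm GolayPt)} {tabs : List (List ℕ)}
    (h : List.Forall₂ Rep ps tabs) (l : List ℕ) (p : GolayPt) :
    idx (wp ps l p) = ev tabs l (idx p) := by
  induction l with
  | nil => simp [wp, ev]
  | cons a l ih =>
    have e : wp ps (a :: l) p = (ps.getD a 1) (wp ps l p) := by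
      simp [wp, Equiv.Perm.mul_apply]
    rw [e, rep_lk h, ih, ev]

theorem wp_mem {ps : List (Equiv.Perm GolayPt)} {K : Subgroup (Equiv.Perm GolayPt)}
    (h : ∀ σ ∈ ps, σ ∈ K) (l : List ℕ) : wp ps l ∈ K := by
  apply Subgroup.list_prod_mem
  intro x hx
  obtain ⟨a, _, rfl⟩ := List.mem_map.1 hx
  by_cases ha : a < ps.length
  · rw [List.getD_eq_getElem _ _ ha]
    exact h _ (List.getElem_mem ha)
  · rw [List.getD_eq_default _ _ (by omega)]
    exact K.one_mem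

/-- extend a list of permutations by a straight-line program -/
def buildP : List (List ℕ) → List (Equiv.Perm GolayPt) → List (Equiv.Perm GolayPt)
  | [], acc => acc
  | d :: ds, acc => buildP ds (acc ++ [wp acc d])

/-- extend a list of tables by a straight-line program -/
def buildT : List (List ℕ) → List (List ℕ) → List (List ℕ)
  | [], acc => acc
  | d :: ds, acc => buildT ds (acc ++ [(List.range 24).map (ev acc d)])

theorem build_rep (ds : List (List ℕ)) : ∀ (accP : List (Equiv.Perm GolayPt)) (accT : List (List ℕ)),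
    List.Forall₂ Rep accP accT → List.Forall₂ Rep (buildP ds accP) (buildT ds accT) := by
  induction ds with
  | nil => intro accP accT h; exact h
  | cons d ds ih =>
    intro accP accT h
    apply ih
    apply List.rel_append h
    refine List.Forall₂.cons ?_ List.Forall₂.nil
    intro p
    rw [idx_wp h]
    have hp := idx_lt p
    rw [List.getD_eq_getElem _ _ (by simpa using hp)]
    simp

theorem build_mem {K : Subgroup (Equiv.Perm GolayPt)} (ds : List (List ℕ)) :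
    ∀ (accP : List (Equiv.Perm GolayPt)), (∀ σ ∈ accP, σ ∈ K) → ∀ σ ∈ buildP ds accP, σ ∈ K := by
  induction ds with
  | nil => intro accP h; exact h
  | cons d ds ih =>
    intro accP h
    apply ih
    intro σ hσ
    rcases List.mem_append.1 hσ with h1 | h1
    · exact h σ h1
    · rw [List.mem_singleton] at h1
      rw [h1]
      exact wp_mem h d

theorem Rep.inv {σ : Equiv.Perm GolayPt} {T T' : List ℕ} (h : Rep σ T)
    (hT : ∀ i < 24, T'.getD (T.getD i 0) 0 = i) : Rep σ⁻¹ T' := by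
  intro p
  have h1 := h (σ⁻¹ p)
  have h2 : σ (σ⁻¹ p) = p := by simp
  rw [h2] at h1
  rw [h1, hT _ (idx_lt _)]

/-- straight-line program defining further elements from `α, α⁻¹, γ, δ, δ⁻¹` -/

def slp : List (List ℕ) :=
  [[2, 0, 0, 2, 0, 4, 4, 1, 2],
  [2, 0, 3, 3, 1, 2, 1, 1, 2],
  [6, 0, 0, 0, 6, 1, 5],
  [6, 0, 5, 1, 1, 1, 5],
  [6, 6, 1, 6, 6],
  [5, 5, 0, 5, 5],
  [7, 10, 8, 9, 8, 8, 8, 9],
  [10, 7, 7, 7, 10, 7, 9, 8],
  [7, 7, 7, 10, 10],
  [9, 9, 8, 8, 8],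
  [7, 10, 8, 8, 10, 10, 10],
  [9, 9, 9, 7, 7, 9, 8],
  [13, 13, 16, 16, 14, 11],
  [12, 13, 15, 15, 14, 14],
  [12, 13, 11, 13, 16],
  [15, 14, 12, 14, 11],
  [11, 14, 16, 14],
  [13, 15, 13, 12],
  [18, 22, 17, 22, 19],
  [18, 19, 21, 18, 19, 22, 18],
  [17, 21, 20, 17, 22, 20, 17],
  [17, 21, 20, 18, 19, 19],
  [20, 20, 17, 19, 22, 18],
  [24, 27, 24],
  [24, 26],
  [25, 27],
  [24, 23, 25]]

/-- index tables of the five basic elements -/

def baseT : List (List ℕ) :=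
  [[1, 2, 3, 4, 5, 6, 7, 8, 9, 10, 11, 12, 13, 14, 15, 16, 17, 18, 19, 20, 21, 22, 0, 23],
  [22, 0, 1, 2, 3, 4, 5, 6, 7, 8, 9, 10, 11, 12, 13, 14, 15, 16, 17, 18, 19, 20, 21, 23],
  [23, 22, 11, 15, 17, 9, 19, 13, 20, 5, 16, 2, 21, 7, 18, 3, 10, 4, 14, 6, 8, 12, 1, 0],
  [0, 18, 6, 3, 2, 21, 1, 5, 16, 12, 7, 19, 8, 9, 17, 15, 13, 11, 4, 22, 10, 20, 14, 23],
  [0, 6, 4, 3, 18, 7, 2, 10, 12, 13, 20, 17, 9, 16, 22, 15, 8, 14, 1, 11, 21, 5, 19, 23]]

/-- index tables of all elements -/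

def allT : List (List ℕ) :=
  [[1, 2, 3, 4, 5, 6, 7, 8, 9, 10, 11, 12, 13, 14, 15, 16, 17, 18, 19, 20, 21, 22, 0, 23],
  [22, 0, 1, 2, 3, 4, 5, 6, 7, 8, 9, 10, 11, 12, 13, 14, 15, 16, 17, 18, 19, 20, 21, 23],
  [23, 22, 11, 15, 17, 9, 19, 13, 20, 5, 16, 2, 21, 7, 18, 3, 10, 4, 14, 6, 8, 12, 1, 0],
  [0, 18, 6, 3, 2, 21, 1, 5, 16, 12, 7, 19, 8, 9, 17, 15, 13, 11, 4, 22, 10, 20, 14, 23],
  [0, 6, 4, 3, 18, 7, 2, 10, 12, 13, 20, 17, 9, 16, 22, 15, 8, 14, 1, 11, 21, 5, 19, 23],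
  [11, 1, 15, 16, 5, 14, 3, 8, 10, 7, 21, 4, 12, 2, 0, 20, 19, 6, 13, 17, 18, 9, 22, 23],
  [14, 1, 13, 6, 11, 4, 17, 9, 7, 21, 8, 0, 12, 18, 5, 2, 3, 19, 20, 16, 15, 10, 22, 23],
  [0, 19, 7, 4, 5, 10, 3, 12, 1, 15, 20, 21, 6, 11, 13, 16, 14, 9, 2, 17, 22, 8, 18, 23],
  [0, 8, 18, 6, 3, 4, 12, 2, 21, 17, 5, 13, 7, 14, 16, 9, 15, 19, 22, 1, 10, 11, 20, 23],
  [0, 5, 16, 6, 22, 7, 15, 2, 9, 10, 19, 20, 14, 3, 17, 12, 11, 13, 4, 18, 1, 21, 8, 23],
  [0, 20, 7, 13, 18, 1, 3, 5, 22, 8, 9, 16, 15, 17, 12, 6, 2, 14, 19, 10, 11, 21, 4, 23],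
  [0, 1, 6, 3, 12, 8, 5, 18, 2, 16, 14, 21, 19, 17, 13, 11, 9, 10, 7, 22, 15, 20, 4, 23],
  [0, 1, 8, 3, 22, 6, 2, 18, 5, 16, 17, 15, 4, 14, 10, 20, 9, 13, 7, 12, 21, 11, 19, 23],
  [0, 1, 22, 16, 15, 2, 8, 9, 20, 7, 17, 6, 5, 21, 13, 10, 3, 4, 18, 14, 11, 19, 12, 23],
  [0, 1, 5, 16, 17, 12, 11, 9, 6, 7, 15, 20, 22, 14, 19, 4, 3, 10, 18, 21, 8, 13, 2, 23],
  [0, 1, 8, 3, 2, 6, 22, 19, 21, 4, 15, 17, 16, 12, 10, 7, 11, 13, 20, 14, 5, 9, 18, 23],
  [0, 1, 4, 3, 9, 20, 5, 15, 2, 21, 14, 16, 13, 17, 19, 10, 12, 11, 22, 7, 18, 8, 6, 23],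
  [0, 1, 2, 19, 22, 6, 15, 20, 18, 3, 17, 8, 12, 13, 7, 5, 4, 21, 11, 9, 14, 10, 16, 23],
  [0, 1, 2, 9, 16, 15, 5, 14, 11, 19, 21, 18, 12, 13, 20, 6, 22, 10, 8, 3, 7, 17, 4, 23],
  [0, 1, 2, 18, 7, 12, 5, 14, 20, 4, 22, 9, 15, 6, 11, 13, 21, 8, 10, 3, 16, 17, 19, 23],
  [0, 1, 2, 19, 9, 6, 13, 4, 17, 11, 18, 14, 5, 15, 7, 12, 20, 21, 3, 22, 8, 16, 10, 23],
  [0, 1, 2, 4, 15, 13, 3, 17, 19, 12, 11, 7, 21, 20, 16, 18, 9, 22, 6, 5, 8, 14, 10, 23],
  [0, 1, 2, 6, 3, 19, 18, 11, 20, 16, 22, 10, 9, 5, 21, 4, 14, 7, 15, 8, 13, 12, 17, 23],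
  [0, 1, 2, 3, 7, 5, 22, 4, 15, 11, 12, 9, 10, 21, 14, 8, 19, 17, 20, 16, 18, 13, 6, 23],
  [0, 1, 2, 3, 15, 17, 6, 19, 13, 11, 8, 22, 16, 10, 5, 18, 20, 14, 4, 21, 12, 7, 9, 23],
  [0, 1, 2, 3, 18, 14, 6, 21, 10, 22, 13, 9, 20, 8, 17, 4, 12, 5, 15, 7, 16, 19, 11, 23],
  [0, 1, 2, 3, 9, 14, 13, 22, 8, 21, 6, 18, 11, 10, 17, 19, 15, 5, 12, 16, 7, 4, 20, 23],
  [0, 1, 2, 3, 21, 17, 10, 20, 8, 4, 13, 12, 18, 6, 5, 16, 19, 14, 11, 15, 22, 9, 7, 23],
  [0, 1, 2, 3, 20, 5, 8, 18, 6, 16, 13, 19, 21, 10, 14, 22, 9, 17, 7, 11, 4, 12, 15, 23],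
  [0, 1, 2, 3, 11, 5, 10, 9, 13, 7, 6, 4, 22, 8, 14, 21, 18, 17, 16, 20, 19, 15, 12, 23],
  [0, 1, 2, 3, 19, 5, 13, 16, 10, 18, 8, 20, 15, 6, 14, 12, 7, 17, 9, 4, 11, 22, 21, 23],
  [0, 1, 2, 3, 12, 5, 9, 10, 16, 6, 7, 22, 4, 18, 14, 19, 8, 17, 13, 15, 21, 20, 11, 23]]

/-- the base -/

def baseL : List ℕ := [23, 0, 1, 2, 3, 5, 4]

/-- masks of the basic orbits -/

def DL : List ℕ := [16777215, 8388607, 8388606, 8388604, 8388600, 147488, 8241104]

/-- transversal words: level `k`, index `j`: a word mapping `j` to the `k`-th base point -/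

def UL : List (List (List ℕ)) :=
  [[[2],
    [2, 1],
    [2, 1, 1],
    [2, 1, 1, 1],
    [2, 1, 1, 3],
    [2, 0, 0, 3],
    [2, 1, 3],
    [2, 1, 3, 1],
    [2, 0, 0, 0, 2],
    [2, 0, 0, 2, 3],
    [2, 0, 0, 0, 4],
    [2, 0, 3, 3],
    [2, 0, 0, 2],
    [2, 0, 4, 0],
    [2, 0, 4],
    [2, 0, 4, 1],
    [2, 0, 4, 0, 3],
    [2, 0, 4, 4],
    [2, 1, 4],
    [2, 0, 3],
    [2, 0, 0, 0],
    [2, 0, 0],
    [2, 0],
    []],
   [[],
    [1],
    [1, 1],
    [6, 6, 0],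
    [6, 6],
    [5, 5],
    [5, 5, 1],
    [5, 5, 1, 1],
    [6, 0, 5],
    [6, 0, 0],
    [6, 0],
    [6],
    [6, 1],
    [5, 0],
    [5],
    [5, 1],
    [5, 1, 1],
    [5, 5, 1, 5],
    [5, 0, 5],
    [5, 1, 6, 0],
    [5, 1, 6],
    [0, 0],
    [0],
    []],
   [[],
    [],
    [8, 10, 8],
    [10, 7, 7],
    [10, 7],
    [10],
    [7, 10, 8, 9],
    [10, 10],
    [7],
    [7, 10],
    [8, 9],
    [9, 9],
    [10, 10, 8],
    [8, 8, 10],
    [8, 8, 9],
    [7, 10, 8],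
    [9, 9, 9],
    [8, 8],
    [8, 10],
    [8],
    [9],
    [7, 7],
    [7, 9],
    []],
   [[],
    [],
    [],
    [12, 13, 15, 13],
    [15],
    [13],
    [12],
    [14, 11, 15],
    [11],
    [15, 15],
    [15, 13, 12],
    [12, 13],
    [13, 13],
    [11, 16, 13],
    [14, 11, 14],
    [15, 14],
    [12, 13, 15],
    [15, 13],
    [14, 16],
    [14, 11],
    [11, 14],
    [11, 16],
    [14],
    []],
   [[],
    [],
    [],
    [],
    [22],
    [18, 22],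
    [21],
    [22, 20],
    [18, 21],
    [17],
    [20, 20],
    [17, 19],
    [17, 22],
    [21, 19],
    [17, 19, 19],
    [20, 21],
    [17, 21],
    [18, 19, 21],
    [20],
    [18],
    [17, 21, 19],
    [17, 21, 20],
    [18, 19],
    []],
   [[],
    [],
    [],
    [],
    [],
    [],
    [],
    [],
    [],
    [],
    [],
    [],
    [],
    [],
    [24],
    [],
    [],
    [25],
    [],
    [],
    [],
    [],
    [],
    []],
   [[],
    [],
    [],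
    [],
    [],
    [],
    [29, 23, 31],
    [23],
    [30, 23, 31],
    [29, 23],
    [23, 31],
    [29],
    [31],
    [28, 23, 31],
    [],
    [30, 31],
    [30, 23],
    [],
    [28, 23],
    [30],
    [28],
    [28, 31],
    [29, 31],
    []]]

/-- certificate for triviality of the stabiliser of the base -/

def fixCert : List (ℕ × ℕ × ℕ) :=
  [(5279, 8391797, 10), (5279, 8421811, 7), (5279, 5279, 12), (10558, 42232, 13), (8660134, 8660134, 18), (10558, 133817, 11), (10558, 10558, 8), (262637, 262637, 6), (36294, 36294, 15), (18147, 69395, 9), (18147, 18147, 14), (69395, 69395, 16), (133817, 133817, 17), (525274, 525274, 19), (1050548, 1050548, 20), (2101096, 2101096, 21), (4196943, 4196943, 22)]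

/-- mask of the octad through the first five base points -/
def Omask : ℕ := 8536111

/-- the shift `x ↦ x + 1` -/
def αp : Equiv.Perm GolayPt := Equiv.optionCongr (Equiv.addRight (1 : ZMod 23))

/-- the subgroup generated by the three standard permutations -/
def H3 : Subgroup (Equiv.Perm GolayPt) := Subgroup.closure {αp, projInv, cubeTwist}

theorem H3_le_M24 : H3 ≤ M24 := by
  rw [H3, Subgroup.closure_le]
  rintro x (rfl | rfl | rfl)
  · exact shift_mem
  · exact projInv_mem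
  · exact cubeTwist_mem

/-- the five basic elements -/
noncomputable def baseP : List (Equiv.Perm GolayPt) := [αp, αp⁻¹, projInv, cubeTwist, cubeTwist⁻¹]

/-- all elements of the straight-line program -/
noncomputable def allP : List (Equiv.Perm GolayPt) := buildP slp baseP

theorem rep_α : Rep αp (baseT.getD 0 []) := by
  unfold Rep; decide +kernel

theorem rep_γ : Rep projInv (baseT.getD 2 []) := by
  unfold Rep; decide +kernel

theorem rep_δ : Rep cubeTwist (baseT.getD 3 []) := by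
  have : ∀ p, idx (cubeTwistFun p) = (baseT.getD 3 []).getD (idx p) 0 := by decide +kernel
  exact this

theorem baseRep : List.Forall₂ Rep baseP baseT := by
  refine List.Forall₂.cons rep_α (List.Forall₂.cons (rep_α.inv (by decide +kernel))
    (List.Forall₂.cons rep_γ (List.Forall₂.cons rep_δ
      (List.Forall₂.cons (rep_δ.inv (by decide +kernel)) List.Forall₂.nil))))

theorem buildT_eq : buildT slp baseT = allT := by decide +kernel

theorem allRep : List.Forall₂ Rep allP allT := by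
  rw [← buildT_eq]
  exact build_rep slp baseP baseT baseRep

theorem allMem : ∀ σ ∈ allP, σ ∈ H3 := by
  apply build_mem
  intro σ hσ
  have hα : αp ∈ H3 := Subgroup.subset_closure (by simp)
  have hγ : projInv ∈ H3 := Subgroup.subset_closure (by simp)
  have hδ : cubeTwist ∈ H3 := Subgroup.subset_closure (by simp)
  simp only [baseP, List.mem_cons, List.not_mem_nil, or_false] at hσ
  rcases hσ with rfl | rfl | rfl | rfl | rfl
  · exact hα
  · exact H3.inv_mem hα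
  · exact hγ
  · exact hδ
  · exact H3.inv_mem hδ

/-- the permutation of a word in all the elements -/
noncomputable def W (l : List ℕ) : Equiv.Perm GolayPt := wp allP l

theorem W_mem (l : List ℕ) : W l ∈ H3 := wp_mem allMem l

theorem idx_W (l : List ℕ) (p : GolayPt) : idx (W l p) = ev allT l (idx p) := idx_wp allRep l p

theorem W_apply {l : List ℕ} {i j : ℕ} (hi : i < 24) (h : ev allT l i = j) : W l (pt i) = pt j := by
  rw [← pt_idx (W l (pt i)), idx_W, idx_pt hi, h]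

/-- the `k`-th base point -/
def bp (k : ℕ) : GolayPt := pt (baseL.getD k 0)

theorem level_ok : ∀ k < 7, ∀ j < 24, (DL.getD k 0).testBit j = true →
    ev allT ((UL.getD k []).getD j []) j = baseL.getD k 0 ∧
      ∀ i < k, ev allT ((UL.getD k []).getD j []) (baseL.getD i 0) = baseL.getD i 0 := by
  decide +kernel

theorem baseL_lt : ∀ k, baseL.getD k 0 < 24 := by
  intro k
  by_cases hk : k < 7
  · revert k; decide
  · rw [List.getD_eq_default _ _ (by simpa [baseL] using hk)]; norm_num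

theorem exists_trans {k : ℕ} (hk : k < 7) (q : GolayPt) (hq : (DL.getD k 0).testBit (idx q) = true) :
    ∃ g ∈ H3, g q = bp k ∧ ∀ i < k, g (bp i) = bp i := by
  obtain ⟨h1, h2⟩ := level_ok k hk (idx q) (idx_lt q) hq
  refine ⟨W ((UL.getD k []).getD (idx q) []), W_mem _, ?_, fun i hi => ?_⟩
  · have := W_apply (idx_lt q) h1
    rwa [pt_idx] at this
  · exact W_apply (baseL_lt i) (h2 i hi)

end Cfsg.Agent.Lib.Helper3
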