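import Mathlib
import Cfsg.Prelude.Def_Sporadic_a
import Cfsg.Agent.Lib.Helper3.M24b

set_option autoImplicit false

namespace Cfsg.Agent.Lib.Helper3

open Cfsg
open scoped Pointwise

/-! ### general orbit-stabiliser step -/

theorem card_step {Ω : Type*} [DecidableEq Ω] (L : Subgroup (Equiv.Perm Ω)) (b : Ω) (Δ : Finset Ω)
    (h1 : ∀ g ∈ L, g b ∈ Δ) (h2 : ∀ q ∈ Δ, ∃ g ∈ L, g q = b) :
    Nat.card L = Δ.card * Nat.card (L ⊓ MulAction.stabilizer (Equiv.Perm Ω) b : Subgroup _) := by
  have e1 := Nat.card_congr (MulAction.orbitProdStabilizerEquivGroup L b)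
  rw [Nat.card_prod] at e1
  rw [← e1]
  congr 1
  · have : MulAction.orbit L b = (Δ : Set Ω) := by
      ext q
      constructor
      · rintro ⟨g, rfl⟩
        exact h1 g.1 g.2
      · intro hq
        obtain ⟨g, hg, hgq⟩ := h2 q hq
        refine ⟨⟨g⁻¹, L.inv_mem hg⟩, ?_⟩
        show g⁻¹ b = q
        rw [← hgq]
        simp
    rw [this]
    simp
  · apply Nat.card_congr
    exact {
      toFun := fun g => ⟨g.1.1, g.1.2, g.2⟩
      invFun := fun g => ⟨⟨g.1, g.2.1⟩, g.2.2⟩
      left_inv := fun g => rfl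
      right_inv := fun g => rfl }

/-! ### octads and fixed points -/

theorem smul_mem_supports {g : Equiv.Perm GolayPt} (hg : g ∈ M24) {b : Finset GolayPt}
    (hb : b ∈ supports (golayCode : Set (GolayPt → ZMod 2))) :
    g • b ∈ supports (golayCode : Set (GolayPt → ZMod 2)) := (mem_M24_iff g).1 hg b hb

theorem smul_mem_octads {g : Equiv.Perm GolayPt} (hg : g ∈ M24) {o : Finset GolayPt}
    (ho : o ∈ octads) : g • o ∈ octads :=
  ⟨smul_mem_supports hg ho.1, by rw [Finset.card_smul_finset]; exact ho.2⟩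

theorem smul_mem_dodecads {g : Equiv.Perm GolayPt} (hg : g ∈ M24) {o : Finset GolayPt}
    (ho : o ∈ dodecads) : g • o ∈ dodecads :=
  ⟨smul_mem_supports hg ho.1, by rw [Finset.card_smul_finset]; exact ho.2⟩

theorem apply_mem_smul {g : Equiv.Perm GolayPt} {o : Finset GolayPt} {p : GolayPt} :
    g p ∈ g • o ↔ p ∈ o := by
  rw [← Equiv.Perm.smul_def, Finset.smul_mem_smul_finset_iff]

theorem smul_octad_eq {g : Equiv.Perm GolayPt} (hg : g ∈ M24) {o F : Finset GolayPt}
    (ho : o ∈ octads) (hF : ∀ p ∈ F, g p = p) (h5 : 5 ≤ (o ∩ F).card) : g • o = o := by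
  obtain ⟨s, hs, hc⟩ := Finset.exists_subset_card_eq h5
  apply octad_unique (smul_mem_octads hg ho) ho hc
  · intro p hp
    have hp' := Finset.mem_inter.1 (hs hp)
    rw [← hF p hp'.2]
    exact apply_mem_smul.2 hp'.1
  · exact fun p hp => (Finset.mem_inter.1 (hs hp)).1

theorem fs_and (a b : ℕ) : fs (a &&& b) = fs a ∩ fs b := by
  ext p
  simp only [mem_fs, Finset.mem_inter, Nat.testBit_and, Bool.and_eq_true]

theorem fs_mem_octads {a : ℕ} (ha : a ∈ codeList) (h8 : pc a = 8) : fs a ∈ octads :=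
  ⟨(mem_supports_iff _).2 ⟨a, ha, rfl⟩, by rw [card_fs, h8]⟩

theorem fs_mem_dodecads {a : ℕ} (ha : a ∈ codeList) (h8 : pc a = 12) : fs a ∈ dodecads :=
  ⟨(mem_supports_iff _).2 ⟨a, ha, rfl⟩, by rw [card_fs, h8]⟩

/-- checker for a fixed point propagation certificate -/
def chkFix : ℕ → List (ℕ × ℕ × ℕ) → Bool
  | F, [] => F == 16777215
  | F, (a, b, q) :: l =>
    codeList.contains a && (pc a == 8) && codeList.contains b && (pc b == 8) &&
      decide (5 ≤ pc (a &&& F)) && decide (5 ≤ pc (b &&& F)) &&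
      (((a &&& b) ^^^ (a &&& b &&& F)) == 2 ^ q) && chkFix (F ||| 2 ^ q) l

theorem fix_sound {g : Equiv.Perm GolayPt} (hg : g ∈ M24) (l : List (ℕ × ℕ × ℕ)) :
    ∀ F : ℕ, chkFix F l = true → (∀ p ∈ fs F, g p = p) → ∀ p, g p = p := by
  induction l with
  | nil =>
    intro F hF hfix p
    simp only [chkFix, beq_iff_eq] at hF
    subst hF
    apply hfix
    rw [mem_fs]
    have : ∀ i < 24, Nat.testBit 16777215 i = true := by decide
    exact this _ (idx_lt p)
  | cons x l ih =>
    obtain ⟨a, b, q⟩ := x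
    intro F hF hfix
    simp only [chkFix, Bool.and_eq_true, List.contains_iff_mem, beq_iff_eq,
      decide_eq_true_eq] at hF
    obtain ⟨⟨⟨⟨⟨⟨⟨ha, ha8⟩, hb⟩, hb8⟩, ha5⟩, hb5⟩, hq⟩, hrest⟩ := hF
    apply ih _ hrest
    have hga : g • fs a = fs a := by
      apply smul_octad_eq hg (fs_mem_octads ha ha8) hfix
      rw [← fs_and, card_fs]; exact ha5
    have hgb : g • fs b = fs b := by
      apply smul_octad_eq hg (fs_mem_octads hb hb8) hfix
      rw [← fs_and, card_fs]; exact hb5
    have hbit : ∀ i, (a.testBit i && b.testBit i && !F.testBit i) = decide (q = i) := by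
      intro i
      have := congrArg (fun n => Nat.testBit n i) hq
      simp only [Nat.testBit_xor, Nat.testBit_and, Nat.testBit_two_pow] at this
      rw [← this]
      cases a.testBit i <;> cases b.testBit i <;> cases F.testBit i <;> rfl
    intro p hp
    rw [mem_fs, Nat.testBit_or, Nat.testBit_two_pow, Bool.or_eq_true, decide_eq_true_eq] at hp
    rcases hp with hp | hp
    · exact hfix p (mem_fs.2 hp)
    · have h1 := hbit (idx p)
      rw [hp] at h1
      simp only [decide_true, Bool.and_eq_true, Bool.not_eq_true'] at h1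
      obtain ⟨⟨hpa, hpb⟩, hpF⟩ := h1
      have h2 : g p ∈ fs a := by rw [← hga]; exact apply_mem_smul.2 (mem_fs.2 hpa)
      have h3 : g p ∈ fs b := by rw [← hgb]; exact apply_mem_smul.2 (mem_fs.2 hpb)
      have h4 : g p ∉ fs F := by
        intro h
        have h5 := hfix _ h
        have h6 : g p = p := g.injective h5
        rw [h6, mem_fs, hpF] at h
        exact Bool.false_ne_true h
      have h5 := hbit (idx (g p))
      rw [mem_fs] at h2 h3 h4
      rw [h2, h3] at h5
      have h6 : F.testBit (idx (g p)) = false := by simpa using h4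
      rw [h6] at h5
      simp only [Bool.and_self, Bool.not_false, Bool.true_eq, decide_eq_true_eq] at h5
      apply idx_injective
      rw [← h5, hp]

/-! ### the stabiliser chain -/

/-- elements of `K` fixing the first `k` base points -/
def St (K : Subgroup (Equiv.Perm GolayPt)) (k : ℕ) : Subgroup (Equiv.Perm GolayPt) where
  carrier := {g | g ∈ K ∧ ∀ i < k, g (bp i) = bp i}
  mul_mem' := by
    rintro a b ⟨ha, ha'⟩ ⟨hb, hb'⟩
    exact ⟨K.mul_mem ha hb, fun i hi => by rw [Equiv.Perm.mul_apply, hb' i hi, ha' i hi]⟩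
  one_mem' := ⟨K.one_mem, fun _ _ => rfl⟩
  inv_mem' := by
    rintro a ⟨ha, ha'⟩
    exact ⟨K.inv_mem ha, fun i hi => by rw [Equiv.Perm.inv_eq_iff_eq, ha' i hi]⟩

theorem mem_St {K : Subgroup (Equiv.Perm GolayPt)} {k : ℕ} {g : Equiv.Perm GolayPt} :
    g ∈ St K k ↔ g ∈ K ∧ ∀ i < k, g (bp i) = bp i := Iff.rfl

theorem St_zero (K : Subgroup (Equiv.Perm GolayPt)) : St K 0 = K := by
  ext g
  simp [mem_St]

theorem St_succ (K : Subgroup (Equiv.Perm GolayPt)) (k : ℕ) :
    St K (k + 1) = St K k ⊓ MulAction.stabilizer (Equiv.Perm GolayPt) (bp k) := by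
  ext g
  simp only [mem_St, Subgroup.mem_inf, MulAction.mem_stabilizer_iff, Equiv.Perm.smul_def]
  constructor
  · rintro ⟨h1, h2⟩
    exact ⟨⟨h1, fun i hi => h2 i (by omega)⟩, h2 k (by omega)⟩
  · rintro ⟨⟨h1, h2⟩, h3⟩
    refine ⟨h1, fun i hi => ?_⟩
    rcases Nat.lt_succ_iff_lt_or_eq.1 hi with h | rfl
    · exact h2 i h
    · exact h3

theorem idx_bp (k : ℕ) : idx (bp k) = baseL.getD k 0 := idx_pt (baseL_lt k)

theorem Omask_octad : fs Omask ∈ octads := by
  apply fs_mem_octads <;> decide +kernel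

theorem mask_lemma1 : ∀ k < 5, ∀ j < 24, (∀ i < k, j ≠ baseL.getD i 0) →
    (DL.getD k 0).testBit j = true := by decide +kernel

theorem mask_lemma2 : ∀ j < 24, (∀ i < 5, j ≠ baseL.getD i 0) → Omask.testBit j = true →
    (DL.getD 5 0).testBit j = true := by decide +kernel

theorem mask_lemma3 : ∀ j < 24, Omask.testBit j = false → (DL.getD 6 0).testBit j = true := by
  decide +kernel

theorem base_inj : ∀ i < 7, ∀ j < 7, baseL.getD i 0 = baseL.getD j 0 → i = j := by decide

theorem St_ne {g : Equiv.Perm GolayPt} {k : ℕ} (hk : k < 7) (hg : ∀ i < k, g (bp i) = bp i) :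
    ∀ i < k, idx (g (bp k)) ≠ baseL.getD i 0 := by
  intro i hi h
  rw [← idx_bp i] at h
  have h1 := idx_injective h
  rw [← hg i hi] at h1
  have h2 := g.injective h1
  have h3 := congrArg idx h2
  rw [idx_bp, idx_bp] at h3
  have := base_inj k hk i (by omega) h3
  omega

theorem St_smul_O {g : Equiv.Perm GolayPt} {k : ℕ} (hk : 5 ≤ k) (hg : g ∈ St M24 k) :
    g • fs Omask = fs Omask := by
  apply smul_octad_eq hg.1 Omask_octad (F := (Finset.range 5).image bp)
  · intro p hp
    obtain ⟨i, hi, rfl⟩ := Finset.mem_image.1 hp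
    exact hg.2 i (by have := Finset.mem_range.1 hi; omega)
  · decide +kernel

theorem St_orbit {g : Equiv.Perm GolayPt} {k : ℕ} (hk : k < 7) (hg : g ∈ St M24 k) :
    g (bp k) ∈ fs (DL.getD k 0) := by
  rw [mem_fs]
  have hne := St_ne hk hg.2
  by_cases h5 : k < 5
  · exact mask_lemma1 k h5 _ (idx_lt _) hne
  · have hO := St_smul_O (by omega) hg
    have hk' : k = 5 ∨ k = 6 := by omega
    rcases hk' with rfl | rfl
    · apply mask_lemma2 _ (idx_lt _) hne
      rw [← mem_fs, ← hO]
      apply apply_mem_smul.2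
      rw [mem_fs, idx_bp]
      decide +kernel
    · apply mask_lemma3 _ (idx_lt _)
      have : g (bp 6) ∉ fs Omask := by
        rw [← hO]
        intro h
        have := apply_mem_smul.1 h
        rw [mem_fs, idx_bp] at this
        revert this
        decide +kernel
      rw [mem_fs] at this
      simpa using this

set_option maxRecDepth 100000 in
theorem fixCert_ok : chkFix 8388671 fixCert = true := by decide +kernel

theorem St_seven : St M24 7 = ⊥ := by
  rw [eq_bot_iff]
  intro g hg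
  rw [Subgroup.mem_bot]
  refine Equiv.ext (fun p => fix_sound hg.1 fixCert 8388671 fixCert_ok ?_ p)
  intro p hp
  have key : ∀ j < 24, Nat.testBit 8388671 j = true → ∃ i < 7, baseL.getD i 0 = j := by
    decide +kernel
  obtain ⟨i, hi, hij⟩ := key _ (idx_lt p) (mem_fs.1 hp)
  have : p = bp i := by rw [bp, hij, pt_idx]
  rw [this]
  exact hg.2 i hi

theorem card_St_step {K : Subgroup (Equiv.Perm GolayPt)} (h1 : H3 ≤ K) (h2 : K ≤ M24) {k : ℕ}
    (hk : k < 7) : Nat.card (St K k) = pc (DL.getD k 0) * Nat.card (St K (k + 1)) := by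
  rw [St_succ, ← card_fs]
  apply card_step
  · intro g hg
    exact St_orbit hk ⟨h2 hg.1, hg.2⟩
  · intro q hq
    obtain ⟨g, hg, hgq, hfix⟩ := exists_trans hk q (mem_fs.1 hq)
    exact ⟨g, ⟨h1 hg, hfix⟩, hgq⟩

theorem card_of_between {K : Subgroup (Equiv.Perm GolayPt)} (h1 : H3 ≤ K) (h2 : K ≤ M24) :
    Nat.card K = 244823040 := by
  have h7 : Nat.card (St K 7) = 1 := by
    have : St K 7 = ⊥ := by
      rw [eq_bot_iff, ← St_seven]
      intro g hg
      exact ⟨h2 hg.1, hg.2⟩
    rw [this]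
    simp
  have e0 := card_St_step h1 h2 (k := 0) (by norm_num)
  have e1 := card_St_step h1 h2 (k := 1) (by norm_num)
  have e2 := card_St_step h1 h2 (k := 2) (by norm_num)
  have e3 := card_St_step h1 h2 (k := 3) (by norm_num)
  have e4 := card_St_step h1 h2 (k := 4) (by norm_num)
  have e5 := card_St_step h1 h2 (k := 5) (by norm_num)
  have e6 := card_St_step h1 h2 (k := 6) (by norm_num)
  have p0 : pc (DL.getD 0 0) = 24 := by decide +kernel
  have p1 : pc (DL.getD 1 0) = 23 := by decide +kernel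
  have p2 : pc (DL.getD 2 0) = 22 := by decide +kernel
  have p3 : pc (DL.getD 3 0) = 21 := by decide +kernel
  have p4 : pc (DL.getD 4 0) = 20 := by decide +kernel
  have p5 : pc (DL.getD 5 0) = 3 := by decide +kernel
  have p6 : pc (DL.getD 6 0) = 16 := by decide +kernel
  rw [St_zero] at e0
  rw [e0, e1, e2, e3, e4, e5, e6, h7, p0, p1, p2, p3, p4, p5, p6]

theorem card_M24 : Nat.card M24 = 244823040 := card_of_between H3_le_M24 le_rfl

theorem H3_eq_M24 : H3 = M24 := by
  apply Subgroup.eq_of_le_of_card_ge H3_le_M24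
  rw [card_M24, card_of_between le_rfl H3_le_M24]

/-! ### five-fold transitivity -/

theorem five_trans_aux (x : Fin 5 ↪ GolayPt) : ∀ k ≤ 5, ∃ g ∈ M24, ∀ i : Fin 5, i.val < k →
    g (x i) = bp i := by
  intro k
  induction k with
  | zero => intro _; exact ⟨1, M24.one_mem, fun i hi => absurd hi (by omega)⟩
  | succ k ih =>
    intro hk
    obtain ⟨g, hg, hgx⟩ := ih (by omega)
    have hk5 : k < 5 := by omega
    have hbit : (DL.getD k 0).testBit (idx (g (x ⟨k, hk5⟩))) = true := by
      apply mask_lemma1 k hk5 _ (idx_lt _)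
      intro i hi h
      rw [← idx_bp i] at h
      have h1 := idx_injective h
      rw [← hgx ⟨i, by omega⟩ hi] at h1
      have h2 := x.injective (g.injective h1)
      have h3 := congrArg Fin.val h2
      simp at h3
      omega
    obtain ⟨h, hh, hq, hfix⟩ := exists_trans (by omega : k < 7) _ hbit
    refine ⟨h * g, M24.mul_mem (H3_le_M24 hh) hg, fun i hi => ?_⟩
    rw [Equiv.Perm.mul_apply]
    rcases Nat.lt_succ_iff_lt_or_eq.1 hi with h1 | h1
    · rw [hgx i h1, hfix i h1]
    · have : i = ⟨k, hk5⟩ := Fin.ext h1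
      rw [this]
      exact hq

theorem five_trans' (x y : Fin 5 ↪ GolayPt) : ∃ g ∈ M24, ∀ i, g (x i) = y i := by
  obtain ⟨g, hg, hgx⟩ := five_trans_aux x 5 le_rfl
  obtain ⟨h, hh, hhy⟩ := five_trans_aux y 5 le_rfl
  refine ⟨h⁻¹ * g, M24.mul_mem (M24.inv_mem hh) hg, fun i => ?_⟩
  rw [Equiv.Perm.mul_apply, hgx i i.2, Equiv.Perm.inv_eq_iff_eq, hhy i i.2]

theorem five_trans : MulAction.IsMultiplyPretransitive M24 GolayPt 5 := by
  refine ⟨fun x y => ?_⟩
  obtain ⟨g, hg, h⟩ := five_trans' x y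
  exact ⟨⟨g, hg⟩, DFunLike.ext _ _ (fun i => h i)⟩

end Cfsg.Agent.Lib.Helper3
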