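import Mathlib

set_option autoImplicit false

namespace Cfsg.Agent.Lib.Helper3

open Subgroup MulAction

theorem card_dvd_of_pretransitive (H X : Type*) [Group H] [MulAction H X]
    [IsPretransitive H X] [Nonempty X] : Nat.card X ∣ Nat.card H := by
  obtain ⟨a⟩ := ‹Nonempty X›
  rw [← index_stabilizer_of_transitive H a]
  exact Subgroup.index_dvd_card _

theorem sylow_card_eq {H : Type*} [Group H] [Finite H] {p t : ℕ} [hp : Fact p.Prime]
    (hH : Nat.card H = p * t) (ht : ¬ p ∣ t) (P : Sylow p H) : Nat.card P = p := by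
  have ht0 : t ≠ 0 := by
    rintro rfl
    exact ht (dvd_zero p)
  rw [P.card_eq_multiplicity, hH, Nat.factorization_mul hp.1.ne_zero ht0]
  simp [hp.1.factorization_self, Nat.factorization_eq_zero_of_not_dvd ht]

section

variable {G X : Type*} [Group G] [Finite G] [MulAction G X] [FaithfulSMul G X]

omit [Finite G] in
/-- A subgroup of prime order `p = |X|` acts transitively. -/
theorem exists_smul_eq_of_card_prime {p : ℕ} (hp : p.Prime) (hX : Nat.card X = p) (P : Subgroup G)
    (hP : Nat.card P = p) (a b : X) : ∃ y ∈ P, y • a = b := by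
  have : Finite X := Nat.finite_of_card_ne_zero (by rw [hX]; exact hp.ne_zero)
  -- a nontrivial element
  have hne : P ≠ ⊥ := by
    intro h
    rw [h] at hP
    simp at hP
    exact hp.one_lt.ne hP
  obtain ⟨x, hx1⟩ : ∃ x : P, x ≠ 1 := by
    by_contra hcon
    push Not at hcon
    apply hne
    rw [eq_bot_iff]
    intro y hy
    exact congrArg Subtype.val (hcon ⟨y, hy⟩)
  have hx1' : (x : G) ≠ 1 := fun h => hx1 (Subtype.ext h)
  obtain ⟨c, hc⟩ : ∃ c : X, (x : G) • c ≠ c := by
    by_contra hcon
    push Not at hcon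
    exact hx1' (FaithfulSMul.eq_of_smul_eq_smul (α := X) (fun c => by rw [hcon c, one_smul]))
  have h1 : Nat.card (orbit P c) ∣ p := by
    rw [← hP]
    have e1 := Nat.card_congr (MulAction.orbitProdStabilizerEquivGroup P c)
    rw [Nat.card_prod] at e1
    exact Dvd.intro _ e1
  have h2 : Nat.card (orbit P c) ≠ 1 := by
    intro h
    rw [Nat.card_eq_one_iff_unique] at h
    obtain ⟨hs, _⟩ := h
    have := hs.elim ⟨x • c, mem_orbit c x⟩ ⟨c, mem_orbit_self c⟩
    exact hc (congrArg Subtype.val this)
  have h3 : Nat.card (orbit P c) = p := ((Nat.dvd_prime hp).1 h1).resolve_left h2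
  have h4 : orbit P c = Set.univ := by
    rw [Set.eq_univ_iff_ncard, hX, ← h3]
    rfl
  have ha : a ∈ orbit P c := by rw [h4]; trivial
  have hb : b ∈ orbit P c := by rw [h4]; trivial
  obtain ⟨u, rfl⟩ := ha
  obtain ⟨v, rfl⟩ := hb
  refine ⟨v * u⁻¹, P.mul_mem v.2 (P.inv_mem u.2), ?_⟩
  show ((v : G) * (u : G)⁻¹) • ((u : G) • c) = (v : G) • c
  rw [mul_smul, inv_smul_smul]

omit [Finite G] in
theorem centralizer_eq_of_card_prime {p : ℕ} (hp : p.Prime) (hX : Nat.card X = p) (P : Subgroup G)
    (hP : Nat.card P = p) : centralizer (P : Set G) = P := by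
  have : Fact p.Prime := ⟨hp⟩
  have hcyc : IsCyclic P := isCyclic_of_prime_card hP
  have hcomm : ∀ y ∈ P, ∀ z ∈ P, y * z = z * y := by
    intro y hy z hz
    have := hcyc.commGroup.mul_comm ⟨y, hy⟩ ⟨z, hz⟩
    exact congrArg Subtype.val this
  have hne : Nonempty X := by
    by_contra h
    rw [not_nonempty_iff] at h
    rw [Nat.card_of_isEmpty] at hX
    exact hp.ne_zero hX.symm
  obtain ⟨a⟩ := hne
  apply le_antisymm
  · intro c hc
    obtain ⟨y, hy, hya⟩ := exists_smul_eq_of_card_prime hp hX P hP a (c • a)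
    have : c = y := by
      apply FaithfulSMul.eq_of_smul_eq_smul (α := X)
      intro b
      obtain ⟨z, hz, rfl⟩ := exists_smul_eq_of_card_prime hp hX P hP a b
      rw [← mul_smul, ← mul_smul, ← (mem_centralizer_iff.1 hc z hz), mul_smul, ← hya, ← mul_smul,
        hcomm y hy z hz]
    rw [this]
    exact hy
  · intro y hy
    rw [mem_centralizer_iff]
    intro z hz
    exact hcomm z hz y hy

/-- `|N_G(P)| = p r` with `r ∣ p - 1`. -/
theorem card_normalizer_of_card_prime {p : ℕ} (hp : p.Prime) (hX : Nat.card X = p) (P : Subgroup G)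
    (hP : Nat.card P = p) : ∃ r, r ∣ p - 1 ∧ Nat.card (normalizer (P : Set G)) = p * r := by
  have : Fact p.Prime := ⟨hp⟩
  have hcyc : IsCyclic P := isCyclic_of_prime_card hP
  have key := card_dvd_of_injective _ (QuotientGroup.kerLift_injective P.normalizerMonoidHom)
  rw [normalizerMonoidHom_ker, ← index, ← relIndex, centralizer_eq_of_card_prime hp hX P hP,
    hcyc.card_mulAut, hP, Nat.totient_prime hp] at key
  refine ⟨_, key, ?_⟩
  have h1 := (P.subgroupOf (normalizer (P : Set G))).card_mul_index
  rw [Nat.card_congr (subgroupOfEquivOfLe (le_normalizer (H := P))).toEquiv, hP] at h1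
  exact h1.symm

/-- Chapman-style simplicity criterion for transitive groups of prime degree. -/
theorem simple_of_prime_degree {p t r : ℕ} (hp : p.Prime) (hX : Nat.card X = p)
    [IsPretransitive G X] (hG : Nat.card G = p * t) (ht : ¬ p ∣ t) (hr : r.Prime) (htr : t ≠ r)
    (hN : ∀ P : Subgroup G, Nat.card P = p → Nat.card (normalizer (P : Set G)) = p * r) :
    IsSimpleGroup G := by
  have : Fact p.Prime := ⟨hp⟩
  have hXfin : Finite X := Nat.finite_of_card_ne_zero (by rw [hX]; exact hp.ne_zero)
  have hXne : Nonempty X := by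
    by_contra h
    rw [not_nonempty_iff] at h
    rw [Nat.card_of_isEmpty] at hX
    exact hp.ne_zero hX.symm
  have hprim : IsPreprimitive G X := IsPreprimitive.of_prime_card (by rw [hX]; exact hp)
  have hnontriv : Nontrivial G := by
    rw [← Finite.one_lt_card_iff_nontrivial, hG]
    have ht0 : t ≠ 0 := by rintro rfl; exact ht (dvd_zero p)
    calc 1 < p := hp.one_lt
      _ ≤ p * t := Nat.le_mul_of_pos_right _ (Nat.pos_of_ne_zero ht0)
  -- nontrivial normal subgroups are transitive
  have htrans : ∀ N : Subgroup G, N.Normal → N ≠ ⊥ → IsPretransitive N X := by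
    intro N hNn hNb
    apply IsQuasiPreprimitive.isPretransitive_of_normal (G := G)
    intro hfix
    apply hNb
    rw [eq_bot_iff]
    intro n hn
    rw [mem_bot]
    apply FaithfulSMul.eq_of_smul_eq_smul (α := X)
    intro x
    have hx : x ∈ fixedPoints N X := by rw [hfix]; trivial
    rw [one_smul]
    exact hx ⟨n, hn⟩
  refine ⟨fun N hNn => ?_⟩
  by_cases hNb : N = ⊥
  · exact Or.inl hNb
  right
  have hNt := htrans N hNn hNb
  have hpN : p ∣ Nat.card N := by
    rw [← hX]
    exact card_dvd_of_pretransitive N X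
  -- a Sylow subgroup inside N
  obtain ⟨x, hx⟩ := exists_prime_orderOf_dvd_card' p hpN
  have hz : Nat.card (zpowers (x : G)) = p := by
    rw [Nat.card_zpowers, Subgroup.orderOf_coe, hx]
  obtain ⟨P, hPle⟩ := (IsPGroup.of_card (n := 1) (by rw [hz, pow_one])).exists_le_sylow
  have hPcard : Nat.card P = p := sylow_card_eq hG ht P
  have hPeq : zpowers (x : G) = P := Subgroup.eq_of_le_of_card_ge hPle (by rw [hz]; exact hPcard.le)
  have hPN : (P : Subgroup G) ≤ N := by
    rw [← hPeq, zpowers_le]
    exact x.2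
  have hfrat := Sylow.normalizer_sup_eq_top' P hPN
  have hM := hN P hPcard
  set M := normalizer ((P : Subgroup G) : Set G) with hMdef
  have hPM : (P : Subgroup G) ≤ M ⊓ N := le_inf le_normalizer hPN
  have hd1 : p ∣ Nat.card (M ⊓ N : Subgroup G) := by
    rw [← hPcard]
    exact Subgroup.card_dvd_of_le hPM
  have hd2 : Nat.card (M ⊓ N : Subgroup G) ∣ p * r := by
    rw [← hM]
    exact Subgroup.card_dvd_of_le inf_le_left
  obtain ⟨k, hk⟩ := hd1
  rw [hk] at hd2
  have hkr : k ∣ r := Nat.dvd_of_mul_dvd_mul_left hp.pos hd2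
  rcases (Nat.dvd_prime hr).1 hkr with rfl | rfl
  · -- M ⊓ N = P: Burnside
    exfalso
    rw [mul_one] at hk
    have hMN : (P : Subgroup G) = M ⊓ N :=
      Subgroup.eq_of_le_of_card_ge hPM (by rw [hk]; exact hPcard.ge)
    let Q : Sylow p N := P.subtype hPN
    have hQmem : ∀ n : N, n ∈ Q ↔ (n : G) ∈ P := fun n => Iff.rfl
    have hcomm : ∀ y ∈ P, ∀ z ∈ P, y * z = z * y := by
      have hcyc : IsCyclic P := isCyclic_of_prime_card hPcard
      intro y hy z hz
      have := hcyc.commGroup.mul_comm ⟨y, hy⟩ ⟨z, hz⟩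
      exact congrArg Subtype.val this
    have hQ : normalizer ((Q : Subgroup N) : Set N) ≤ centralizer ((Q : Subgroup N) : Set N) := by
      intro n hn
      have hnM : (n : G) ∈ M := by
        rw [hMdef, mem_normalizer_iff]
        intro h
        constructor
        · intro hh
          exact (hQmem _).1 ((mem_normalizer_iff.1 hn ⟨h, hPN hh⟩).1 hh)
        · intro hh
          have hhN : h ∈ N := by
            have h1 := N.mul_mem (N.mul_mem (N.inv_mem n.2) (hPN hh)) n.2
            simpa [mul_assoc] using h1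
          exact (mem_normalizer_iff.1 hn ⟨h, hhN⟩).2 hh
      have hnP : (n : G) ∈ (P : Subgroup G) := by
        rw [hMN]
        exact ⟨hnM, n.2⟩
      rw [mem_centralizer_iff]
      intro z hz
      exact Subtype.ext (hcomm _ hz _ hnP)
    set K := (MonoidHom.transferSylow Q hQ).ker with hKdef
    have hKp : ¬ p ∣ Nat.card K := MonoidHom.not_dvd_card_ker_transferSylow Q hQ
    have hQcard : Nat.card Q = p :=
      (Nat.card_congr (subgroupOfEquivOfLe hPN).toEquiv).trans hPcard
    have hKchar : ∀ n : N, n ∈ K ↔ ¬ p ∣ orderOf n := by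
      intro n
      constructor
      · intro hn hdvd
        apply hKp
        have h1 : orderOf (⟨n, hn⟩ : K) ∣ Nat.card K := orderOf_dvd_natCard _
        rw [Subgroup.orderOf_mk] at h1
        exact hdvd.trans h1
      · intro hn
        rw [hKdef, MonoidHom.mem_ker]
        have h1 : orderOf (MonoidHom.transferSylow Q hQ n) ∣ orderOf n := orderOf_map_dvd _ n
        have h2 : orderOf (MonoidHom.transferSylow Q hQ n) ∣ p :=
          (orderOf_dvd_natCard (MonoidHom.transferSylow Q hQ n)).trans (dvd_of_eq hQcard)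
        rcases (Nat.dvd_prime hp).1 h2 with h3 | h3
        · exact orderOf_eq_one_iff.1 h3
        · rw [h3] at h1
          exact absurd h1 hn
    let K' : Subgroup G := K.map N.subtype
    have hK'mem : ∀ g : G, g ∈ K' ↔ g ∈ N ∧ ¬ p ∣ orderOf g := by
      intro g
      constructor
      · rintro ⟨n, hn, rfl⟩
        refine ⟨n.2, ?_⟩
        have := (hKchar n).1 hn
        simpa using this
      · rintro ⟨hgN, hg⟩
        refine ⟨⟨g, hgN⟩, (hKchar _).2 ?_, rfl⟩
        rwa [Subgroup.orderOf_mk]
    have hK'n : K'.Normal := by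
      constructor
      intro k hk g
      rw [hK'mem] at hk ⊢
      refine ⟨hNn.conj_mem k hk.1 g, ?_⟩
      have : orderOf (g * k * g⁻¹) = orderOf k := (MulAut.conj g).orderOf_eq k
      rw [this]
      exact hk.2
    have hK'card : Nat.card K' = Nat.card K :=
      Nat.card_congr (K.equivMapOfInjective N.subtype N.subtype_injective).symm.toEquiv
    have hK'bot : K' = ⊥ := by
      by_contra hne
      have := htrans K' hK'n hne
      apply hKp
      rw [← hK'card, ← hX]
      exact card_dvd_of_pretransitive K' X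
    have hKone : Nat.card K = 1 := by
      rw [← hK'card, hK'bot]
      simp
    have hcompl := MonoidHom.ker_transferSylow_isComplement' Q hQ
    have hcN := hcompl.card_mul_card
    rw [← hKdef, hKone, one_mul] at hcN
    have hNcard : Nat.card N = p := by rw [← hcN]; exact hQcard
    have hNP : (P : Subgroup G) = N := Subgroup.eq_of_le_of_card_ge hPN (by rw [hNcard]; exact hPcard.ge)
    have hMtop : M = ⊤ := by
      rw [hMdef, hNP]
      exact normalizer_eq_top N
    rw [hMtop, Subgroup.card_top, hG] at hM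
    exact htr (Nat.eq_of_mul_eq_mul_left hp.pos hM)
  · -- M ≤ N
    have hMN : M ⊓ N = M := Subgroup.eq_of_le_of_card_ge inf_le_left (by rw [hk, hM])
    have hMleN : M ≤ N := by
      rw [← hMN]
      exact inf_le_right
    rw [← hfrat]
    exact (sup_eq_right.2 hMleN).symm

end

end Cfsg.Agent.Lib.Helper3
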