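import Mathlib
import Cfsg.Agent.Lib.Helper3.PrimeDeg

set_option autoImplicit false

namespace Cfsg.Agent.Lib.Helper3

open Subgroup MulAction

/-- A 2-transitive faithful group with simple point stabiliser, of degree not a prime power,
is simple. -/
theorem simple_of_two_transitive {G X : Type*} [Group G] [Finite G] [MulAction G X]
    [FaithfulSMul G X] (h2 : IsMultiplyPretransitive G X 2) (a : X)
    (hs : IsSimpleGroup (stabilizer G a)) (hX : ¬ IsPrimePow (Nat.card X)) : IsSimpleGroup G := by
  have hprim : IsPreprimitive G X := isPreprimitive_of_is_two_pretransitive h2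
  have hnontriv : Nontrivial G := by
    obtain ⟨x, y, hxy⟩ := hs.toNontrivial.exists_pair_ne
    exact ⟨x, y, fun h => hxy (Subtype.ext h)⟩
  rw [is_two_pretransitive_iff] at h2
  refine ⟨fun N hNn => ?_⟩
  by_cases hNb : N = ⊥
  · exact Or.inl hNb
  right
  have hNt : IsPretransitive N X := by
    apply IsQuasiPreprimitive.isPretransitive_of_normal (G := G)
    intro hfix
    apply hNb
    rw [eq_bot_iff]
    intro n hn
    rw [mem_bot]
    apply FaithfulSMul.eq_of_smul_eq_smul (α := X)
    intro x
    have hx : x ∈ fixedPoints N X := by rw [hfix]; trivial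
    rw [one_smul]
    exact hx ⟨n, hn⟩
  have hnorm : (N.subgroupOf (stabilizer G a)).Normal := inferInstance
  rcases hs.eq_bot_or_eq_top_of_normal _ hnorm with h | h
  · exfalso
    have hdisj : ∀ n ∈ N, n • a = a → n = 1 := by
      intro n hn hna
      have : (⟨n, hna⟩ : stabilizer G a) ∈ N.subgroupOf (stabilizer G a) := hn
      rw [h, mem_bot] at this
      exact congrArg Subtype.val this
    have hconj : ∀ n ∈ N, ∀ n' ∈ N, n ≠ 1 → n' ≠ 1 → orderOf n = orderOf n' := by
      intro n hn n' hn' h1 h1'
      have hna : a ≠ n • a := fun h => h1 (hdisj n hn h.symm)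
      have hna' : a ≠ n' • a := fun h => h1' (hdisj n' hn' h.symm)
      obtain ⟨g, hga, hgn⟩ := h2 hna hna'
      have hm : n'⁻¹ * (g * n * g⁻¹) = 1 := by
        apply hdisj _ (N.mul_mem (N.inv_mem hn') (hNn.conj_mem n hn g))
        have hga' : g⁻¹ • a = a := by rw [inv_smul_eq_iff, hga]
        rw [mul_smul, mul_smul, mul_smul, hga', hgn, inv_smul_smul]
      have : g * n * g⁻¹ = n' := by
        rw [inv_mul_eq_one] at hm
        exact hm.symm
      rw [← this]
      exact ((MulAut.conj g).orderOf_eq n).symm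
    have hNcard : Nat.card N = Nat.card X := by
      rw [← index_stabilizer_of_transitive N a]
      have : stabilizer N a = ⊥ := by
        rw [eq_bot_iff]
        intro n hn
        rw [mem_bot]
        exact Subtype.ext (hdisj n n.2 hn)
      rw [this, index_bot]
    have hN1 : Nat.card N ≠ 1 := by
      intro h
      exact hNb (card_eq_one.1 h)
    obtain ⟨q, hq, hqd⟩ := Nat.exists_prime_and_dvd hN1
    have : Fact q.Prime := ⟨hq⟩
    obtain ⟨x, hx⟩ := exists_prime_orderOf_dvd_card' q hqd
    have hx1 : (x : G) ≠ 1 := by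
      intro h
      have : x = 1 := Subtype.ext h
      rw [this, orderOf_one] at hx
      exact hq.one_lt.ne hx
    have hpg : IsPGroup q N := by
      intro n
      refine ⟨1, ?_⟩
      rw [pow_one]
      by_cases hn : (n : G) = 1
      · have : n = 1 := Subtype.ext hn
        rw [this, one_pow]
      · have h3 := hconj n n.2 x x.2 hn hx1
        rw [Subgroup.orderOf_coe, Subgroup.orderOf_coe, hx] at h3
        rw [← h3]
        exact pow_orderOf_eq_one n
    obtain ⟨k, hk⟩ := hpg.exists_card_eq
    apply hX
    rw [← hNcard, hk]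
    have hk0 : k ≠ 0 := by
      rintro rfl
      exact hN1 (by rw [hk, pow_zero])
    exact hq.isPrimePow.pow hk0
  · have hle : stabilizer G a ≤ N := by
      intro g hg
      have : (⟨g, hg⟩ : stabilizer G a) ∈ N.subgroupOf (stabilizer G a) := by rw [h]; trivial
      exact this
    rw [eq_top_iff]
    intro g _
    obtain ⟨n, hn⟩ := hNt.exists_smul_eq a (g • a)
    have h3 : (n : G)⁻¹ * g ∈ stabilizer G a := by
      rw [mem_stabilizer_iff, mul_smul, inv_smul_eq_iff]
      exact hn.symm
    have := N.mul_mem n.2 (hle h3)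
    simpa using this

theorem card_of_sharp {G X : Type*} [Group G] [MulAction G X] [Finite X] (k : ℕ)
    [IsMultiplyPretransitive G X k] (hsharp : ∀ x : Fin k ↪ X, stabilizer G x = ⊥)
    (hk : k ≤ Nat.card X) : Nat.card G = (Nat.card X).descFactorial k := by
  have : Fintype X := Fintype.ofFinite X
  have hne : Nonempty (Fin k ↪ X) := by
    rw [Function.Embedding.nonempty_iff_card_le]
    simpa [Nat.card_eq_fintype_card] using hk
  obtain ⟨x0⟩ := hne
  have h1 := index_stabilizer_of_transitive G x0
  rw [hsharp x0, index_bot] at h1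
  rw [h1, Nat.card_eq_fintype_card, Fintype.card_embedding_eq, Nat.card_eq_fintype_card]
  simp

theorem faithful_of_sharp {G X : Type*} [Group G] [MulAction G X] [Finite X] (k : ℕ)
    (hsharp : ∀ x : Fin k ↪ X, stabilizer G x = ⊥) (hk : k ≤ Nat.card X) : FaithfulSMul G X := by
  have : Fintype X := Fintype.ofFinite X
  have hne : Nonempty (Fin k ↪ X) := by
    rw [Function.Embedding.nonempty_iff_card_le]
    simpa [Nat.card_eq_fintype_card] using hk
  obtain ⟨x0⟩ := hne
  refine ⟨fun {g1 g2} h => ?_⟩
  have : g2⁻¹ * g1 ∈ stabilizer G x0 := by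
    rw [mem_stabilizer_iff]
    ext i
    rw [Function.Embedding.smul_apply, mul_smul, h, inv_smul_smul]
  rw [hsharp x0, mem_bot, inv_mul_eq_one] at this
  exact this.symm

/-- normaliser order from Sylow's congruence -/
theorem card_normalizer_of_sylow {G X : Type*} [Group G] [Finite G] [MulAction G X]
    [FaithfulSMul G X] {p t : ℕ} (hp : p.Prime) (hX : Nat.card X = p) (hG : Nat.card G = p * t)
    (ht : ¬ p ∣ t) (P : Subgroup G) (hP : Nat.card P = p) :
    ∃ r, r ∣ p - 1 ∧ Nat.card (normalizer (P : Set G)) = p * r ∧ ∃ n, n * r = t ∧ n % p = 1 := by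
  have : Fact p.Prime := ⟨hp⟩
  obtain ⟨r, hr, hc⟩ := card_normalizer_of_card_prime hp hX P hP
  refine ⟨r, hr, hc, ?_⟩
  have ht0 : t ≠ 0 := by rintro rfl; exact ht (dvd_zero p)
  have hfac : (Nat.card G).factorization p = 1 := by
    rw [hG, Nat.factorization_mul hp.ne_zero ht0]
    simp [hp.factorization_self, Nat.factorization_eq_zero_of_not_dvd ht]
  let S : Sylow p G := Sylow.ofCard P (by rw [hfac, pow_one, hP])
  have h1 : Nat.card (Sylow p G) = (normalizer (P : Set G)).index := S.card_eq_index_normalizer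
  have h2 := card_sylow_modEq_one p G
  have h3 := (normalizer (P : Set G)).card_mul_index
  rw [hc, hG, mul_assoc] at h3
  have h4 := Nat.eq_of_mul_eq_mul_left hp.pos h3
  refine ⟨(normalizer (P : Set G)).index, by rw [mul_comm]; exact h4, ?_⟩
  rw [← h1]
  have := h2
  rw [Nat.ModEq, Nat.mod_eq_of_lt hp.one_lt] at this
  exact this

theorem simple_sharp4_11 {G X : Type*} [Group G] [MulAction G X] (hX : Nat.card X = 11)
    [h4 : IsMultiplyPretransitive G X 4] (hsharp : ∀ x : Fin 4 ↪ X, stabilizer G x = ⊥) :
    IsSimpleGroup G ∧ Nat.card G = 7920 := by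
  have hXfin : Finite X := Nat.finite_of_card_ne_zero (by rw [hX]; norm_num)
  have hcard : Nat.card G = 7920 := by
    rw [card_of_sharp 4 hsharp (by rw [hX]; norm_num), hX]
    decide
  refine ⟨?_, hcard⟩
  have hGfin : Finite G := Nat.finite_of_card_ne_zero (by rw [hcard]; norm_num)
  have hfaith : FaithfulSMul G X := faithful_of_sharp 4 hsharp (by rw [hX]; norm_num)
  have htrans : IsPretransitive G X := by
    rw [← is_one_pretransitive_iff]
    exact isMultiplyPretransitive_of_le (n := 4) (by norm_num) (by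
      rw [hX]; norm_num)
  have hp : Nat.Prime 11 := by norm_num
  apply simple_of_prime_degree (p := 11) (t := 720) (r := 5) hp hX (by rw [hcard]) (by norm_num)
    (by norm_num) (by norm_num)
  intro P hP
  obtain ⟨r, hr, hc, n, hn, hmod⟩ := card_normalizer_of_sylow (t := 720) hp hX (by rw [hcard])
    (by norm_num) P hP
  have hr10 : r ∈ Nat.divisors 10 := by
    rw [Nat.mem_divisors]; exact ⟨hr, by norm_num⟩
  have hdiv : Nat.divisors 10 = {1, 2, 5, 10} := by decide
  rw [hdiv] at hr10
  simp only [Finset.mem_insert, Finset.mem_singleton] at hr10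
  rcases hr10 with rfl | rfl | rfl | rfl
  · omega
  · omega
  · exact hc
  · omega

/-- sharpness passes to point stabilisers -/
theorem sharp_ofStabilizer {G X : Type*} [Group G] [MulAction G X] (k : ℕ)
    (hsharp : ∀ x : Fin (k + 1) ↪ X, stabilizer G x = ⊥) (a : X)
    (y : Fin k ↪ SubMulAction.ofStabilizer G a) : stabilizer (stabilizer G a) y = ⊥ := by
  rw [eq_bot_iff]
  intro g hg
  rw [mem_bot]
  apply Subtype.ext
  have h1 : (g : G) ∈ stabilizer G (SubMulAction.ofStabilizer.snoc y) := by
    rw [mem_stabilizer_iff]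
    ext i
    rw [Function.Embedding.smul_apply]
    rcases Fin.eq_castSucc_or_eq_last i with ⟨i, rfl⟩ | rfl
    · rw [SubMulAction.ofStabilizer.snoc_castSucc]
      have h2 := DFunLike.congr_fun (mem_stabilizer_iff.1 hg) i
      rw [Function.Embedding.smul_apply] at h2
      exact congrArg Subtype.val h2
    · rw [SubMulAction.ofStabilizer.snoc_last]
      exact g.2
  rw [hsharp, mem_bot] at h1
  exact h1

theorem simple_sharp5_12 {G X : Type*} [Group G] [MulAction G X] (hX : Nat.card X = 12)
    [h5 : IsMultiplyPretransitive G X 5] (hsharp : ∀ x : Fin 5 ↪ X, stabilizer G x = ⊥) :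
    IsSimpleGroup G ∧ Nat.card G = 95040 := by
  have hXfin : Finite X := Nat.finite_of_card_ne_zero (by rw [hX]; norm_num)
  have hcard : Nat.card G = 95040 := by
    rw [card_of_sharp 5 hsharp (by rw [hX]; norm_num), hX]
    decide
  refine ⟨?_, hcard⟩
  have hGfin : Finite G := Nat.finite_of_card_ne_zero (by rw [hcard]; norm_num)
  have hfaith : FaithfulSMul G X := faithful_of_sharp 5 hsharp (by rw [hX]; norm_num)
  have htrans : IsPretransitive G X := by
    rw [← is_one_pretransitive_iff]
    exact isMultiplyPretransitive_of_le (n := 5) (by norm_num) (by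
      rw [hX]; norm_num)
  have h2 : IsMultiplyPretransitive G X 2 :=
    isMultiplyPretransitive_of_le (n := 5) (by norm_num) (by rw [hX]; norm_num)
  have hne : Nonempty X := by
    by_contra h
    rw [not_nonempty_iff] at h
    rw [Nat.card_of_isEmpty] at hX
    omega
  obtain ⟨a⟩ := hne
  have h4 : IsMultiplyPretransitive (stabilizer G a) (SubMulAction.ofStabilizer G a) 4 :=
    SubMulAction.ofStabilizer.isMultiplyPretransitive.mp h5
  have hs := (simple_sharp4_11 (G := stabilizer G a) (X := SubMulAction.ofStabilizer G a)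
    (by rw [SubMulAction.nat_card_ofStabilizer_eq, hX]) (sharp_ofStabilizer 4 hsharp a)).1
  apply simple_of_two_transitive h2 a hs
  rw [hX]
  intro hpp
  rw [isPrimePow_nat_iff] at hpp
  obtain ⟨p, k, hp, hk, hpk⟩ := hpp
  have h2 : (2 : ℕ) ∣ p ^ k := by rw [hpk]; norm_num
  have h3 : (3 : ℕ) ∣ p ^ k := by rw [hpk]; norm_num
  have e2 := (Nat.prime_dvd_prime_iff_eq Nat.prime_two hp).1 (Nat.prime_two.dvd_of_dvd_pow h2)
  have e3 := (Nat.prime_dvd_prime_iff_eq Nat.prime_three hp).1 (Nat.prime_three.dvd_of_dvd_pow h3)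
  omega

end Cfsg.Agent.Lib.Helper3
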