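import Mathlib
import Cfsg.Agent.Lib.Helper3.M24c
import Cfsg.Agent.Lib.Helper3.Sharp

set_option autoImplicit false

namespace Cfsg.Agent.Lib.Helper3

open Subgroup MulAction Cfsg

theorem faithful_ofStabilizer {G X : Type*} [Group G] [MulAction G X] [FaithfulSMul G X] (a : X) :
    FaithfulSMul (stabilizer G a) (SubMulAction.ofStabilizer G a) := by
  refine ⟨fun {g1 g2} h => ?_⟩
  apply Subtype.ext
  apply FaithfulSMul.eq_of_smul_eq_smul (α := X)
  intro x
  by_cases hx : x = a
  · rw [hx, g1.2, g2.2]
  · exact congrArg Subtype.val (h ⟨x, hx⟩)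

theorem card_stabilizer_mul_card {G X : Type*} [Group G] [MulAction G X] [IsPretransitive G X]
    (a : X) : Nat.card (stabilizer G a) * Nat.card X = Nat.card G := by
  rw [← index_stabilizer_of_transitive G a]
  exact (stabilizer G a).card_mul_index

theorem card_GolayPt : Nat.card GolayPt = 24 := by
  rw [Nat.card_eq_fintype_card]
  decide

instance : IsMultiplyPretransitive M24 GolayPt 5 := five_trans

theorem M24_mpt (k : ℕ) (hk : k ≤ 5) : IsMultiplyPretransitive M24 GolayPt k :=
  isMultiplyPretransitive_of_le (n := 5) hk (by rw [card_GolayPt]; norm_num)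

instance : IsPretransitive M24 GolayPt := by
  rw [← is_one_pretransitive_iff]
  exact M24_mpt 1 (by norm_num)

theorem card_M23 (p : GolayPt) : Nat.card (stabilizer M24 p) = 10200960 := by
  have := card_stabilizer_mul_card (G := M24) p
  rw [card_GolayPt, card_M24] at this
  omega

theorem M23_simple (p : GolayPt) : IsSimpleGroup (stabilizer M24 p) := by
  have hX : Nat.card (SubMulAction.ofStabilizer M24 p) = 23 := by
    rw [SubMulAction.nat_card_ofStabilizer_eq, card_GolayPt]
  have hfaith := faithful_ofStabilizer (G := M24) p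
  have hcard := card_M23 p
  have h1 : IsMultiplyPretransitive (stabilizer M24 p) (SubMulAction.ofStabilizer M24 p) 1 :=
    SubMulAction.ofStabilizer.isMultiplyPretransitive.mp (M24_mpt 2 (by norm_num))
  have htrans : IsPretransitive (stabilizer M24 p) (SubMulAction.ofStabilizer M24 p) := by
    rw [← is_one_pretransitive_iff]
    exact h1
  have hp : Nat.Prime 23 := by norm_num
  apply simple_of_prime_degree (p := 23) (t := 443520) (r := 11) hp hX (by rw [hcard])
    (by norm_num) (by norm_num) (by norm_num)
  intro P hP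
  obtain ⟨r, hr, hc, n, hn, hmod⟩ := card_normalizer_of_sylow (t := 443520) hp hX (by rw [hcard])
    (by norm_num) P hP
  have hr10 : r ∈ Nat.divisors 22 := by
    rw [Nat.mem_divisors]; exact ⟨hr, by norm_num⟩
  have hdiv : Nat.divisors 22 = {1, 2, 11, 22} := by decide
  rw [hdiv] at hr10
  simp only [Finset.mem_insert, Finset.mem_singleton] at hr10
  rcases hr10 with rfl | rfl | rfl | rfl
  · omega
  · omega
  · exact hc
  · omega

theorem not_isPrimePow_of_two_three {n : ℕ} (h2 : 2 ∣ n) (h3 : 3 ∣ n) : ¬ IsPrimePow n := by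
  intro hpp
  rw [isPrimePow_nat_iff] at hpp
  obtain ⟨p, k, hp, hk, hpk⟩ := hpp
  rw [← hpk] at h2 h3
  have e2 := (Nat.prime_dvd_prime_iff_eq Nat.prime_two hp).1 (Nat.prime_two.dvd_of_dvd_pow h2)
  have e3 := (Nat.prime_dvd_prime_iff_eq Nat.prime_three hp).1 (Nat.prime_three.dvd_of_dvd_pow h3)
  omega

theorem M24_simple : IsSimpleGroup M24 := by
  have p : GolayPt := default
  apply simple_of_two_transitive (M24_mpt 2 (by norm_num)) p (M23_simple p)
  rw [card_GolayPt]
  exact not_isPrimePow_of_two_three (by norm_num) (by norm_num)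

end Cfsg.Agent.Lib.Helper3
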