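import Mathlib
import Cfsg.Agent.Lib.Helper3.PrimeDeg

set_option autoImplicit false

namespace Cfsg.Agent.Lib.Helper3

open Subgroup MulAction

section

variable {G X : Type*} [Group G] [Finite G] [MulAction G X] [FaithfulSMul G X]

/-- Chapman-style simplicity criterion for transitive groups of prime degree. -/
theorem simple_of_sylow_normalizer {p t r : ℕ} (hp : p.Prime) (hX : p ∣ Nat.card X)
    (hX0 : Nat.card X ≠ 0) [hprim : IsPreprimitive G X] (hG : Nat.card G = p * t) (ht : ¬ p ∣ t) (hr : r.Prime) (htr : t ≠ r)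
    (hN : ∀ P : Subgroup G, Nat.card P = p → Nat.card (normalizer (P : Set G)) = p * r) :
    IsSimpleGroup G := by
  have : Fact p.Prime := ⟨hp⟩
  have hXfin : Finite X := Nat.finite_of_card_ne_zero hX0
  have hXne : Nonempty X := by
    by_contra h
    rw [not_nonempty_iff] at h
    exact hX0 Nat.card_of_isEmpty
  have hnontriv : Nontrivial G := by
    rw [← Finite.one_lt_card_iff_nontrivial, hG]
    have ht0 : t ≠ 0 := by rintro rfl; exact ht (dvd_zero p)
    calc 1 < p := hp.one_lt
      _ ≤ p * t := Nat.le_mul_of_pos_right _ (Nat.pos_of_ne_zero ht0)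
  -- nontrivial normal subgroups are transitive
  have htrans : ∀ N : Subgroup G, N.Normal → N ≠ ⊥ → IsPretransitive N X := by
    intro N hNn hNb
    apply IsQuasiPreprimitive.isPretransitive_of_normal (G := G)
    intro hfix
    apply hNb
    rw [eq_bot_iff]
    intro n hn
    rw [mem_bot]
    apply FaithfulSMul.eq_of_smul_eq_smul (α := X)
    intro x
    have hx : x ∈ fixedPoints N X := by rw [hfix]; trivial
    rw [one_smul]
    exact hx ⟨n, hn⟩
  refine ⟨fun N hNn => ?_⟩
  by_cases hNb : N = ⊥
  · exact Or.inl hNb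
  right
  have hNt := htrans N hNn hNb
  have hpN : p ∣ Nat.card N := hX.trans (card_dvd_of_pretransitive N X)
  -- a Sylow subgroup inside N
  obtain ⟨x, hx⟩ := exists_prime_orderOf_dvd_card' p hpN
  have hz : Nat.card (zpowers (x : G)) = p := by
    rw [Nat.card_zpowers, Subgroup.orderOf_coe, hx]
  obtain ⟨P, hPle⟩ := (IsPGroup.of_card (n := 1) (by rw [hz, pow_one])).exists_le_sylow
  have hPcard : Nat.card P = p := sylow_card_eq hG ht P
  have hPeq : zpowers (x : G) = P := Subgroup.eq_of_le_of_card_ge hPle (by rw [hz]; exact hPcard.le)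
  have hPN : (P : Subgroup G) ≤ N := by
    rw [← hPeq, zpowers_le]
    exact x.2
  have hfrat := Sylow.normalizer_sup_eq_top' P hPN
  have hM := hN P hPcard
  set M := normalizer ((P : Subgroup G) : Set G) with hMdef
  have hPM : (P : Subgroup G) ≤ M ⊓ N := le_inf le_normalizer hPN
  have hd1 : p ∣ Nat.card (M ⊓ N : Subgroup G) := by
    rw [← hPcard]
    exact Subgroup.card_dvd_of_le hPM
  have hd2 : Nat.card (M ⊓ N : Subgroup G) ∣ p * r := by
    rw [← hM]
    exact Subgroup.card_dvd_of_le inf_le_left
  obtain ⟨k, hk⟩ := hd1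
  rw [hk] at hd2
  have hkr : k ∣ r := Nat.dvd_of_mul_dvd_mul_left hp.pos hd2
  rcases (Nat.dvd_prime hr).1 hkr with rfl | rfl
  · -- M ⊓ N = P: Burnside
    exfalso
    rw [mul_one] at hk
    have hMN : (P : Subgroup G) = M ⊓ N :=
      Subgroup.eq_of_le_of_card_ge hPM (by rw [hk]; exact hPcard.ge)
    let Q : Sylow p N := P.subtype hPN
    have hQmem : ∀ n : N, n ∈ Q ↔ (n : G) ∈ P := fun n => Iff.rfl
    have hcomm : ∀ y ∈ P, ∀ z ∈ P, y * z = z * y := by
      have hcyc : IsCyclic P := isCyclic_of_prime_card hPcard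
      intro y hy z hz
      have := hcyc.commGroup.mul_comm ⟨y, hy⟩ ⟨z, hz⟩
      exact congrArg Subtype.val this
    have hQ : normalizer ((Q : Subgroup N) : Set N) ≤ centralizer ((Q : Subgroup N) : Set N) := by
      intro n hn
      have hnM : (n : G) ∈ M := by
        rw [hMdef, mem_normalizer_iff]
        intro h
        constructor
        · intro hh
          exact (hQmem _).1 ((mem_normalizer_iff.1 hn ⟨h, hPN hh⟩).1 hh)
        · intro hh
          have hhN : h ∈ N := by
            have h1 := N.mul_mem (N.mul_mem (N.inv_mem n.2) (hPN hh)) n.2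
            simpa [mul_assoc] using h1
          exact (mem_normalizer_iff.1 hn ⟨h, hhN⟩).2 hh
      have hnP : (n : G) ∈ (P : Subgroup G) := by
        rw [hMN]
        exact ⟨hnM, n.2⟩
      rw [mem_centralizer_iff]
      intro z hz
      exact Subtype.ext (hcomm _ hz _ hnP)
    set K := (MonoidHom.transferSylow Q hQ).ker with hKdef
    have hKp : ¬ p ∣ Nat.card K := MonoidHom.not_dvd_card_ker_transferSylow Q hQ
    have hQcard : Nat.card Q = p :=
      (Nat.card_congr (subgroupOfEquivOfLe hPN).toEquiv).trans hPcard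
    have hKchar : ∀ n : N, n ∈ K ↔ ¬ p ∣ orderOf n := by
      intro n
      constructor
      · intro hn hdvd
        apply hKp
        have h1 : orderOf (⟨n, hn⟩ : K) ∣ Nat.card K := orderOf_dvd_natCard _
        rw [Subgroup.orderOf_mk] at h1
        exact hdvd.trans h1
      · intro hn
        rw [hKdef, MonoidHom.mem_ker]
        have h1 : orderOf (MonoidHom.transferSylow Q hQ n) ∣ orderOf n := orderOf_map_dvd _ n
        have h2 : orderOf (MonoidHom.transferSylow Q hQ n) ∣ p :=
          (orderOf_dvd_natCard (MonoidHom.transferSylow Q hQ n)).trans (dvd_of_eq hQcard)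
        rcases (Nat.dvd_prime hp).1 h2 with h3 | h3
        · exact orderOf_eq_one_iff.1 h3
        · rw [h3] at h1
          exact absurd h1 hn
    let K' : Subgroup G := K.map N.subtype
    have hK'mem : ∀ g : G, g ∈ K' ↔ g ∈ N ∧ ¬ p ∣ orderOf g := by
      intro g
      constructor
      · rintro ⟨n, hn, rfl⟩
        refine ⟨n.2, ?_⟩
        have := (hKchar n).1 hn
        simpa using this
      · rintro ⟨hgN, hg⟩
        refine ⟨⟨g, hgN⟩, (hKchar _).2 ?_, rfl⟩
        rwa [Subgroup.orderOf_mk]
    have hK'n : K'.Normal := by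
      constructor
      intro k hk g
      rw [hK'mem] at hk ⊢
      refine ⟨hNn.conj_mem k hk.1 g, ?_⟩
      have : orderOf (g * k * g⁻¹) = orderOf k := (MulAut.conj g).orderOf_eq k
      rw [this]
      exact hk.2
    have hK'card : Nat.card K' = Nat.card K :=
      Nat.card_congr (K.equivMapOfInjective N.subtype N.subtype_injective).symm.toEquiv
    have hK'bot : K' = ⊥ := by
      by_contra hne
      have := htrans K' hK'n hne
      apply hKp
      rw [← hK'card]
      exact hX.trans (card_dvd_of_pretransitive K' X)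
    have hKone : Nat.card K = 1 := by
      rw [← hK'card, hK'bot]
      simp
    have hcompl := MonoidHom.ker_transferSylow_isComplement' Q hQ
    have hcN := hcompl.card_mul_card
    rw [← hKdef, hKone, one_mul] at hcN
    have hNcard : Nat.card N = p := by rw [← hcN]; exact hQcard
    have hNP : (P : Subgroup G) = N := Subgroup.eq_of_le_of_card_ge hPN (by rw [hNcard]; exact hPcard.ge)
    have hMtop : M = ⊤ := by
      rw [hMdef, hNP]
      exact normalizer_eq_top N
    rw [hMtop, Subgroup.card_top, hG] at hM
    exact htr (Nat.eq_of_mul_eq_mul_left hp.pos hM)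
  · -- M ≤ N
    have hMN : M ⊓ N = M := Subgroup.eq_of_le_of_card_ge inf_le_left (by rw [hk, hM])
    have hMleN : M ≤ N := by
      rw [← hMN]
      exact inf_le_right
    rw [← hfrat]
    exact (sup_eq_right.2 hMleN).symm


omit [Finite G] [FaithfulSMul G X] in
/-- semiregularity of a subgroup of order `p` when `p` does not divide the stabiliser orders -/
theorem semiregular_of_card {p t : ℕ} (hp : p.Prime) (hX : Nat.card X = 2 * p)
    [IsPretransitive G X] (hG : Nat.card G = p * t) (ht : ¬ p ∣ t) (P : Subgroup G)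
    (hP : Nat.card P = p) : ∀ y ∈ P, ∀ a : X, y • a = a → y = 1 := by
  intro y hy a hya
  by_contra hy1
  have h1 : orderOf y ∣ p := by
    have := orderOf_dvd_natCard (⟨y, hy⟩ : P)
    rwa [Subgroup.orderOf_mk, hP] at this
  have h2 : orderOf y = p := by
    rcases (Nat.dvd_prime hp).1 h1 with h | h
    · exact absurd (orderOf_eq_one_iff.1 h) hy1
    · exact h
  have h3 : p ∣ Nat.card (stabilizer G a) := by
    have := orderOf_dvd_natCard (⟨y, mem_stabilizer_iff.2 hya⟩ : stabilizer G a)
    rwa [Subgroup.orderOf_mk y (mem_stabilizer_iff.2 hya), h2] at this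
  have h4 := (stabilizer G a).card_mul_index
  rw [index_stabilizer_of_transitive G a, hX, hG] at h4
  obtain ⟨k, hk⟩ := h3
  rw [hk] at h4
  apply ht
  have h5 : p * (k * 2 * p) = p * t := by rw [← h4]; ring
  have h6 := Nat.eq_of_mul_eq_mul_left hp.pos h5
  exact ⟨k * 2, by rw [← h6]; ring⟩

omit [Finite G] [FaithfulSMul G X] in
theorem two_orbits {p : ℕ} (hp : p.Prime) (hX : Nat.card X = 2 * p) (P : Subgroup G)
    (hP : Nat.card P = p) (hsr : ∀ y ∈ P, ∀ a : X, y • a = a → y = 1) (a b : X)
    (hab : b ∉ orbit P a) (x : X) : x ∈ orbit P a ∨ x ∈ orbit P b := by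
  have hXfin : Finite X := Nat.finite_of_card_ne_zero (by rw [hX]; have := hp.pos; omega)
  have hcard : ∀ c : X, (orbit P c).ncard = p := by
    intro c
    have e1 := Nat.card_congr (MulAction.orbitProdStabilizerEquivGroup P c)
    rw [Nat.card_prod] at e1
    have : stabilizer P c = ⊥ := by
      rw [eq_bot_iff]
      intro y hy
      rw [mem_bot]
      exact Subtype.ext (hsr y y.2 c hy)
    rw [this, hP] at e1
    simp at e1
    exact e1
  have hdisj : Disjoint (orbit P a) (orbit P b) := by
    rw [Set.disjoint_left]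
    intro z hza hzb
    apply hab
    rw [← orbit_eq_iff] at hza hzb ⊢
    rw [← hzb, hza]
  have hun : orbit P a ∪ orbit P b = Set.univ := by
    rw [Set.eq_univ_iff_ncard, Set.ncard_union_eq hdisj, hcard, hcard, hX]
    ring
  have : x ∈ orbit P a ∪ orbit P b := by rw [hun]; trivial
  exact this

theorem card_centralizer_le {p t : ℕ} (hp : p.Prime) (hX : Nat.card X = 2 * p)
    (hG : Nat.card G = p * t) (ht : ¬ p ∣ t) (P : Subgroup G)
    (hP : Nat.card P = p) (hsr : ∀ y ∈ P, ∀ a : X, y • a = a → y = 1) :
    Nat.card (centralizer (P : Set G)) ∣ 2 * p := by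
  have : Fact p.Prime := ⟨hp⟩
  have hXfin : Finite X := Nat.finite_of_card_ne_zero (by rw [hX]; have := hp.pos; omega)
  have hXne : Nonempty X := by
    by_contra h
    rw [not_nonempty_iff] at h
    rw [Nat.card_of_isEmpty] at hX
    have := hp.pos
    omega
  obtain ⟨a⟩ := hXne
  have ht0 : t ≠ 0 := by rintro rfl; exact ht (dvd_zero p)
  have hfac : (Nat.card G).factorization p = 1 := by
    rw [hG, Nat.factorization_mul hp.ne_zero ht0]
    simp [hp.factorization_self, Nat.factorization_eq_zero_of_not_dvd ht]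
  let S : Sylow p G := Sylow.ofCard P (by rw [hfac, pow_one, hP])
  have hS : (S : Subgroup G) = P := rfl
  set C := centralizer (P : Set G) with hC
  have hcomm : ∀ c ∈ C, ∀ y ∈ P, y * c = c * y := fun c hc y hy => mem_centralizer_iff.1 hc y hy
  -- elements acting orbitwise lie in P
  have key : ∀ c ∈ C, (∀ x : X, ∃ y ∈ P, c • x = y • x) → c ∈ P := by
    intro c hc hx
    have hpow : c ^ p = 1 := by
      apply FaithfulSMul.eq_of_smul_eq_smul (α := X)
      intro x
      obtain ⟨y, hy, hcy⟩ := hx x
      have hk : ∀ k : ℕ, c ^ k • x = y ^ k • x := by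
        intro k
        induction k with
        | zero => simp
        | succ k ih =>
          rw [pow_succ, mul_smul, hcy, ← mul_smul, ← hcomm _ (C.pow_mem hc k) y hy, mul_smul, ih,
            ← mul_smul, ← pow_succ']
      rw [hk, one_smul]
      have : y ^ p = 1 := by
        have h1 := pow_card_eq_one' (G := P) (x := ⟨y, hy⟩)
        rw [hP] at h1
        exact congrArg Subtype.val h1
      rw [this, one_smul]
    have hz : IsPGroup p (zpowers c) := by
      by_cases h1 : c = 1
      · apply IsPGroup.of_card (n := 0)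
        rw [Nat.card_zpowers, h1, orderOf_one, pow_zero]
      · apply IsPGroup.of_card (n := 1)
        rw [Nat.card_zpowers, pow_one]
        exact orderOf_eq_prime hpow h1
    have hle : zpowers c ≤ normalizer (P : Set G) := by
      rw [zpowers_le]
      exact centralizer_le_normalizer _ hc
    have hsup := hz.to_sup_of_normal_right' S.isPGroup' hle
    have := S.is_maximal' hsup le_sup_right
    have h2 : zpowers c ≤ P := by
      rw [← hS, ← this]
      exact le_sup_left
    exact h2 (mem_zpowers c)
  have hstab : stabilizer C a = ⊥ := by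
    rw [eq_bot_iff]
    intro c hc
    rw [mem_bot]
    apply Subtype.ext
    have hca : (c : G) • a = a := hc
    have hcia : (c : G)⁻¹ • a = a := by rw [inv_smul_eq_iff, hca]
    apply hsr c _ a hca
    apply key c c.2
    intro x
    by_cases hx : x ∈ orbit P a
    · obtain ⟨z, rfl⟩ := hx
      refine ⟨1, P.one_mem, ?_⟩
      show (c : G) • ((z : G) • a) = (1 : G) • ((z : G) • a)
      rw [← mul_smul, ← hcomm c c.2 z z.2, mul_smul, hca, one_smul]
    · have h1 : (c : G) • x ∉ orbit P a := by
        rintro ⟨z, hz⟩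
        apply hx
        refine ⟨z, ?_⟩
        have hz' : (z : G) • a = (c : G) • x := hz
        show (z : G) • a = x
        have : x = (c : G)⁻¹ • ((z : G) • a) := by rw [hz', inv_smul_smul]
        rw [this, ← mul_smul, ← hcomm _ (C.inv_mem c.2) z z.2, mul_smul, hcia]
      rcases two_orbits hp hX P hP hsr a x hx ((c : G) • x) with h2 | h2
      · exact absurd h2 h1
      · obtain ⟨z, hz⟩ := h2
        exact ⟨z, z.2, hz.symm⟩
  have e1 := Nat.card_congr (MulAction.orbitProdStabilizerEquivGroup C a)
  rw [Nat.card_prod, hstab] at e1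
  simp only [card_bot, mul_one] at e1
  have hle : Nat.card C ≤ 2 * p := by
    rw [← e1, ← hX]
    exact Nat.card_le_card_of_injective _ Subtype.val_injective
  have hPC : P ≤ C := by
    have hcyc : IsCyclic P := isCyclic_of_prime_card hP
    intro y hy
    rw [hC, mem_centralizer_iff]
    intro z hz
    have := hcyc.commGroup.mul_comm ⟨z, hz⟩ ⟨y, hy⟩
    exact congrArg Subtype.val this
  have hd : p ∣ Nat.card C := by
    rw [← hP]
    exact Subgroup.card_dvd_of_le hPC
  obtain ⟨m, hm⟩ := hd
  have hm0 : m ≠ 0 := by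
    rintro rfl
    rw [mul_zero] at hm
    exact Nat.card_pos.ne' hm
  have hm2 : m ≤ 2 := by
    rw [hm, mul_comm] at hle
    exact Nat.le_of_mul_le_mul_right hle hp.pos
  rw [hm]
  interval_cases m
  · exact absurd rfl hm0
  · exact ⟨2, by ring⟩
  · exact ⟨1, by ring⟩

theorem card_normalizer_two_p {p t : ℕ} (hp : p.Prime) (hX : Nat.card X = 2 * p)
    [IsPretransitive G X] (hG : Nat.card G = p * t) (ht : ¬ p ∣ t) (P : Subgroup G)
    (hP : Nat.card P = p) :
    ∃ r, r ∣ 2 * (p - 1) ∧ Nat.card (normalizer (P : Set G)) = p * r ∧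
      ∃ n, n * r = t ∧ n % p = 1 := by
  have : Fact p.Prime := ⟨hp⟩
  have hsr := semiregular_of_card hp hX hG ht P hP
  have hC := card_centralizer_le hp hX hG ht P hP hsr
  have hcyc : IsCyclic P := isCyclic_of_prime_card hP
  have key := card_dvd_of_injective _ (QuotientGroup.kerLift_injective P.normalizerMonoidHom)
  rw [normalizerMonoidHom_ker, ← index, hcyc.card_mulAut, hP, Nat.totient_prime hp] at key
  have h1 := ((centralizer (P : Set G)).subgroupOf (normalizer (P : Set G))).card_mul_index
  rw [Nat.card_congr (subgroupOfEquivOfLe (centralizer_le_normalizer (P : Set G))).toEquiv] at h1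
  have hd : Nat.card (normalizer (P : Set G)) ∣ 2 * p * (p - 1) := by
    rw [← h1]
    exact Nat.mul_dvd_mul hC key
  have hd2 : p ∣ Nat.card (normalizer (P : Set G)) := by
    rw [← hP]
    exact Subgroup.card_dvd_of_le le_normalizer
  obtain ⟨r, hc⟩ := hd2
  have hr : r ∣ 2 * (p - 1) := by
    rw [hc] at hd
    apply Nat.dvd_of_mul_dvd_mul_left hp.pos
    convert hd using 1
    ring
  refine ⟨r, hr, hc, ?_⟩
  have ht0 : t ≠ 0 := by rintro rfl; exact ht (dvd_zero p)
  have hfac : (Nat.card G).factorization p = 1 := by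
    rw [hG, Nat.factorization_mul hp.ne_zero ht0]
    simp [hp.factorization_self, Nat.factorization_eq_zero_of_not_dvd ht]
  let S : Sylow p G := Sylow.ofCard P (by rw [hfac, pow_one, hP])
  have h1 : Nat.card (Sylow p G) = (normalizer (P : Set G)).index := S.card_eq_index_normalizer
  have h2 := card_sylow_modEq_one p G
  have h3 := (normalizer (P : Set G)).card_mul_index
  rw [hc, hG, mul_assoc] at h3
  have h4 := Nat.eq_of_mul_eq_mul_left hp.pos h3
  refine ⟨(normalizer (P : Set G)).index, by rw [mul_comm]; exact h4, ?_⟩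
  rw [← h1]
  have := h2
  rw [Nat.ModEq, Nat.mod_eq_of_lt hp.one_lt] at this
  exact this

end

end Cfsg.Agent.Lib.Helper3
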