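import Mathlib
import Cfsg.Agent.Lib.Helper3.M24d
import Cfsg.Agent.Lib.Helper3.PrimeDeg2

set_option autoImplicit false

namespace Cfsg.Agent.Lib.Helper3

open Subgroup MulAction Cfsg

/-- nested stabilisers versus intersections of stabilisers -/
def stabStabEquiv {G X : Type*} [Group G] [MulAction G X] (a b : X) (hb : b ≠ a) :
    stabilizer (stabilizer G a) (⟨b, hb⟩ : SubMulAction.ofStabilizer G a) ≃*
      ↥(stabilizer G a ⊓ stabilizer G b) where
  toFun g := ⟨g.1.1, ⟨g.1.2, congrArg Subtype.val g.2⟩⟩
  invFun g := ⟨⟨g.1, g.2.1⟩, Subtype.ext g.2.2⟩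
  left_inv _ := rfl
  right_inv _ := rfl
  map_mul' _ _ := rfl

theorem simple_22 {G X : Type*} [Group G] [MulAction G X] [FaithfulSMul G X]
    (hX : Nat.card X = 2 * 11) (h2 : IsMultiplyPretransitive G X 2)
    (hcard : Nat.card G = 443520) : IsSimpleGroup G := by
  have hGfin : Finite G := Nat.finite_of_card_ne_zero (by rw [hcard]; norm_num)
  have hprim : IsPreprimitive G X := isPreprimitive_of_is_two_pretransitive h2
  have hp : Nat.Prime 11 := by norm_num
  apply simple_of_sylow_normalizer (X := X)
    (p := 11) (t := 40320) (r := 5) hp (by rw [hX]; norm_num) (by rw [hX]; norm_num)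
    (by rw [hcard]) (by norm_num) (by norm_num) (by norm_num)
  intro P hP
  obtain ⟨r, hr, hc, n, hn, hmod⟩ := card_normalizer_two_p (t := 40320) hp hX (by rw [hcard])
    (by norm_num) P hP
  have hr10 : r ∈ Nat.divisors 20 := by
    rw [Nat.mem_divisors]; exact ⟨hr, by norm_num⟩
  have hdiv : Nat.divisors 20 = {1, 2, 4, 5, 10, 20} := by decide
  rw [hdiv] at hr10
  simp only [Finset.mem_insert, Finset.mem_singleton] at hr10
  rcases hr10 with rfl | rfl | rfl | rfl | rfl | rfl
  · omega
  · omega
  · omega
  · exact hc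
  · omega
  · omega

theorem simple_two_point {G X : Type*} [Group G] [MulAction G X] [FaithfulSMul G X]
    (hX : Nat.card X = 24) (h4 : IsMultiplyPretransitive G X 4)
    (hcard : Nat.card G = 244823040) (p q : X) (hpq : p ≠ q) :
    IsSimpleGroup ↥(stabilizer G p ⊓ stabilizer G q) := by
  have hXfin : Finite X := Nat.finite_of_card_ne_zero (by rw [hX]; norm_num)
  have hX1 : Nat.card (SubMulAction.ofStabilizer G p) = 23 := by
    rw [SubMulAction.nat_card_ofStabilizer_eq, hX]
  have h0 : IsPretransitive G X := by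
    rw [← is_one_pretransitive_iff]
    exact isMultiplyPretransitive_of_le (n := 4) (by norm_num) (by rw [hX]; norm_num)
  have hc1 : Nat.card (stabilizer G p) = 10200960 := by
    have := card_stabilizer_mul_card (G := G) p
    rw [hX, hcard] at this
    omega
  have hfaith1 := faithful_ofStabilizer (G := G) p
  have h3 : IsMultiplyPretransitive (stabilizer G p) (SubMulAction.ofStabilizer G p) 3 :=
    SubMulAction.ofStabilizer.isMultiplyPretransitive.mp h4
  have h1 : IsPretransitive (stabilizer G p) (SubMulAction.ofStabilizer G p) := by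
    rw [← is_one_pretransitive_iff]
    exact isMultiplyPretransitive_of_le (n := 3) (by norm_num) (by rw [hX1]; norm_num)
  obtain ⟨q', hq'⟩ : ∃ q' : SubMulAction.ofStabilizer G p, q' = ⟨q, hpq.symm⟩ := ⟨_, rfl⟩
  have hX2 : Nat.card (SubMulAction.ofStabilizer (stabilizer G p) q') = 2 * 11 := by
    rw [SubMulAction.nat_card_ofStabilizer_eq, hX1]
  have hfaith := faithful_ofStabilizer (G := stabilizer G p) q'
  have h2 : IsMultiplyPretransitive (stabilizer (stabilizer G p) q')
      (SubMulAction.ofStabilizer (stabilizer G p) q') 2 :=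
    SubMulAction.ofStabilizer.isMultiplyPretransitive.mp h3
  have hc2 : Nat.card (stabilizer (stabilizer G p) q') = 443520 := by
    have := card_stabilizer_mul_card (G := stabilizer G p) q'
    rw [hX1, hc1] at this
    omega
  have hs := simple_22 hX2 h2 hc2
  rw [hq'] at hs
  exact (stabStabEquiv (G := G) p q hpq.symm).symm.isSimpleGroup

theorem M22_simple (p q : GolayPt) (hpq : p ≠ q) :
    IsSimpleGroup ↥(stabilizer M24 p ⊓ stabilizer M24 q) :=
  simple_two_point card_GolayPt (M24_mpt 4 (by norm_num)) card_M24 p q hpq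

end Cfsg.Agent.Lib.Helper3
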