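import Mathlib
import Cfsg.Agent.Lib.Lead.FrobConj

set_option autoImplicit false

namespace Cfsg.Agent.Lib.Helper3

open MulAction Subgroup Pointwise Cfsg.Agent.Lib.Helper1 Cfsg.Agent.Lib.Lead

section

variable {A X : Type*} [Group A] [MulAction A X]

theorem mem_conj_stabilizer {g x : A} {b : X} :
    x ∈ MulAut.conj g • stabilizer A b ↔ x • g • b = g • b := by
  rw [mem_conj_smul, mem_stabilizer_iff, mul_smul, mul_smul, inv_smul_eq_iff]

/-- a transitive, non-regular action in which only the identity fixes two points: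
the point stabiliser is a Frobenius complement -/
theorem frob_of_action [IsPretransitive A X] (b : X) (h1 : ∃ g : A, g ≠ 1 ∧ g • b = b)
    (h2 : ∃ c : X, c ≠ b) (h3 : ∀ g : A, ∀ c d : X, c ≠ d → g • c = c → g • d = d → g = 1) :
    Cfsg.IsFrobeniusComplement (stabilizer A b) := by
  refine ⟨?_, ?_, ?_⟩
  · intro h
    obtain ⟨g, hg1, hgb⟩ := h1
    have : g ∈ stabilizer A b := hgb
    rw [h, mem_bot] at this
    exact hg1 this
  · intro h
    obtain ⟨c, hc⟩ := h2
    obtain ⟨g, hg⟩ := exists_smul_eq A b c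
    have : g ∈ stabilizer A b := by rw [h]; trivial
    rw [mem_stabilizer_iff, hg] at this
    exact hc this
  · intro g hg
    rw [eq_bot_iff]
    intro x hx
    rw [mem_inf, mem_conj_stabilizer, mem_stabilizer_iff] at hx
    rw [mem_bot]
    exact h3 x b (g • b) (fun h => hg h.symm) hx.1 hx.2

theorem mem_frobeniusKernel_stabilizer [IsPretransitive A X] (b : X) (x : A) :
    x ∈ Cfsg.frobeniusKernel (stabilizer A b) ↔ x = 1 ∨ ∀ c : X, x • c ≠ c := by
  rw [mem_frobeniusKernel_iff]
  apply or_congr Iff.rfl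
  constructor
  · intro h c
    obtain ⟨g, rfl⟩ := exists_smul_eq A b c
    have := h g
    rwa [mem_conj_stabilizer] at this
  · intro h g
    rw [mem_conj_stabilizer]
    exact h _

/-- Frobenius' theorem in permutation form -/
theorem frob_kernel_of_action [Finite A] [IsPretransitive A X] (b : X)
    (h1 : ∃ g : A, g ≠ 1 ∧ g • b = b)
    (h2 : ∃ c : X, c ≠ b) (h3 : ∀ g : A, ∀ c d : X, c ≠ d → g • c = c → g • d = d → g = 1) :
    ∃ N : Subgroup A, N.Normal ∧ (∀ x, x ∈ N ↔ x = 1 ∨ ∀ c : X, x • c ≠ c) ∧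
      Nat.card N = Nat.card X ∧ ∀ M : Subgroup A, M.Normal → M ≤ N ∨ N ≤ M := by
  have hF := frob_of_action b h1 h2 h3
  obtain ⟨N, hN, hNn, _⟩ := Cfsg.Agent.S0035.result _ hF
  refine ⟨N, hNn, ?_, ?_, ?_⟩
  · intro x
    rw [← mem_frobeniusKernel_stabilizer b, ← hN]
    rfl
  · have := frob_card_kernel hF
    rw [← hN, index_stabilizer_of_transitive] at this
    exact this
  · intro M hM
    exact frob_normal_comparable hF hN hNn M hM

end

end Cfsg.Agent.Lib.Helper3
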