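import Mathlib
import Cfsg.Prelude.Def_LieExceptional
import Cfsg.Agent.Lib.Helper3.FrobAct

set_option autoImplicit false

namespace Cfsg.Agent.Lib.Helper3

open MulAction Subgroup Cfsg

variable {G Ω : Type*} [Group G] [MulAction G Ω]

theorem zass_two_trans (hZ : IsZassenhausGroup G Ω) {a b c d : Ω} (hab : a ≠ b) (hcd : c ≠ d) :
    ∃ g : G, g • a = c ∧ g • b = d :=
  (is_two_pretransitive_iff.1 hZ.2.1) hab hcd

theorem zass_three (hZ : IsZassenhausGroup G Ω) {g : G} {a b c : Ω} (hab : a ≠ b) (hbc : b ≠ c)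
    (hac : a ≠ c) (ha : g • a = a) (hb : g • b = b) (hc : g • c = c) : g = 1 :=
  hZ.2.2.1 g a b c hab hbc hac ha hb hc

theorem zass_exists_fix_two (hZ : IsZassenhausGroup G Ω) {a b : Ω} (hab : a ≠ b) :
    ∃ g : G, g ≠ 1 ∧ g • a = a ∧ g • b = b := by
  obtain ⟨g0, hg0, a0, b0, hab0, h1, h2⟩ := hZ.2.2.2.1
  obtain ⟨t, hta, htb⟩ := zass_two_trans hZ hab0 hab
  refine ⟨t * g0 * t⁻¹, ?_, ?_, ?_⟩
  · intro h
    apply hg0
    have : g0 = t⁻¹ * (t * g0 * t⁻¹) * t := by group
    rw [this, h]; group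
  · rw [mul_smul, mul_smul, ← hta, inv_smul_smul, h1]
  · rw [mul_smul, mul_smul, ← htb, inv_smul_smul, h2]

theorem zass_exists_third (hZ : IsZassenhausGroup G Ω) {a b : Ω} (hab : a ≠ b) :
    ∃ c : Ω, c ≠ a ∧ c ≠ b := by
  obtain ⟨g, hg1, hga, hgb⟩ := zass_exists_fix_two hZ hab
  have := hZ.1
  by_contra hcon
  push Not at hcon
  apply hg1
  apply FaithfulSMul.eq_of_smul_eq_smul (α := Ω)
  intro c
  rw [one_smul]
  by_cases hc : c = a
  · rw [hc, hga]
  · rw [hcon c hc, hgb]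

theorem zass_exists_ne (hZ : IsZassenhausGroup G Ω) (a : Ω) : ∃ b : Ω, b ≠ a := by
  obtain ⟨g0, hg0, a0, b0, hab0, h1, h2⟩ := hZ.2.2.2.1
  by_cases h : a0 = a
  · exact ⟨b0, fun h' => hab0 (h.trans h'.symm)⟩
  · exact ⟨a0, h⟩

theorem zass_finite [Finite Ω] (hZ : IsZassenhausGroup G Ω) : Finite G := by
  have := hZ.1
  exact Finite.of_injective _ (MulAction.toPerm_injective (α := G) (β := Ω))

theorem zass_pretransitive (hZ : IsZassenhausGroup G Ω) : IsPretransitive G Ω := by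
  refine ⟨fun a b => ?_⟩
  by_cases h : a = b
  · exact ⟨1, by rw [one_smul, h]⟩
  · obtain ⟨g, hg, _⟩ := zass_two_trans hZ h (Ne.symm h)
    exact ⟨g, hg⟩

/-- the Frobenius kernel of a point stabiliser -/
theorem zass_kernel [Finite Ω] (hZ : IsZassenhausGroup G Ω) (a : Ω) :
    ∃ K : Subgroup G, (∀ u, u ∈ K ↔ u • a = a ∧ (u = 1 ∨ ∀ c, u • c = c → c = a)) ∧
      Nat.card K + 1 = Nat.card Ω ∧
      (∀ M : Subgroup G, (∀ h ∈ stabilizer G a, ∀ m ∈ M, h * m * h⁻¹ ∈ M) → M ≤ stabilizer G a →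
        M ≤ K ∨ K ≤ M) := by
  have hfin := zass_finite hZ
  have htr := zass_pretransitive hZ
  have h2 := hZ.2.1
  have h1 : IsMultiplyPretransitive (stabilizer G a) (SubMulAction.ofStabilizer G a) 1 :=
    SubMulAction.ofStabilizer.isMultiplyPretransitive.mp h2
  have htr' : IsPretransitive (stabilizer G a) (SubMulAction.ofStabilizer G a) := by
    rw [← is_one_pretransitive_iff]; exact h1
  obtain ⟨b, hb⟩ := zass_exists_ne hZ a
  obtain ⟨c, hca, hcb⟩ := zass_exists_third hZ hb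
  obtain ⟨g, hg1, hgb, hga⟩ := zass_exists_fix_two hZ hb
  obtain ⟨N, hNn, hNmem, hNcard, hNcomp⟩ := frob_kernel_of_action (A := stabilizer G a)
    (X := SubMulAction.ofStabilizer G a) ⟨b, hb⟩
    ⟨⟨g, hga⟩, fun h => hg1 (congrArg Subtype.val h), Subtype.ext hgb⟩
    ⟨⟨c, hcb⟩, fun h => hca (congrArg Subtype.val h)⟩
    (by
      intro x c d hcd hxc hxd
      apply Subtype.ext
      exact zass_three hZ (g := (x : G)) (a := a) (b := c) (c := d) (Ne.symm c.2)
        (fun h => hcd (Subtype.ext h)) (Ne.symm d.2) x.2 (congrArg Subtype.val hxc)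
        (congrArg Subtype.val hxd))
  refine ⟨N.map (stabilizer G a).subtype, ?_, ?_, ?_⟩
  · intro u
    constructor
    · rintro ⟨x, hx, rfl⟩
      refine ⟨x.2, ?_⟩
      rcases (hNmem x).1 hx with h | h
      · left; rw [h]; rfl
      · right
        intro c hc
        by_contra hca
        exact h ⟨c, hca⟩ (Subtype.ext hc)
    · rintro ⟨hua, hu⟩
      refine ⟨⟨u, hua⟩, (hNmem _).2 ?_, rfl⟩
      rcases hu with h | h
      · left; exact Subtype.ext h
      · right
        intro c hc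
        exact c.2 (h c (congrArg Subtype.val hc))
  · rw [Nat.card_congr (N.equivMapOfInjective _ (stabilizer G a).subtype_injective).symm.toEquiv,
      hNcard, SubMulAction.nat_card_ofStabilizer_add_one_eq]
  · intro M hM hMle
    have hn : (M.subgroupOf (stabilizer G a)).Normal := by
      constructor
      intro m hm h
      exact hM h h.2 m hm
    rcases hNcomp _ hn with h | h
    · left
      intro m hm
      exact ⟨⟨m, hMle hm⟩, h hm, rfl⟩
    · right
      rintro _ ⟨x, hx, rfl⟩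
      exact h hx

end Cfsg.Agent.Lib.Helper3
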