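import Mathlib
import Cfsg.Agent.Lib.Helper3.Sharp

set_option autoImplicit false

namespace Cfsg.Agent.Lib.Helper3

open Subgroup MulAction

section

variable {G X : Type*} [Group G] [MulAction G X] [DecidableEq X]

open scoped Pointwise

/-- the action of the setwise stabiliser of a finset on that finset -/
@[reducible] def finsetAct (d : Finset X) : MulAction (stabilizer G d) {x // x ∈ d} where
  smul g x := ⟨(g : G) • x.1, by
    have h := g.2
    rw [mem_stabilizer_iff] at h
    have h2 : (g : G) • x.1 ∈ (g : G) • d := Finset.smul_mem_smul_finset x.2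
    rwa [h] at h2⟩
  one_smul x := Subtype.ext (one_smul G x.1)
  mul_smul g h x := Subtype.ext (mul_smul (g : G) (h : G) x.1)

theorem simple_sharp_finset (d : Finset X) (hd : d.card = 12)
    (h : ∀ x y : Fin 5 ↪ X, (∀ i, x i ∈ d) → (∀ i, y i ∈ d) →
      ∃! g : stabilizer G d, ∀ i, (g : G) • x i = y i) :
    IsSimpleGroup (stabilizer G d) ∧
      ∀ p ∈ d, IsSimpleGroup ↥(stabilizer G d ⊓ stabilizer G p) := by
  let _ := finsetAct (G := G) d
  have hsm : ∀ (g : stabilizer G d) (x : {x // x ∈ d}), ((g • x : {x // x ∈ d}) : X) = (g : G) • x.1 :=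
    fun _ _ => rfl
  have hX : Nat.card {x // x ∈ d} = 12 := by
    rw [Nat.card_eq_fintype_card, Fintype.card_coe, hd]
  have h5 : IsMultiplyPretransitive (stabilizer G d) {x // x ∈ d} 5 := by
    refine ⟨fun x y => ?_⟩
    obtain ⟨g, hg, _⟩ := h (x.trans (Function.Embedding.subtype _))
      (y.trans (Function.Embedding.subtype _)) (fun i => (x i).2) (fun i => (y i).2)
    refine ⟨g, ?_⟩
    ext i
    exact hg i
  have hsharp : ∀ x : Fin 5 ↪ {x // x ∈ d}, stabilizer (stabilizer G d) x = ⊥ := by
    intro x
    rw [eq_bot_iff]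
    intro g hg
    rw [mem_bot]
    obtain ⟨g0, _, hu⟩ := h (x.trans (Function.Embedding.subtype _))
      (x.trans (Function.Embedding.subtype _)) (fun i => (x i).2) (fun i => (x i).2)
    rw [hu g, hu 1]
    · intro i
      exact one_smul _ _
    · intro i
      have h2 := DFunLike.congr_fun (mem_stabilizer_iff.1 hg) i
      exact congrArg Subtype.val h2
  refine ⟨(simple_sharp5_12 hX hsharp).1, ?_⟩
  intro p hp
  obtain ⟨a, ha⟩ : ∃ a : {x // x ∈ d}, a = ⟨p, hp⟩ := ⟨_, rfl⟩
  have ha' : (a : X) = p := by rw [ha]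
  have htrans : IsPretransitive (stabilizer G d) {x // x ∈ d} := by
    rw [← is_one_pretransitive_iff]
    exact isMultiplyPretransitive_of_le (n := 5) (by norm_num) (by rw [hX]; norm_num)
  have h4 : IsMultiplyPretransitive (stabilizer (stabilizer G d) a)
      (SubMulAction.ofStabilizer (stabilizer G d) a) 4 :=
    SubMulAction.ofStabilizer.isMultiplyPretransitive.mp h5
  have hs := (simple_sharp4_11 (G := stabilizer (stabilizer G d) a)
    (X := SubMulAction.ofStabilizer (stabilizer G d) a)
    (by rw [SubMulAction.nat_card_ofStabilizer_eq, hX]) (sharp_ofStabilizer 4 hsharp a)).1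
  let e : stabilizer (stabilizer G d) a ≃* ↥(stabilizer G d ⊓ stabilizer G p) :=
    { toFun := fun g => ⟨g.1.1, ⟨g.1.2, by
        have h1 := congrArg Subtype.val g.2
        rw [hsm, ha'] at h1
        exact h1⟩⟩
      invFun := fun g => ⟨⟨g.1, g.2.1⟩, by
        rw [mem_stabilizer_iff]
        apply Subtype.ext
        rw [hsm, ha']
        exact g.2.2⟩
      left_inv := fun _ => rfl
      right_inv := fun _ => rfl
      map_mul' := fun _ _ => rfl }
  exact e.symm.isSimpleGroup

end

end Cfsg.Agent.Lib.Helper3
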