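import Mathlib
import Cfsg.Prelude.Def_Sporadic_a

set_option autoImplicit false
set_option linter.unusedSectionVars false

namespace Cfsg.Agent.Lib.Helper3

open Cfsg Finset

section

variable {α : Type*} [DecidableEq α]

/-- number of `t`-subsets of `b` containing `I` -/
theorem card_powersetCard_filter_subset (I b : Finset α) (hIb : I ⊆ b) (t : ℕ) (ht : I.card ≤ t) :
    ((powersetCard t b).filter (fun T => I ⊆ T)).card = (b.card - I.card).choose (t - I.card) := by
  have h1 : (powersetCard t b).filter (fun T => I ⊆ T) =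
      (powersetCard (t - I.card) (b \ I)).image (fun S => S ∪ I) := by
    ext T
    simp only [mem_filter, mem_powersetCard, mem_image]
    constructor
    · rintro ⟨⟨hTb, hTc⟩, hIT⟩
      refine ⟨T \ I, ⟨sdiff_subset_sdiff hTb le_rfl, ?_⟩, sdiff_union_of_subset hIT⟩
      rw [card_sdiff_of_subset hIT, hTc]
    · rintro ⟨S, ⟨hS, hSc⟩, rfl⟩
      refine ⟨⟨union_subset (hS.trans sdiff_subset) hIb, ?_⟩, subset_union_right⟩
      rw [card_union_of_disjoint, hSc]
      · omega
      · exact disjoint_of_subset_left hS sdiff_disjoint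
  rw [h1, card_image_of_injOn, card_powersetCard, card_sdiff_of_subset hIb]
  intro S hS S' hS' h
  rw [mem_coe, mem_powersetCard] at hS hS'
  have d1 : Disjoint S I := disjoint_of_subset_left hS.1 sdiff_disjoint
  have d2 : Disjoint S' I := disjoint_of_subset_left hS'.1 sdiff_disjoint
  have h2 : (S ∪ I) \ I = (S' ∪ I) \ I := by
    simp only at h
    rw [h]
  rwa [union_sdiff_cancel_right d1, union_sdiff_cancel_right d2] at h2

end

section

variable {α : Type*} [Fintype α] [DecidableEq α]

/-- the block set as a finset -/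
noncomputable def Bf (B : Set (Finset α)) : Finset (Finset α) := by
  classical exact univ.filter (fun b => b ∈ B)

theorem mem_Bf {B : Set (Finset α)} {b : Finset α} : b ∈ Bf B ↔ b ∈ B := by
  classical
  simp [Bf]

theorem ncard_eq_card_Bf (B : Set (Finset α)) : B.ncard = (Bf B).card := by
  have : B = ((Bf B : Finset (Finset α)) : Set (Finset α)) := by
    ext b
    simp [mem_Bf]
  rw [this, Set.ncard_coe_finset]
  congr 1
  ext b
  simp [mem_Bf]

theorem ncard_setOf_eq (B : Set (Finset α)) (p : Finset α → Prop) [DecidablePred p] :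
    {c : Finset α | c ∈ B ∧ p c}.ncard = ((Bf B).filter p).card := by
  have : {c : Finset α | c ∈ B ∧ p c} = (((Bf B).filter p : Finset (Finset α)) : Set (Finset α)) := by
    ext b
    simp [mem_Bf]
  rw [this, Set.ncard_coe_finset]

/-- number of blocks containing `I` -/
noncomputable def lam (B : Set (Finset α)) (I : Finset α) : ℕ := ((Bf B).filter (fun b => I ⊆ b)).card

variable {t k : ℕ} {B : Set (Finset α)}

theorem lam_mul (hB : IsSteinerSystem t k B) (I : Finset α) (hI : I.card ≤ t) :
    lam B I * (k - I.card).choose (t - I.card) = (Fintype.card α - I.card).choose (t - I.card) := by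
  have key := sum_card_bipartiteAbove_eq_sum_card_bipartiteBelow
    (s := (powersetCard t univ).filter (fun T => I ⊆ T)) (t := (Bf B).filter (fun b => I ⊆ b))
    (fun T b => T ⊆ b)
  have h1 : ∀ T ∈ (powersetCard t (univ : Finset α)).filter (fun T => I ⊆ T),
      (((Bf B).filter (fun b => I ⊆ b)).bipartiteAbove (fun T b => T ⊆ b) T).card = 1 := by
    intro T hT
    simp only [mem_filter, mem_powersetCard] at hT
    obtain ⟨b, ⟨hb, hTb⟩, hu⟩ := hB.2 T hT.1.2
    rw [card_eq_one]
    refine ⟨b, ?_⟩
    ext c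
    simp only [bipartiteAbove, mem_filter, mem_singleton, mem_Bf]
    constructor
    · rintro ⟨⟨hc, _⟩, hTc⟩
      exact hu c ⟨hc, hTc⟩
    · rintro rfl
      exact ⟨⟨hb, hT.2.trans hTb⟩, hTb⟩
  have h2 : ∀ b ∈ (Bf B).filter (fun b => I ⊆ b),
      (((powersetCard t (univ : Finset α)).filter (fun T => I ⊆ T)).bipartiteBelow
        (fun T b => T ⊆ b) b).card = (k - I.card).choose (t - I.card) := by
    intro b hb
    simp only [mem_filter, mem_Bf] at hb
    rw [← hB.1 b hb.1, ← card_powersetCard_filter_subset I b hb.2 t hI]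
    congr 1
    ext T
    simp only [bipartiteBelow, mem_filter, mem_powersetCard, subset_univ, true_and]
    tauto
  rw [sum_congr rfl h1, sum_congr rfl h2, sum_const, sum_const, smul_eq_mul, smul_eq_mul, mul_one,
    card_powersetCard_filter_subset I univ (subset_univ _) t hI, card_univ] at key
  exact key.symm

theorem lam_empty (B : Set (Finset α)) : lam B ∅ = B.ncard := by
  rw [ncard_eq_card_Bf, lam]
  congr 1
  ext b
  simp

/-- number of blocks meeting `b0` in exactly `i` points -/
noncomputable def nInt (B : Set (Finset α)) (b0 : Finset α) (i : ℕ) : ℕ :=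
  ((Bf B).filter (fun c => (c ∩ b0).card = i)).card

theorem inter_eq (hB : IsSteinerSystem t k B) {b0 : Finset α} (hb0 : b0 ∈ B) (j L : ℕ)
    (hL : ∀ J : Finset α, J.card = j → lam B J = L) :
    ∑ i ∈ range (k + 1), nInt B b0 i * i.choose j = k.choose j * L := by
  have key := sum_card_bipartiteAbove_eq_sum_card_bipartiteBelow
    (s := powersetCard j b0) (t := Bf B) (fun J c => J ⊆ c)
  have h1 : ∀ J ∈ powersetCard j b0, ((Bf B).bipartiteAbove (fun J c => J ⊆ c) J).card = L := by
    intro J hJ
    rw [mem_powersetCard] at hJ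
    rw [← hL J hJ.2]
    rfl
  have h2 : ∀ c ∈ Bf B, ((powersetCard j b0).bipartiteBelow (fun J c => J ⊆ c) c).card =
      ((c ∩ b0).card).choose j := by
    intro c _
    rw [← card_powersetCard]
    congr 1
    ext J
    simp only [bipartiteBelow, mem_filter, mem_powersetCard, subset_inter_iff]
    tauto
  rw [sum_congr rfl h1, sum_congr rfl h2, sum_const, smul_eq_mul, card_powersetCard,
    hB.1 b0 hb0] at key
  rw [key]
  have hmaps : ((Bf B : Finset (Finset α)) : Set (Finset α)).MapsTo (fun c => (c ∩ b0).card)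
      (range (k + 1)) := by
    intro c _
    simp only [coe_range, Set.mem_Iio]
    have := card_le_card (inter_subset_right (s₁ := c) (s₂ := b0))
    rw [hB.1 b0 hb0] at this
    omega
  rw [← sum_fiberwise_of_maps_to hmaps]
  apply sum_congr rfl
  intro i _
  rw [nInt, ← smul_eq_mul, ← sum_const]
  apply sum_congr rfl
  intro c hc
  rw [mem_filter] at hc
  rw [hc.2]

theorem eq_of_le_card_inter (hB : IsSteinerSystem t k B) {b c : Finset α} (hb : b ∈ B) (hc : c ∈ B)
    (h : t ≤ (c ∩ b).card) : c = b := by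
  obtain ⟨T, hT, hTc⟩ := exists_subset_card_eq h
  obtain ⟨d, _, hu⟩ := hB.2 T hTc
  rw [hu c ⟨hc, hT.trans inter_subset_left⟩, hu b ⟨hb, hT.trans inter_subset_right⟩]

theorem nInt_eq_zero (hB : IsSteinerSystem t k B) {b0 : Finset α} (hb0 : b0 ∈ B) {i : ℕ}
    (h1 : t ≤ i) (h2 : i < k) : nInt B b0 i = 0 := by
  rw [nInt, card_eq_zero, filter_eq_empty_iff]
  intro c hc hi
  have := eq_of_le_card_inter hB hb0 (mem_Bf.1 hc) (by omega)
  rw [this, inter_self, hB.1 b0 hb0] at hi
  omega

theorem nInt_self (hB : IsSteinerSystem t k B) {b0 : Finset α} (hb0 : b0 ∈ B) (h1 : t ≤ k) :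
    nInt B b0 k = 1 := by
  rw [nInt, card_eq_one]
  refine ⟨b0, ?_⟩
  ext c
  simp only [mem_filter, mem_singleton, mem_Bf]
  constructor
  · rintro ⟨hc, hi⟩
    exact eq_of_le_card_inter hB hb0 hc (by omega)
  · rintro rfl
    exact ⟨hb0, by rw [inter_self, hB.1 _ hb0]⟩

theorem ne_of_nInt_eq_zero {b0 c : Finset α} {i : ℕ} (h : nInt B b0 i = 0) (hc : c ∈ B) :
    (c ∩ b0).card ≠ i := by
  rw [nInt, card_eq_zero, filter_eq_empty_iff] at h
  exact h (mem_Bf.2 hc)

end

end Cfsg.Agent.Lib.Helper3
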