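import Mathlib

/-!
# The correspondence between a group action and a labelling of points
-/

set_option autoImplicit false

namespace Cfsg.Agent.Lib.Helper3

/-- pairs (group element, permutation of the labels) compatible with a labelling of points -/
def actGraph (G : Type*) {Ω : Type*} [Group G] [MulAction G Ω] {n : ℕ} (pt : Fin n → Ω) :
    Subgroup (G × Equiv.Perm (Fin n)) where
  carrier := {x | ∀ i, x.1 • pt i = pt (x.2 i)}
  one_mem' := by
    intro i
    simp
  mul_mem' := by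
    rintro ⟨g, σ⟩ ⟨g', σ'⟩ h h' i
    show (g * g') • pt i = pt ((σ * σ') i)
    have e' : g' • pt i = pt (σ' i) := h' i
    have e : g • pt (σ' i) = pt (σ (σ' i)) := h (σ' i)
    rw [mul_smul, e', e, Equiv.Perm.mul_apply]
  inv_mem' := by
    rintro ⟨g, σ⟩ h i
    show g⁻¹ • pt i = pt (σ⁻¹ i)
    have e : g • pt (σ⁻¹ i) = pt (σ (σ⁻¹ i)) := h (σ⁻¹ i)
    have hσ : σ (σ⁻¹ i) = i := by simp
    rw [hσ] at e
    rw [inv_smul_eq_iff, e]

theorem mem_actGraph (G : Type*) {Ω : Type*} [Group G] [MulAction G Ω] {n : ℕ} (pt : Fin n → Ω)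
    (g : G) (σ : Equiv.Perm (Fin n)) : (g, σ) ∈ actGraph G pt ↔ ∀ i, g • pt i = pt (σ i) := Iff.rfl

end Cfsg.Agent.Lib.Helper3
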