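import Mathlib
import Cfsg.Prelude.Def_Chevalley

/-!
# Chevalley groups over isomorphic fields; commutator subgroups
-/

set_option autoImplicit false
set_option linter.unusedSimpArgs false

namespace Cfsg.Agent.Lib.Helper3

open Cfsg.Lie Cfsg.Lie.ChevalleyDatum Matrix
open scoped commutatorElement

/-- (helper7's computation) the root elements are compatible with field homomorphisms -/
theorem xMat_map_hom' {F F' : Type*} [Field F] [Field F'] (D : ChevalleyDatum) (f : F →+* F')
    (r : Fin D.nroots) (t : F) : (D.xMat F r t).map f = D.xMat F' r (f t) := by
  ext row col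
  rcases col with i | s
  · rcases row with i' | u
    · simp only [xMat, Matrix.map_apply, Matrix.of_apply]
      split_ifs <;> simp
    · simp only [xMat, Matrix.map_apply, Matrix.of_apply]
      split_ifs <;> simp
  · by_cases hs : s = r
    · subst hs
      rcases row with i' | u
      · simp [xMat]
      · simp only [xMat, Matrix.map_apply, Matrix.of_apply]
        split_ifs <;> simp
    · by_cases hs2 : s.val = D.negIdx.getD r.val 0
      · rcases row with i' | u
        · simp only [xMat, Matrix.map_apply, Matrix.of_apply, hs, hs2, if_true, if_false]
          simp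
        · simp only [xMat, Matrix.map_apply, Matrix.of_apply, hs, hs2, if_true, if_false]
          split_ifs <;> simp
      · rcases row with i' | u
        · simp only [xMat, Matrix.map_apply, Matrix.of_apply, hs, hs2, if_false]
          simp
        · simp only [xMat, Matrix.map_apply, Matrix.of_apply, hs, hs2, if_false]
          rw [map_add, map_list_sum, List.map_map]
          congr 1
          · split_ifs <;> simp
          · congr 1
            apply List.map_congr_left
            intro km _
            simp

/-- general linear groups over isomorphic fields -/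
def glCongr {n F K : Type*} [Fintype n] [DecidableEq n] [Field F] [Field K] (e : F ≃+* K) :
    GL n F ≃* GL n K := Units.mapEquiv (RingEquiv.mapMatrix e).toMulEquiv

theorem glCongr_coe {n F K : Type*} [Fintype n] [DecidableEq n] [Field F] [Field K] (e : F ≃+* K)
    (g : GL n F) : ((glCongr e g : GL n K) : Matrix n n K) = (g : Matrix n n F).map e := rfl

theorem chev_map {F K : Type*} [Field F] [Field K] (D : ChevalleyDatum) (e : F ≃+* K) :
    (D.group F).map (glCongr (n := D.Idx) e).toMonoidHom = D.group K := by
  unfold ChevalleyDatum.group
  rw [MonoidHom.map_closure]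
  congr 1
  ext g
  constructor
  · rintro ⟨h, ⟨r, t, hh⟩, rfl⟩
    refine ⟨r, e t, ?_⟩
    show ((glCongr e h : GL D.Idx K) : Matrix D.Idx D.Idx K) = _
    rw [glCongr_coe, hh]
    exact xMat_map_hom' D e.toRingHom r t
  · rintro ⟨r, t, hg⟩
    refine ⟨(glCongr e).symm g, ⟨r, e.symm t, ?_⟩, by simp⟩
    have h1 : (((glCongr e).symm g : GL D.Idx F) : Matrix D.Idx D.Idx F) = (g : Matrix D.Idx D.Idx K).map e.symm := rfl
    rw [h1, hg]
    exact xMat_map_hom' D e.symm.toRingHom r t

/-- Chevalley groups over isomorphic fields -/
theorem chev_congr {F K : Type*} [Field F] [Field K] (D : ChevalleyDatum) (e : F ≃+* K) :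
    Nonempty (D.group F ≃* D.group K) :=
  ⟨(MulEquiv.subgroupMap (glCongr (n := D.Idx) e) (D.group F)).trans
    (MulEquiv.subgroupCongr (chev_map D e))⟩

theorem chev_of_card {F K : Type*} [Field F] [Fintype F] [Field K] [Fintype K] (D : ChevalleyDatum)
    (h : Fintype.card F = Fintype.card K) : Nonempty (D.group F ≃* D.group K) :=
  chev_congr D (FiniteField.ringEquivOfCardEq h)

/-- commutator subgroups of isomorphic groups -/
theorem commutator_congr {G H : Type*} [Group G] [Group H] (e : G ≃* H) :
    Nonempty (commutator G ≃* commutator H) := by
  have h : (commutator G).map e.toMonoidHom = commutator H := by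
    rw [commutator_def, commutator_def, Subgroup.map_commutator, ← MonoidHom.range_eq_map,
      MonoidHom.range_eq_top.2 e.surjective]
  exact ⟨(MulEquiv.subgroupMap e (commutator G)).trans (MulEquiv.subgroupCongr h)⟩

/-- a simple subgroup of index two, not of prime order, is the commutator subgroup -/
theorem commutator_eq_of_index_two {G : Type*} [Group G] (K : Subgroup G) (hi : K.index = 2)
    (hs : IsSimpleGroup K) (hnp : ¬ (Nat.card K).Prime) : commutator G = K := by
  have hn : K.Normal := Subgroup.normal_of_index_eq_two hi
  apply le_antisymm
  · have hc : Nat.card (G ⧸ K) = 2 := hi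
    have : Fact (Nat.Prime 2) := ⟨Nat.prime_two⟩
    have hcyc : IsCyclic (G ⧸ K) := isCyclic_of_prime_card hc
    let _ : CommGroup (G ⧸ K) := hcyc.commGroup
    have := Abelianization.commutator_subset_ker (QuotientGroup.mk' K)
    rwa [QuotientGroup.ker_mk'] at this
  · have h1 : commutator K = ⊤ := by
      rcases hs.eq_bot_or_eq_top_of_normal (commutator K) inferInstance with h | h
      · exfalso
        apply hnp
        have hcomm : ∀ a b : K, a * b = b * a := by
          intro a b
          have h2 : ⁅a, b⁆ ∈ commutator K :=
            Subgroup.commutator_mem_commutator (Subgroup.mem_top a) (Subgroup.mem_top b)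
          rw [h, Subgroup.mem_bot] at h2
          exact commutatorElement_eq_one_iff_mul_comm.1 h2
        let _ : CommGroup K := { (inferInstance : Group K) with mul_comm := hcomm }
        exact IsSimpleGroup.prime_card
      · exact h
    have h2 : (commutator K).map K.subtype ≤ commutator G := by
      rw [commutator_def, commutator_def, Subgroup.map_commutator]
      exact Subgroup.commutator_mono le_top le_top
    rw [h1, ← MonoidHom.range_eq_map, Subgroup.range_subtype] at h2
    exact h2

end Cfsg.Agent.Lib.Helper3
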