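import Mathlib

/-!
# A concrete, computable field with four elements
-/

set_option autoImplicit false

namespace Cfsg.Agent.Lib.Helper3

/-- the field with four elements `0, 1, ω, ω²` -/
inductive F4 : Type
  | z | o | w | w2
  deriving DecidableEq

namespace F4

instance : Fintype F4 := ⟨{z, o, w, w2}, by intro x; cases x <;> decide⟩

/-- addition -/
def add : F4 → F4 → F4
  | z, y => y
  | x, z => x
  | o, o => z | o, w => w2 | o, w2 => w
  | w, o => w2 | w, w => z | w, w2 => o
  | w2, o => w | w2, w => o | w2, w2 => z

/-- multiplication -/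
def mul : F4 → F4 → F4
  | z, _ => z
  | _, z => z
  | o, y => y
  | x, o => x
  | w, w => w2 | w, w2 => o
  | w2, w => o | w2, w2 => w

/-- inverse -/
def inv : F4 → F4
  | z => z | o => o | w => w2 | w2 => w

instance : Add F4 := ⟨add⟩
instance : Mul F4 := ⟨mul⟩
instance : Zero F4 := ⟨z⟩
instance : One F4 := ⟨o⟩
instance : Neg F4 := ⟨id⟩
instance : Inv F4 := ⟨inv⟩

instance : Field F4 where
  add_assoc := by decide
  zero_add := by decide
  add_zero := by decide
  add_comm := by decide
  neg_add_cancel := by decide
  mul_assoc := by decide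
  one_mul := by decide
  mul_one := by decide
  mul_comm := by decide
  left_distrib := by decide
  right_distrib := by decide
  zero_mul := by decide
  mul_zero := by decide
  exists_pair_ne := ⟨z, o, by decide⟩
  mul_inv_cancel := by decide
  inv_zero := rfl
  nsmul := nsmulRec
  zsmul := zsmulRec
  nnqsmul := _
  qsmul := _

theorem card_eq : Fintype.card F4 = 4 := rfl

/-- decoding of a number -/
def dec (n : ℕ) : F4 :=
  match n % 4 with
  | 0 => z | 1 => o | 2 => w | _ => w2

end F4

end Cfsg.Agent.Lib.Helper3
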