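import Cfsg.Agent.Lib.Helper3.MatL2
import Cfsg.Agent.Lib.Helper3.MatChk

/-!
# Graphs of actions on blocks, subgroups of index two, faithful actions
-/

set_option autoImplicit false

namespace Cfsg.Agent.Lib.Helper3

open Cfsg.Agent.Lib.Helper11

section Blk

variable {G : Type*} [Group G]

/-- pairs (group element, permutation of the blocks) compatible with a labelling of points and a
map from the labels to the blocks -/
def blkGraph (ψ : G →* Equiv.Perm ℕ) {n m : ℕ} (pt : Fin n → ℕ) (blk : Fin n → Fin m) :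
    Subgroup (G × Equiv.Perm (Fin m)) where
  carrier := {x | (∀ i, ∃ j, ψ x.1 (pt i) = pt j ∧ blk j = x.2 (blk i)) ∧
    (∀ i, ∃ j, ψ x.1⁻¹ (pt i) = pt j ∧ blk j = x.2⁻¹ (blk i))}
  one_mem' := by
    constructor <;> intro i <;> exact ⟨i, by simp, by simp⟩
  mul_mem' := by
    rintro ⟨g, σ⟩ ⟨g', σ'⟩ ⟨h1, h2⟩ ⟨h1', h2'⟩
    constructor
    · intro i
      obtain ⟨j, hj, hb⟩ := h1' i
      obtain ⟨k, hk, hc⟩ := h1 j
      refine ⟨k, ?_, ?_⟩
      · show ψ (g * g') (pt i) = pt k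
        have hj' : ψ g' (pt i) = pt j := hj
        have hk' : ψ g (pt j) = pt k := hk
        rw [map_mul, Equiv.Perm.mul_apply, hj', hk']
      · show blk k = (σ * σ') (blk i)
        have hb' : blk j = σ' (blk i) := hb
        have hc' : blk k = σ (blk j) := hc
        rw [Equiv.Perm.mul_apply, ← hb', hc']
    · intro i
      obtain ⟨j, hj, hb⟩ := h2 i
      obtain ⟨k, hk, hc⟩ := h2' j
      refine ⟨k, ?_, ?_⟩
      · show ψ (g * g')⁻¹ (pt i) = pt k
        have hj' : ψ g⁻¹ (pt i) = pt j := hj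
        have hk' : ψ g'⁻¹ (pt j) = pt k := hk
        rw [mul_inv_rev, map_mul, Equiv.Perm.mul_apply, hj', hk']
      · show blk k = (σ * σ')⁻¹ (blk i)
        have hb' : blk j = σ⁻¹ (blk i) := hb
        have hc' : blk k = σ'⁻¹ (blk j) := hc
        rw [mul_inv_rev, Equiv.Perm.mul_apply, ← hb', hc']
  inv_mem' := by
    rintro ⟨g, σ⟩ ⟨h1, h2⟩
    refine ⟨h2, ?_⟩
    intro i
    obtain ⟨j, hj, hb⟩ := h1 i
    exact ⟨j, by simpa using hj, by simpa using hb⟩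

theorem blkGraph_fwd (ψ : G →* Equiv.Perm ℕ) {n m : ℕ} (pt : Fin n → ℕ) (blk : Fin n → Fin m)
    (g : G) (σ : Equiv.Perm (Fin m)) (h : (g, σ) ∈ blkGraph ψ pt blk) (i : Fin n) :
    ∃ j, ψ g (pt i) = pt j ∧ blk j = σ (blk i) := h.1 i

theorem blkGraph_fun (ψ : G →* Equiv.Perm ℕ) {n m : ℕ} (pt : Fin n → ℕ) (blk : Fin n → Fin m)
    (hpt : Function.Injective pt) (hblk : Function.Surjective blk)
    (σ : Equiv.Perm (Fin m)) (h : ((1 : G), σ) ∈ blkGraph ψ pt blk) : σ = 1 := by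
  ext b
  obtain ⟨i, rfl⟩ := hblk b
  obtain ⟨j, hj, hb⟩ := blkGraph_fwd ψ pt blk 1 σ h i
  rw [map_one, Equiv.Perm.one_apply] at hj
  rw [← hpt hj] at hb
  rw [← hb]
  rfl

theorem mem_blkGraph_of_forward (ψ : G →* Equiv.Perm ℕ) {n m : ℕ} (pt : Fin n → ℕ)
    (blk : Fin n → Fin m) (hpt : Function.Injective pt) (g : G) (σ : Equiv.Perm (Fin m))
    (h : ∀ i, ∃ j, ψ g (pt i) = pt j ∧ blk j = σ (blk i)) : (g, σ) ∈ blkGraph ψ pt blk := by
  refine ⟨h, ?_⟩
  choose f hf hb using h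
  have hinj : Function.Injective f := by
    intro i i' hii
    apply hpt
    apply (ψ g).injective
    rw [hf i, hf i', hii]
  have hsurj : Function.Surjective f := Finite.injective_iff_surjective.1 hinj
  intro i
  obtain ⟨i', rfl⟩ := hsurj i
  refine ⟨i', ?_, ?_⟩
  · show ψ g⁻¹ (pt (f i')) = pt i'
    rw [map_inv, Equiv.Perm.inv_eq_iff_eq, hf i']
  · show blk i' = σ⁻¹ (blk (f i'))
    rw [hb i']
    simp

/-- the check for one generator: word in a big network against a letter of the small network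
acting on the blocks -/
def blkChk (NT : ℕ → List (ℕ × ℕ)) (w : List ℕ) (pt : ℕ → ℕ) (img : ℕ → ℕ) (bl : ℕ → ℕ)
    (ntl : List (List (ℕ × ℕ))) (l n : ℕ) : Prop :=
  ∀ i < n, img i < n ∧ mapChk NT w (pt i) (pt (img i)) = true ∧
    Nat.beq (applyWord (ntOf ntl) [l] (Nat.pow 2 (bl (img i)))) (Nat.pow 2 (bl i)) = true

noncomputable instance (NT : ℕ → List (ℕ × ℕ)) (w : List ℕ) (pt : ℕ → ℕ) (img : ℕ → ℕ)
    (bl : ℕ → ℕ) (ntl : List (List (ℕ × ℕ))) (l n : ℕ) :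
    Decidable (blkChk NT w pt img bl ntl l n) := by
  unfold blkChk
  infer_instance

theorem NetSetup.mem_blkGraph_of_chk {ntl : List (List (ℕ × ℕ))}
    {m k INV nc : ℕ} (S : NetSetup ntl m k INV nc) (ψ : G →* Equiv.Perm ℕ)
    (NT : ℕ → List (ℕ × ℕ)) (P2 : ℕ) (hNT : ∀ l, ∀ st ∈ NT l, stOK P2 st = true)
    (g : G) (w : List ℕ) (hg : ψ g = wordPerm NT w) (n : ℕ) (pt : ℕ → ℕ) (img : ℕ → ℕ)
    (bl : ℕ → ℕ) (hbl : ∀ i < n, bl i < m)
    (hpt : Function.Injective (fun i : Fin n => pt i)) (l : ℕ)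
    (h : blkChk NT w pt img bl ntl l n) :
    (g, vL ntl m l) ∈ blkGraph ψ (fun i : Fin n => pt i)
      (fun i : Fin n => (⟨bl i, hbl i i.2⟩ : Fin m)) := by
  apply mem_blkGraph_of_forward _ _ _ hpt
  intro i
  obtain ⟨h1, h2, h3⟩ := h i i.2
  refine ⟨⟨img i, h1⟩, ?_, ?_⟩
  · show ψ g (pt i) = pt (img i)
    rw [hg]
    exact mapChk_spec P2 NT hNT _ _ _ h2
  · exact (S.img_of_chk l (bl i) (bl (img i)) (hbl i i.2) (hbl _ h1) h3).symm

/-- the check for one element against a table for a permutation of the blocks -/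
def blkChkT (NT : ℕ → List (ℕ × ℕ)) (w : List ℕ) (pt : ℕ → ℕ) (img : ℕ → ℕ) (bl : ℕ → ℕ)
    (tab : ℕ → ℕ) (n : ℕ) : Prop :=
  ∀ i < n, img i < n ∧ mapChk NT w (pt i) (pt (img i)) = true ∧ bl (img i) = tab (bl i)

noncomputable instance (NT : ℕ → List (ℕ × ℕ)) (w : List ℕ) (pt : ℕ → ℕ) (img : ℕ → ℕ)
    (bl : ℕ → ℕ) (tab : ℕ → ℕ) (n : ℕ) : Decidable (blkChkT NT w pt img bl tab n) := by
  unfold blkChkT
  infer_instance

theorem mem_blkGraph_of_chkT (ψ : G →* Equiv.Perm ℕ)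
    (NT : ℕ → List (ℕ × ℕ)) (P2 : ℕ) (hNT : ∀ l, ∀ st ∈ NT l, stOK P2 st = true)
    (g : G) (w : List ℕ) (hg : ψ g = wordPerm NT w) (n m : ℕ) (pt : ℕ → ℕ) (img : ℕ → ℕ)
    (bl : ℕ → ℕ) (hbl : ∀ i < n, bl i < m)
    (hpt : Function.Injective (fun i : Fin n => pt i)) (tab : ℕ → ℕ)
    (σ : Equiv.Perm (Fin m)) (hσ : ∀ b : Fin m, (σ b : ℕ) = tab b)
    (h : blkChkT NT w pt img bl tab n) :
    (g, σ) ∈ blkGraph ψ (fun i : Fin n => pt i)
      (fun i : Fin n => (⟨bl i, hbl i i.2⟩ : Fin m)) := by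
  apply mem_blkGraph_of_forward _ _ _ hpt
  intro i
  obtain ⟨h1, h2, h3⟩ := h i i.2
  refine ⟨⟨img i, h1⟩, ?_, ?_⟩
  · show ψ g (pt i) = pt (img i)
    rw [hg]
    exact mapChk_spec P2 NT hNT _ _ _ h2
  · apply Fin.ext
    rw [hσ]
    exact h3

end Blk

/-- a subgroup of index two from a graph -/
theorem index_two_of_graph {G P : Type*} [Group G] [Group P] (S : Subgroup (G × P))
    (hfun : ∀ σ, ((1 : G), σ) ∈ S → σ = 1)
    (v : ℕ → G) (q : ℕ → P) (gens : List ℕ) (hS : ∀ x ∈ gens, (v x, q x) ∈ S)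
    (H : Subgroup G) (hvH : ∀ x ∈ gens, v x ∈ H)
    (N : ℕ) (hN : N ≠ 0) (hq : Nat.card (lgrp q gens) = N) (hH : Nat.card H = 2 * N)
    (h0 : G) (hh0 : h0 ∈ H) (hno : ∀ σ ∈ lgrp q gens, (h0, σ) ∉ S) :
    ∃ K : Subgroup H, K.Normal ∧ K.index = 2 ∧ Nonempty (K ≃* lgrp q gens) := by
  have : Finite H := Nat.finite_of_card_ne_zero (by rw [hH]; omega)
  obtain ⟨ρ, hρ, hgr⟩ := hom_of_graph S hfun v q gens hS
  have hLH : lgrp v gens ≤ H := lgrp_le v hvH
  have hfinL : Finite (lgrp v gens) := Finite.of_injective _ (Subgroup.inclusion_injective hLH)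
  have hge : N ≤ Nat.card (lgrp v gens) := by
    rw [← hq]
    exact Nat.card_le_card_of_surjective ρ hρ
  have hnot : h0 ∉ lgrp v gens := by
    intro hm
    exact hno _ (ρ ⟨h0, hm⟩).2 (lgrp_pair_le S v q gens hS (hgr ⟨h0, hm⟩))
  set K : Subgroup H := (lgrp v gens).subgroupOf H with hK
  have hcK : Nat.card K = Nat.card (lgrp v gens) :=
    Nat.card_congr (Subgroup.subgroupOfEquivOfLe hLH).toEquiv
  have hmul := K.card_mul_index
  rw [hcK, hH] at hmul
  have hi1 : K.index ≠ 1 := by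
    intro h1
    rw [Subgroup.index_eq_one] at h1
    have : (⟨h0, hh0⟩ : H) ∈ K := by rw [h1]; trivial
    exact hnot (Subgroup.mem_subgroupOf.1 this)
  have hi0 : K.index ≠ 0 := by
    intro h
    rw [h] at hmul
    omega
  have hi2 : K.index = 2 := by
    by_contra hne
    have h3 : 3 ≤ K.index := by omega
    have : Nat.card (lgrp v gens) * 3 ≤ 2 * N := by
      rw [← hmul]
      exact Nat.mul_le_mul_left _ h3
    omega
  refine ⟨K, Subgroup.normal_of_index_eq_two hi2, hi2, ?_⟩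
  rw [hi2] at hmul
  have hcL : Nat.card (lgrp v gens) = N := by omega
  have hbij : Function.Bijective ρ := by
    rw [Nat.bijective_iff_surjective_and_card]
    exact ⟨hρ, by rw [hcL, hq]⟩
  exact ⟨(Subgroup.subgroupOfEquivOfLe hLH).trans (MulEquiv.ofBijective ρ hbij)⟩

/-- isomorphism from a graph which is injective in both directions -/
theorem iso_of_graph_inj {G P : Type*} [Group G] [Group P] (S : Subgroup (G × P))
    (hfun : ∀ σ, ((1 : G), σ) ∈ S → σ = 1) (hinj : ∀ g, (g, (1 : P)) ∈ S → g = 1)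
    (v : ℕ → G) (q : ℕ → P) (gens : List ℕ) (hS : ∀ x ∈ gens, (v x, q x) ∈ S) :
    Nonempty (lgrp v gens ≃* lgrp q gens) := by
  obtain ⟨ρ, hρ, hgr⟩ := hom_of_graph S hfun v q gens hS
  refine ⟨MulEquiv.ofBijective ρ ⟨?_, hρ⟩⟩
  rw [injective_iff_map_eq_one]
  intro g hg
  have h1 := hgr g
  rw [hg] at h1
  exact Subtype.ext (hinj _ (lgrp_pair_le S v q gens hS h1))

end Cfsg.Agent.Lib.Helper3
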