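import Cfsg.Agent.Lib.Helper3.Graph

/-!
# Isomorphism from a graph, a simple target and equal orders
-/

set_option autoImplicit false

namespace Cfsg.Agent.Lib.Helper3

theorem iso_of_graph_simple_card {M P : Type*} [Group M] [Group P] (S : Subgroup (M × P))
    (v : ℕ → M) (q : ℕ → P) (gens : List ℕ) (hS : ∀ x ∈ gens, (v x, q x) ∈ S)
    (hs : IsSimpleGroup (lgrp q gens)) (N : ℕ) (hN : N ≠ 0) (hq : Nat.card (lgrp q gens) = N)
    (hM : Nat.card M = N) (hne : ∃ σ ∈ lgrp q gens, ((1 : M), σ) ∉ S) :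
    Nonempty (M ≃* lgrp q gens) := by
  set Γ := lgrp (fun l => (v l, q l)) gens with hΓ
  have hΓS : Γ ≤ S := lgrp_pair_le S v q gens hS
  let f1 : Γ →* M := (MonoidHom.fst M P).comp Γ.subtype
  let f2 : Γ →* P := (MonoidHom.snd M P).comp Γ.subtype
  have hr2 : f2.range = lgrp q gens := by
    rw [MonoidHom.range_eq_map, ← Subgroup.map_map, ← MonoidHom.range_eq_map, Subgroup.range_subtype,
      hΓ, lgrp_map]
    rfl
  let f2r : Γ →* lgrp q gens := (MulEquiv.subgroupCongr hr2).toMonoidHom.comp f2.rangeRestrict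
  have hsurj : Function.Surjective f2r :=
    (MulEquiv.subgroupCongr hr2).surjective.comp f2.rangeRestrict_surjective
  have hf2r : ∀ γ : Γ, ((f2r γ : lgrp q gens) : P) = (γ : M × P).2 := fun _ => rfl
  have hnorm : (f1.ker.map f2r).Normal := Subgroup.Normal.map inferInstance f2r hsurj
  have hfinM : Finite M := Nat.finite_of_card_ne_zero (by rw [hM]; exact hN)
  have hinj1 : Function.Injective f1 := by
    rcases hs.eq_bot_or_eq_top_of_normal _ hnorm with h | h
    · rw [injective_iff_map_eq_one]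
      intro γ hγ
      have h1 : f2r γ ∈ f1.ker.map f2r := ⟨γ, hγ, rfl⟩
      rw [h, Subgroup.mem_bot] at h1
      apply Subtype.ext
      have h2 : (γ : M × P).2 = 1 := by rw [← hf2r, h1]; rfl
      exact Prod.ext hγ h2
    · exfalso
      obtain ⟨σ, hσ, hno⟩ := hne
      have h1 : (⟨σ, hσ⟩ : lgrp q gens) ∈ f1.ker.map f2r := by rw [h]; trivial
      obtain ⟨γ, hγ, hγ2⟩ := h1
      apply hno
      have h2 : (γ : M × P).1 = 1 := hγ
      have h3 : (γ : M × P).2 = σ := by rw [← hf2r, hγ2]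
      have h4 := hΓS γ.2
      rw [← h2, ← h3]
      exact h4
  have hfinΓ : Finite Γ := Finite.of_injective f1 hinj1
  have hc1 : Nat.card Γ ≤ N := by rw [← hM]; exact Nat.card_le_card_of_injective f1 hinj1
  have hc2 : N ≤ Nat.card Γ := by rw [← hq]; exact Nat.card_le_card_of_surjective f2r hsurj
  have hcΓ : Nat.card Γ = N := le_antisymm hc1 hc2
  have hb1 : Function.Bijective f1 := hinj1.bijective_of_nat_card_le (by rw [hM, hcΓ])
  have hb2 : Function.Bijective f2r := by
    rw [Nat.bijective_iff_surjective_and_card]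
    exact ⟨hsurj, by rw [hcΓ, hq]⟩
  exact ⟨(MulEquiv.ofBijective f1 hb1).symm.trans (MulEquiv.ofBijective f2r hb2)⟩

end Cfsg.Agent.Lib.Helper3
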