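import Mathlib
import Cfsg.Agent.Lib.Helper3.Graph2

/-!
# Central quotients of generated groups from correspondences
-/

set_option autoImplicit false

namespace Cfsg.Agent.Lib.Helper3

/-- the group generated by the `v x` modulo its centre is the simple group generated by the `q x` -/
theorem central_quot_of_graph {M P : Type*} [Group M] [Group P] (S : Subgroup (M × P))
    (hZ : ∀ g, (g, (1 : P)) ∈ S → ∀ x : M, x * g = g * x)
    (v : ℕ → M) (q : ℕ → P) (gens : List ℕ) (hS : ∀ x ∈ gens, (v x, q x) ∈ S)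
    (hs : IsSimpleGroup (lgrp q gens))
    (hne : ∃ x ∈ gens, ∃ y ∈ gens, v x * v y ≠ v y * v x) :
    Nonempty ((lgrp v gens ⧸ Subgroup.center (lgrp v gens)) ≃* lgrp q gens) ∧
      ∀ g ∈ Subgroup.center (lgrp v gens), ((g : M), (1 : P)) ∈ S := by
  set H := lgrp v gens with hH
  set Γ := lgrp (fun l => (v l, q l)) gens with hΓ
  have hΓS : Γ ≤ S := lgrp_pair_le S v q gens hS
  let f1 : Γ →* M := (MonoidHom.fst M P).comp Γ.subtype
  let f2 : Γ →* P := (MonoidHom.snd M P).comp Γ.subtype
  have hr1 : f1.range = H := by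
    rw [MonoidHom.range_eq_map, ← Subgroup.map_map, ← MonoidHom.range_eq_map, Subgroup.range_subtype,
      hΓ, lgrp_map]
    rfl
  have hr2 : f2.range = lgrp q gens := by
    rw [MonoidHom.range_eq_map, ← Subgroup.map_map, ← MonoidHom.range_eq_map, Subgroup.range_subtype,
      hΓ, lgrp_map]
    rfl
  let f1r : Γ →* H := (MulEquiv.subgroupCongr hr1).toMonoidHom.comp f1.rangeRestrict
  have hsurj1 : Function.Surjective f1r :=
    (MulEquiv.subgroupCongr hr1).surjective.comp f1.rangeRestrict_surjective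
  let f2r : Γ →* lgrp q gens := (MulEquiv.subgroupCongr hr2).toMonoidHom.comp f2.rangeRestrict
  have hsurj2 : Function.Surjective f2r :=
    (MulEquiv.subgroupCongr hr2).surjective.comp f2.rangeRestrict_surjective
  let φ : Γ →* H ⧸ Subgroup.center H := (QuotientGroup.mk' _).comp f1r
  have hφs : Function.Surjective φ := (QuotientGroup.mk'_surjective _).comp hsurj1
  have hker : f2r.ker ≤ φ.ker := by
    intro x hx
    have h1 : f2r x = 1 := hx
    have h2 : (x : M × P).2 = 1 := congrArg Subtype.val h1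
    have h3 : ((x : M × P).1, (1 : P)) ∈ S := by
      rw [← h2]; exact hΓS x.2
    apply (QuotientGroup.eq_one_iff _).2
    rw [Subgroup.mem_center_iff]
    intro y
    apply Subtype.ext
    exact hZ _ h3 y
  let ψ : lgrp q gens →* H ⧸ Subgroup.center H := f2r.liftOfSurjective hsurj2 ⟨φ, hker⟩
  have hψ : ∀ x, ψ (f2r x) = φ x := fun x =>
    MonoidHom.liftOfRightInverse_comp_apply f2r _ _ ⟨φ, hker⟩ x
  have hψs : Function.Surjective ψ := by
    intro y
    obtain ⟨x, rfl⟩ := hφs y
    exact ⟨f2r x, hψ x⟩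
  have hkerψ : ψ.ker = ⊥ := by
    rcases hs.eq_bot_or_eq_top_of_normal ψ.ker inferInstance with h | h
    · exact h
    · exfalso
      obtain ⟨x, hx, y, hy, hxy⟩ := hne
      apply hxy
      have hmem : (v x, q x) ∈ Γ := mem_lgrp (fun l => (v l, q l)) hx
      have h2 : f2r ⟨_, hmem⟩ ∈ ψ.ker := by rw [h]; trivial
      have h3 : ψ (f2r ⟨_, hmem⟩) = 1 := h2
      rw [hψ] at h3
      have h4 := (QuotientGroup.eq_one_iff _).1 h3
      have h5 := (Subgroup.mem_center_iff.1 h4) ⟨v y, mem_lgrp v hy⟩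
      exact (congrArg Subtype.val h5).symm
  have hinj : Function.Injective ψ := (MonoidHom.ker_eq_bot_iff ψ).1 hkerψ
  refine ⟨⟨(MulEquiv.ofBijective ψ ⟨hinj, hψs⟩).symm⟩, ?_⟩
  intro g hg
  obtain ⟨x, hx⟩ := hsurj1 g
  have h1 : φ x = 1 := by
    apply (QuotientGroup.eq_one_iff _).2
    rw [hx]; exact hg
  rw [← hψ] at h1
  have h2 : f2r x = 1 := hinj (by rw [h1, map_one])
  have h3 : (x : M × P).2 = 1 := congrArg Subtype.val h2
  have h4 : (x : M × P).1 = (g : M) := congrArg Subtype.val hx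
  rw [← h4, ← h3]
  exact hΓS x.2

end Cfsg.Agent.Lib.Helper3
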