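import Cfsg.Agent.Lib.Helper3.Graph4
import Cfsg.Agent.Lib.Helper3.MatL3
import Cfsg.Agent.Lib.Helper11.Order

/-!
# Checks of graphs by bit masks (for networks of large degree), faithfulness from a base
-/

set_option autoImplicit false

namespace Cfsg.Agent.Lib.Helper3

open Cfsg.Agent.Lib.Helper11

/-- masks from pieces -/
theorem maskChk_of_pieces (NT : ℕ → List (ℕ × ℕ)) (k : ℕ) (w : List ℕ) (MS : List ℕ)
    (hlen : MS.length ≤ k)
    (h : ∀ j < k, Nat.beq (applyWord NT w (tvec j k)) (MS.getD j 0) = true) :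
    maskChk NT k w MS = true := by
  unfold maskChk
  rw [Bool.and_eq_true, decide_eq_true_eq, List.all_eq_true]
  exact ⟨hlen, fun j hj => h j (List.mem_range.1 hj)⟩

variable {G : Type*} [Group G]

/-- the check for one generator: masks of a word in a big network against a letter of the small
network -/
def ptChkM (MS : List ℕ) (pt : ℕ → ℕ) (img : ℕ → ℕ)
    (ntl : List (List (ℕ × ℕ))) (l n : ℕ) : Prop :=
  ∀ i < n, img i < n ∧ imgOf MS (pt i) = pt (img i) ∧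
    Nat.beq (applyWord (ntOf ntl) [l] (Nat.pow 2 (img i))) (Nat.pow 2 i) = true

noncomputable instance (MS : List ℕ) (pt : ℕ → ℕ) (img : ℕ → ℕ)
    (ntl : List (List (ℕ × ℕ))) (l n : ℕ) : Decidable (ptChkM MS pt img ntl l n) := by
  unfold ptChkM
  infer_instance

theorem NetSetup.mem_ptGraph_of_masks {ntl : List (List (ℕ × ℕ))}
    {n k INV nc : ℕ} (S : NetSetup ntl n k INV nc) (ψ : G →* Equiv.Perm ℕ)
    (NT : ℕ → List (ℕ × ℕ)) (K : ℕ) (hNT : ∀ l, ∀ st ∈ NT l, stOK (2 ^ (2 ^ K)) st = true)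
    (g : G) (w : List ℕ) (hg : ψ g = wordPerm NT w) (MS : List ℕ)
    (hMS : maskChk NT K w MS = true) (pt : ℕ → ℕ) (hpt : ∀ i < n, pt i < 2 ^ K)
    (img : ℕ → ℕ) (l : ℕ) (h : ptChkM MS pt img ntl l n) :
    (g, vL ntl n l) ∈ ptGraph ψ (fun i : Fin n => pt i) := by
  intro i
  obtain ⟨h1, h2, h3⟩ := h i i.2
  have h4 := S.img_of_chk l i (img i) i.2 h1 h3
  show ψ g (pt i) = pt (vL ntl n l i)
  rw [hg, h4, wordPerm_eq_imgOf NT K hNT w MS hMS _ (hpt i i.2)]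
  exact h2

/-- the check for the action on blocks, for points `lo, …, lo + n - 1`, on a range -/
def blkChkM (MS : List ℕ) (lo n : ℕ) (bl tab : ℕ → ℕ) (a m : ℕ) : Prop :=
  ∀ i < m, lo ≤ imgOf MS (lo + (a + i)) ∧ imgOf MS (lo + (a + i)) < lo + n ∧
    bl (imgOf MS (lo + (a + i)) - lo) = tab (bl (a + i))

instance (MS : List ℕ) (lo n : ℕ) (bl tab : ℕ → ℕ) (a m : ℕ) :
    Decidable (blkChkM MS lo n bl tab a m) := by
  unfold blkChkM
  infer_instance

theorem blkChkM_append (MS : List ℕ) (lo n : ℕ) (bl tab : ℕ → ℕ) (a m m' : ℕ)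
    (h1 : blkChkM MS lo n bl tab a m) (h2 : blkChkM MS lo n bl tab (a + m) m') :
    blkChkM MS lo n bl tab a (m + m') := by
  intro i hi
  by_cases h : i < m
  · exact h1 i h
  · have := h2 (i - m) (by omega)
    have e : a + m + (i - m) = a + i := by omega
    rwa [e] at this

theorem add_inj (lo n : ℕ) : Function.Injective (fun i : Fin n => lo + (i : ℕ)) := by
  intro i j h
  apply Fin.ext
  simp only at h
  omega

theorem mem_blkGraph_of_masks (ψ : G →* Equiv.Perm ℕ)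
    (NT : ℕ → List (ℕ × ℕ)) (K : ℕ) (hNT : ∀ l, ∀ st ∈ NT l, stOK (2 ^ (2 ^ K)) st = true)
    (g : G) (w : List ℕ) (hg : ψ g = wordPerm NT w) (MS : List ℕ)
    (hMS : maskChk NT K w MS = true) (lo n m : ℕ) (hlo : lo + n ≤ 2 ^ K)
    (bl : ℕ → ℕ) (hbl : ∀ i < n, bl i < m) (tab : ℕ → ℕ)
    (σ : Equiv.Perm (Fin m)) (hσ : ∀ b : Fin m, (σ b : ℕ) = tab b)
    (h : blkChkM MS lo n bl tab 0 n) :
    (g, σ) ∈ blkGraph ψ (fun i : Fin n => lo + (i : ℕ))
      (fun i : Fin n => (⟨bl i, hbl i i.2⟩ : Fin m)) := by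
  apply mem_blkGraph_of_forward _ _ _ (add_inj lo n)
  intro i
  obtain ⟨h1, h2, h3⟩ := h i i.2
  rw [Nat.zero_add] at h1 h2 h3
  refine ⟨⟨imgOf MS (lo + i) - lo, by omega⟩, ?_, ?_⟩
  · show ψ g (lo + i) = lo + (imgOf MS (lo + i) - lo)
    rw [hg, wordPerm_eq_imgOf NT K hNT w MS hMS _ (by omega)]
    omega
  · apply Fin.ext
    rw [hσ]
    exact h3

theorem not_mem_blkGraph (ψ : G →* Equiv.Perm ℕ) {n m : ℕ} (pt : Fin n → ℕ)
    (blk : Fin n → Fin m) (hpt : Function.Injective pt) (g : G) (i1 i2 j1 j2 : Fin n)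
    (h1 : ψ g (pt i1) = pt j1) (h2 : ψ g (pt i2) = pt j2) (hb : blk i1 = blk i2)
    (hne : blk j1 ≠ blk j2) (σ : Equiv.Perm (Fin m)) : (g, σ) ∉ blkGraph ψ pt blk := by
  intro hm
  obtain ⟨k1, e1, b1⟩ := blkGraph_fwd ψ pt blk g σ hm i1
  obtain ⟨k2, e2, b2⟩ := blkGraph_fwd ψ pt blk g σ hm i2
  rw [h1] at e1
  rw [h2] at e2
  rw [← hpt e1] at b1
  rw [← hpt e2] at b2
  apply hne
  rw [b1, b2, hb]

/-- an element fixing a translate of a base is trivial -/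
theorem eq_one_of_fix (ψ : G →* Equiv.Perm ℕ) (bs : List ℕ) (hb : stabL ψ bs = ⊥) (t g : G)
    (h : ∀ b ∈ bs, ψ g (ψ t b) = ψ t b) : g = 1 := by
  have h1 : t⁻¹ * g * t ∈ stabL ψ bs := by
    rw [mem_stabL]
    intro b hbb
    rw [map_mul, map_mul, Equiv.Perm.mul_apply, Equiv.Perm.mul_apply, h b hbb, map_inv]
    simp
  rw [hb, Subgroup.mem_bot] at h1
  have h2 : g = t * (t⁻¹ * g * t) * t⁻¹ := by group
  rw [h2, h1]
  simp

/-- elements with prescribed image given by a word -/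
theorem exists_of_word (ψ : G →* Equiv.Perm ℕ) (NT : ℕ → List (ℕ × ℕ)) (L : ℕ)
    (hr : ∀ l < L, netPerm (NT l) ∈ ψ.range) (w : List ℕ) (hw : ∀ l ∈ w, l < L) :
    ∃ g : G, ψ g = wordPerm NT w := by
  induction w with
  | nil => exact ⟨1, by simp [wordPerm]⟩
  | cons a t ih =>
    obtain ⟨g, hg⟩ := ih (fun l hl => hw l (by simp [hl]))
    obtain ⟨x, hx⟩ := hr a (hw a (by simp))
    refine ⟨x * g, ?_⟩
    rw [map_mul, hx, hg]
    simp [wordPerm]

end Cfsg.Agent.Lib.Helper3
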