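import Cfsg.Agent.Lib.Helper3.Graph

/-!
# Isomorphism from a functional graph and equal orders
-/

set_option autoImplicit false

namespace Cfsg.Agent.Lib.Helper3

theorem iso_of_graph_fun_card {G P : Type*} [Group G] [Group P] (S : Subgroup (G × P))
    (hfun : ∀ σ, ((1 : G), σ) ∈ S → σ = 1)
    (v : ℕ → G) (q : ℕ → P) (gens : List ℕ) (hS : ∀ x ∈ gens, (v x, q x) ∈ S)
    (N : ℕ) (hN : N ≠ 0) (hq : Nat.card (lgrp q gens) = N) (hG : Nat.card G = N) :
    Nonempty (G ≃* lgrp q gens) := by
  have : Finite G := Nat.finite_of_card_ne_zero (by rw [hG]; exact hN)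
  obtain ⟨ρ, hρ, _⟩ := hom_of_graph S hfun v q gens hS
  have hge : N ≤ Nat.card (lgrp v gens) := by
    rw [← hq]
    exact Nat.card_le_card_of_surjective ρ hρ
  have hle : Nat.card (lgrp v gens) ≤ N := by
    rw [← hG]
    exact Subgroup.card_le_card_group _
  have hc : Nat.card (lgrp v gens) = N := le_antisymm hle hge
  have htop : lgrp v gens = ⊤ := Subgroup.eq_top_of_card_eq _ (by rw [hc, hG])
  have hbij : Function.Bijective ρ := by
    rw [Nat.bijective_iff_surjective_and_card]
    exact ⟨hρ, by rw [hc, hq]⟩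
  exact ⟨(Subgroup.topEquiv.symm.trans (MulEquiv.subgroupCongr htop.symm)).trans
    (MulEquiv.ofBijective ρ hbij)⟩

end Cfsg.Agent.Lib.Helper3
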