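import Mathlib
import Cfsg.Agent.Lib.Helper3.Sharp

set_option autoImplicit false

namespace Cfsg.Agent.Lib.Helper3

open Subgroup MulAction

section

variable {G X : Type*} [Group G] [MulAction G X]

/-- the embedding `Fin 4 ↪ X` of four distinct points -/
def emb4 (a b c d : X) (hab : a ≠ b) (hac : a ≠ c) (had : a ≠ d) (hbc : b ≠ c) (hbd : b ≠ d)
    (hcd : c ≠ d) : Fin 4 ↪ X :=
  ⟨![a, b, c, d], by
    intro i j h
    fin_cases i <;> fin_cases j <;> simp_all [Ne.symm]⟩

theorem exists_of_four [IsMultiplyPretransitive G X 4] {a b c d a' b' c' d' : X}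
    (hab : a ≠ b) (hac : a ≠ c) (had : a ≠ d) (hbc : b ≠ c) (hbd : b ≠ d) (hcd : c ≠ d)
    (hab' : a' ≠ b') (hac' : a' ≠ c') (had' : a' ≠ d') (hbc' : b' ≠ c') (hbd' : b' ≠ d')
    (hcd' : c' ≠ d') : ∃ g : G, g • a = a' ∧ g • b = b' ∧ g • c = c' ∧ g • d = d' := by
  obtain ⟨g, hg⟩ := exists_smul_eq G (emb4 a b c d hab hac had hbc hbd hcd)
    (emb4 a' b' c' d' hab' hac' had' hbc' hbd' hcd')
  refine ⟨g, ?_, ?_, ?_, ?_⟩
  · exact DFunLike.congr_fun hg 0
  · exact DFunLike.congr_fun hg 1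
  · exact DFunLike.congr_fun hg 2
  · exact DFunLike.congr_fun hg 3

theorem eq_one_of_four (hsharp : ∀ x : Fin 4 ↪ X, stabilizer G x = ⊥) {a b c d : X}
    (hab : a ≠ b) (hac : a ≠ c) (had : a ≠ d) (hbc : b ≠ c) (hbd : b ≠ d) (hcd : c ≠ d) {g : G}
    (ha : g • a = a) (hb : g • b = b) (hc : g • c = c) (hd : g • d = d) : g = 1 := by
  have : g ∈ stabilizer G (emb4 a b c d hab hac had hbc hbd hcd) := by
    rw [mem_stabilizer_iff]
    ext i
    fin_cases i
    · exact ha
    · exact hb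
    · exact hc
    · exact hd
  rw [hsharp, mem_bot] at this
  exact this

theorem eq_of_four (hsharp : ∀ x : Fin 4 ↪ X, stabilizer G x = ⊥) {a b c d : X}
    (hab : a ≠ b) (hac : a ≠ c) (had : a ≠ d) (hbc : b ≠ c) (hbd : b ≠ d) (hcd : c ≠ d) {g h : G}
    (ha : g • a = h • a) (hb : g • b = h • b) (hc : g • c = h • c) (hd : g • d = h • d) : g = h := by
  have : h⁻¹ * g = 1 := by
    apply eq_one_of_four hsharp hab hac had hbc hbd hcd
    · rw [mul_smul, ha, inv_smul_smul]
    · rw [mul_smul, hb, inv_smul_smul]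
    · rw [mul_smul, hc, inv_smul_smul]
    · rw [mul_smul, hd, inv_smul_smul]
  rw [inv_mul_eq_one] at this
  exact this.symm

end

theorem card_eq_of_regular {C Y : Type*} (P : Finset Y) (φ : C → Y) (h1 : ∀ g, φ g ∈ P)
    (h2 : Function.Injective φ) (h3 : ∀ y ∈ P, ∃ g, φ g = y) : Nat.card C = P.card := by
  have e : C ≃ P := Equiv.ofBijective (fun g => ⟨φ g, h1 g⟩) ⟨fun a b h => h2 (congrArg Subtype.val h),
    fun y => by
      obtain ⟨g, hg⟩ := h3 y.1 y.2
      exact ⟨g, Subtype.ext hg⟩⟩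
  rw [Nat.card_congr e, Nat.card_eq_fintype_card, Fintype.card_coe]

theorem jordan4_aux {G X : Type*} [Group G] [MulAction G X] [Fintype X] [DecidableEq X]
    [IsMultiplyPretransitive G X 4] (hsharp : ∀ x : Fin 4 ↪ X, stabilizer G x = ⊥)
    (h7 : 7 ≤ Fintype.card X) : Fintype.card X = 11 := by
  -- four distinct points
  obtain ⟨e0⟩ : Nonempty (Fin 4 ↪ X) := by
    rw [Function.Embedding.nonempty_iff_card_le]
    simp only [Fintype.card_fin]
    omega
  obtain ⟨p, q, c0, d0, hpq, hpc, hpd, hqc, hqd, hcd⟩ : ∃ p q c0 d0 : X, p ≠ q ∧ p ≠ c0 ∧ p ≠ d0 ∧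
      q ≠ c0 ∧ q ≠ d0 ∧ c0 ≠ d0 :=
    ⟨e0 0, e0 1, e0 2, e0 3, by simp, by simp, by simp, by simp, by simp, by simp⟩
  obtain ⟨x, hxp, hxq, hxc, hxd⟩ := exists_of_four (G := G) hpq hpc hpd hqc hqd hcd
    hpq hpd hpc hqd hqc hcd.symm
  have hxx : x * x = 1 := by
    apply eq_one_of_four hsharp hpq hpc hpd hqc hqd hcd
    · rw [mul_smul, hxp, hxp]
    · rw [mul_smul, hxq, hxq]
    · rw [mul_smul, hxc, hxd]
    · rw [mul_smul, hxd, hxc]
  have hxx' : ∀ y : X, x • x • y = y := fun y => by rw [← mul_smul, hxx, one_smul]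
  have hx1 : x ≠ 1 := by
    rintro rfl
    rw [one_smul] at hxc
    exact hcd hxc
  obtain ⟨F, hF⟩ : ∃ F : Finset X, F = Finset.univ.filter (fun y => x • y = y) := ⟨_, rfl⟩
  obtain ⟨M, hM⟩ : ∃ M : Finset X, M = Finset.univ.filter (fun y => x • y ≠ y) := ⟨_, rfl⟩
  have memF : ∀ y, y ∈ F ↔ x • y = y := fun y => by rw [hF]; simp
  have memM : ∀ y, y ∈ M ↔ x • y ≠ y := fun y => by rw [hM]; simp
  have hFM : F.card + M.card = Fintype.card X := by
    rw [hF, hM]
    exact Finset.card_filter_add_card_filter_not (s := Finset.univ) (fun y => x • y = y)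
  have hMx : ∀ y ∈ M, x • y ∈ M := by
    intro y hy
    rw [memM] at hy ⊢
    rw [hxx']
    exact hy.symm
  have hf2 : 2 ≤ F.card := by
    have : ({p, q} : Finset X) ⊆ F := by
      intro y hy
      simp only [Finset.mem_insert, Finset.mem_singleton] at hy
      rcases hy with rfl | rfl
      · exact (memF _).2 hxp
      · exact (memF _).2 hxq
    calc 2 = ({p, q} : Finset X).card := (Finset.card_pair hpq).symm
      _ ≤ F.card := Finset.card_le_card this
  have hf3 : F.card ≤ 3 := by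
    by_contra hcon
    push Not at hcon
    have h1 : 1 < (F \ {p, q}).card := by
      have := Finset.le_card_sdiff ({p, q} : Finset X) F
      rw [Finset.card_pair hpq] at this
      omega
    obtain ⟨r, hr, s, hs, hrs⟩ := Finset.one_lt_card.1 h1
    simp only [Finset.mem_sdiff, Finset.mem_insert, Finset.mem_singleton, not_or] at hr hs
    exact hx1 (eq_one_of_four hsharp hpq (Ne.symm hr.2.1) (Ne.symm hs.2.1) (Ne.symm hr.2.2)
      (Ne.symm hs.2.2) hrs hxp hxq ((memF _).1 hr.1) ((memF _).1 hs.1))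
  have hm4 : 4 ≤ M.card := by omega
  have hc0M : c0 ∈ M := by rw [memM, hxc]; exact hcd.symm
  have hd0M : d0 ∈ M := by rw [memM, hxd]; exact hcd
  obtain ⟨c1, hc1⟩ : (M \ {c0, d0}).Nonempty := by
    rw [← Finset.card_pos]
    have := Finset.le_card_sdiff ({c0, d0} : Finset X) M
    rw [Finset.card_pair hcd] at this
    omega
  simp only [Finset.mem_sdiff, Finset.mem_insert, Finset.mem_singleton, not_or] at hc1
  obtain ⟨hc1M, hc1c, hc1d⟩ := hc1
  obtain ⟨d1, hd1⟩ : ∃ d1, d1 = x • c1 := ⟨_, rfl⟩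
  have hxd1 : x • d1 = c1 := by rw [hd1, hxx']
  have hc1d1 : c1 ≠ d1 := by rw [hd1]; exact ((memM _).1 hc1M).symm
  have hd1c : d1 ≠ c0 := by
    intro h
    apply hc1d
    rw [← hxd1, h, hxc]
  have hd1d : d1 ≠ d0 := by
    intro h
    apply hc1c
    rw [← hxd1, h, hxd]
  -- the centraliser
  obtain ⟨C, hC⟩ : ∃ C : Subgroup G, C = centralizer {x} := ⟨_, rfl⟩
  have memC : ∀ g : G, g ∈ C ↔ g * x = x * g := fun g => by
    rw [hC, mem_centralizer_singleton_iff]
  have hCx : ∀ g : C, ∀ y : X, (g : G) • x • y = x • (g : G) • y := by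
    intro g y
    rw [← mul_smul, (memC _).1 g.2, mul_smul]
  have hCM : ∀ g : C, ∀ y ∈ M, (g : G) • y ∈ M := by
    intro g y hy
    rw [memM] at hy ⊢
    rw [← hCx]
    exact fun h => hy (MulAction.injective _ h)
  have hCF : ∀ g : C, ∀ y ∈ F, (g : G) • y ∈ F := by
    intro g y hy
    rw [memF] at hy ⊢
    rw [← hCx, hy]
  -- first count
  obtain ⟨P1, hP1⟩ : ∃ P1 : Finset (X × X), P1 = M.offDiag \ M.image (fun a => (a, x • a)) :=
    ⟨_, rfl⟩
  have memP1 : ∀ a c : X, (a, c) ∈ P1 ↔ a ∈ M ∧ c ∈ M ∧ a ≠ c ∧ c ≠ x • a := by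
    intro a c
    rw [hP1]
    simp only [Finset.mem_sdiff, Finset.mem_offDiag, Finset.mem_image, Prod.mk.injEq, not_exists,
      not_and]
    constructor
    · rintro ⟨⟨h1, h2, h3⟩, h4⟩
      exact ⟨h1, h2, h3, fun h => h4 a h1 rfl h.symm⟩
    · rintro ⟨h1, h2, h3, h4⟩
      refine ⟨⟨h1, h2, h3⟩, ?_⟩
      rintro a' _ rfl h
      exact h4 h.symm
  have cardP1 : P1.card = M.card * M.card - M.card - M.card := by
    rw [hP1, Finset.card_sdiff_of_subset, Finset.offDiag_card, Finset.card_image_of_injective]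
    · intro a b h
      exact (Prod.mk.inj h).1
    · intro y hy
      simp only [Finset.mem_image] at hy
      obtain ⟨a, ha, rfl⟩ := hy
      rw [Finset.mem_offDiag]
      exact ⟨ha, hMx a ha, ((memM a).1 ha).symm⟩
  have count1 : Nat.card C = P1.card := by
    apply card_eq_of_regular P1 (fun g : C => ((g : G) • c0, (g : G) • c1))
    · intro g
      rw [memP1]
      refine ⟨hCM g _ hc0M, hCM g _ hc1M, fun h => hc1c (MulAction.injective _ h).symm, ?_⟩
      rw [← hCx, hxc]
      exact fun h => hc1d (MulAction.injective _ h)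
    · intro g h hgh
      have h1 := (Prod.mk.inj hgh).1
      have h2 := (Prod.mk.inj hgh).2
      apply Subtype.ext
      apply eq_of_four hsharp hcd (Ne.symm hc1c) (Ne.symm hd1c) (Ne.symm hc1d) (Ne.symm hd1d) hc1d1
        h1 _ h2 _
      · rw [← hxc, hCx, hCx, h1]
      · rw [hd1, hCx, hCx, h2]
    · rintro ⟨a, c⟩ hac
      rw [memP1] at hac
      obtain ⟨haM, hcM, hac, hcxa⟩ := hac
      have h1 : a ≠ x • a := ((memM a).1 haM).symm
      have h2 : c ≠ x • c := ((memM c).1 hcM).symm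
      have h3 : a ≠ x • c := by
        intro h
        apply hcxa
        rw [h, hxx']
      have h4 : x • a ≠ x • c := fun h => hac (MulAction.injective _ h)
      obtain ⟨g, hg1, hg2, hg3, hg4⟩ := exists_of_four (G := G) hcd (Ne.symm hc1c) (Ne.symm hd1c)
        (Ne.symm hc1d) (Ne.symm hd1d) hc1d1 h1 hac h3 (Ne.symm hcxa) h4 h2
      have hgC : g ∈ C := by
        rw [memC]
        apply eq_of_four hsharp hcd (Ne.symm hc1c) (Ne.symm hd1c) (Ne.symm hc1d) (Ne.symm hd1d)
          hc1d1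
        · rw [mul_smul, mul_smul, hxc, hg2, hg1]
        · rw [mul_smul, mul_smul, hxd, hg2, hg1, hxx']
        · rw [mul_smul, mul_smul, ← hd1, hg3, hg4]
        · rw [mul_smul, mul_smul, hxd1, hg3, hg4, hxx']
      exact ⟨⟨g, hgC⟩, by simp only [hg1, hg3]⟩
  -- second count
  have count2 : Nat.card C = (F.offDiag ×ˢ M).card := by
    apply card_eq_of_regular _ (fun g : C => (((g : G) • p, (g : G) • q), (g : G) • c0))
    · intro g
      rw [Finset.mem_product, Finset.mem_offDiag]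
      exact ⟨⟨hCF g _ ((memF _).2 hxp), hCF g _ ((memF _).2 hxq),
        fun h => hpq (MulAction.injective _ h)⟩, hCM g _ hc0M⟩
    · intro g h hgh
      have h0 := (Prod.mk.inj hgh).1
      have h1 := (Prod.mk.inj h0).1
      have h2 := (Prod.mk.inj h0).2
      have h3 := (Prod.mk.inj hgh).2
      apply Subtype.ext
      apply eq_of_four hsharp hpq hpc hpd hqc hqd hcd h1 h2 h3
      rw [← hxc, hCx, hCx, h3]
    · rintro ⟨⟨p', q'⟩, c'⟩ hy
      rw [Finset.mem_product, Finset.mem_offDiag] at hy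
      obtain ⟨⟨hp', hq', hpq'⟩, hc'⟩ := hy
      simp only at hp' hq' hpq' hc'
      have hp'x := (memF _).1 hp'
      have hq'x := (memF _).1 hq'
      have hc'x := (memM _).1 hc'
      have hxc'M := (memM _).1 (hMx _ hc')
      have h1 : p' ≠ c' := by rintro rfl; exact hc'x hp'x
      have h2 : q' ≠ c' := by rintro rfl; exact hc'x hq'x
      have h3 : p' ≠ x • c' := by intro h; rw [← h] at hxc'M; exact hxc'M hp'x
      have h4 : q' ≠ x • c' := by intro h; rw [← h] at hxc'M; exact hxc'M hq'x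
      obtain ⟨g, hg1, hg2, hg3, hg4⟩ := exists_of_four (G := G) hpq hpc hpd hqc hqd hcd
        hpq' h1 h3 h2 h4 (Ne.symm hc'x)
      have hgC : g ∈ C := by
        rw [memC]
        apply eq_of_four hsharp hpq hpc hpd hqc hqd hcd
        · rw [mul_smul, mul_smul, hxp, hg1, hp'x]
        · rw [mul_smul, mul_smul, hxq, hg2, hq'x]
        · rw [mul_smul, mul_smul, hxc, hg3, hg4]
        · rw [mul_smul, mul_smul, hxd, hg3, hg4, hxx']
      exact ⟨⟨g, hgC⟩, by simp only [hg1, hg2, hg3]⟩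
  rw [count1, cardP1, Finset.card_product, Finset.offDiag_card] at count2
  obtain ⟨m, hm⟩ : ∃ m, m = M.card := ⟨_, rfl⟩
  obtain ⟨f, hf⟩ : ∃ f, f = F.card := ⟨_, rfl⟩
  rw [← hm, ← hf] at count2 hFM
  rw [← hm] at hm4
  rw [← hf] at hf2 hf3
  have hmm : 4 * m ≤ m * m := Nat.mul_le_mul_right m hm4
  interval_cases f
  · -- f = 2
    exfalso
    have h5 : m * m = 4 * m := by
      simp only [Nat.reduceMul, Nat.reduceSub] at count2
      omega
    have h6 : m = 4 := Nat.eq_of_mul_eq_mul_right (by omega) h5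
    omega
  · have h5 : m * m = 8 * m := by
      simp only [Nat.reduceMul, Nat.reduceSub] at count2
      omega
    have h6 : m = 8 := Nat.eq_of_mul_eq_mul_right (by omega) h5
    omega

theorem jordan4 {G X : Type*} [Group G] [MulAction G X] [Finite X]
    [IsMultiplyPretransitive G X 4] (hsharp : ∀ x : Fin 4 ↪ X, stabilizer G x = ⊥)
    (h4 : 4 ≤ Nat.card X) :
    Nat.card X = 4 ∨ Nat.card X = 5 ∨ Nat.card X = 6 ∨ Nat.card X = 11 := by
  classical
  have : Fintype X := Fintype.ofFinite X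
  rw [Nat.card_eq_fintype_card] at h4 ⊢
  by_cases h7 : 7 ≤ Fintype.card X
  · right; right; right
    exact jordan4_aux hsharp h7
  · omega

theorem pretransitive_of_multiply {G X : Type*} [Group G] [MulAction G X] [Finite X] (k : ℕ)
    [IsMultiplyPretransitive G X k] (hk1 : 1 ≤ k) (hk : k ≤ Nat.card X) : IsPretransitive G X := by
  rw [← is_one_pretransitive_iff]
  exact isMultiplyPretransitive_of_le (n := k) hk1 (by exact_mod_cast hk)

universe u v

/-- descent to a point stabiliser -/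
theorem sharp_descent {G : Type u} {X : Type v} [Group G] [MulAction G X] [Finite X] (k : ℕ)
    [h : IsMultiplyPretransitive G X (k + 1)] (hsharp : ∀ x : Fin (k + 1) ↪ X, stabilizer G x = ⊥)
    (hk : k + 1 ≤ Nat.card X) (P : ℕ → Prop)
    (hP : ∀ (H : Type u) (Y : Type v) [Group H] [MulAction H Y] [Finite Y] [IsMultiplyPretransitive H Y k],
      (∀ y : Fin k ↪ Y, stabilizer H y = ⊥) → k ≤ Nat.card Y → P (Nat.card Y)) :
    P (Nat.card X - 1) := by
  have htr : IsPretransitive G X := pretransitive_of_multiply (k + 1) (by omega) hk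
  have hne : Nonempty X := by
    by_contra hcon
    rw [not_nonempty_iff] at hcon
    rw [Nat.card_of_isEmpty] at hk
    omega
  obtain ⟨a⟩ := hne
  have h4 : IsMultiplyPretransitive (stabilizer G a) (SubMulAction.ofStabilizer G a) k :=
    SubMulAction.ofStabilizer.isMultiplyPretransitive.mp h
  have := hP (stabilizer G a) (SubMulAction.ofStabilizer G a) (sharp_ofStabilizer k hsharp a)
    (by rw [SubMulAction.nat_card_ofStabilizer_eq]; omega)
  rwa [SubMulAction.nat_card_ofStabilizer_eq] at this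

theorem jordan5 {G X : Type*} [Group G] [MulAction G X] [Finite X]
    [IsMultiplyPretransitive G X 5] (hsharp : ∀ x : Fin 5 ↪ X, stabilizer G x = ⊥)
    (h5 : 5 ≤ Nat.card X) :
    Nat.card X = 5 ∨ Nat.card X = 6 ∨ Nat.card X = 7 ∨ Nat.card X = 12 := by
  have := sharp_descent 4 hsharp h5 (fun n => n = 4 ∨ n = 5 ∨ n = 6 ∨ n = 11)
    (fun H Y _ _ _ _ hs h => jordan4 hs h)
  omega

theorem jordan6 {G X : Type*} [Group G] [MulAction G X] [Finite X]
    [IsMultiplyPretransitive G X 6] (hsharp : ∀ x : Fin 6 ↪ X, stabilizer G x = ⊥)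
    (h6 : 6 ≤ Nat.card X) :
    Nat.card X = 6 ∨ Nat.card X = 7 ∨ Nat.card X = 8 := by
  have := sharp_descent 5 hsharp h6 (fun n => n = 5 ∨ n = 6 ∨ n = 7 ∨ n = 12)
    (fun H Y _ _ _ _ hs h => jordan5 hs h)
  have h13 : Nat.card X ≠ 13 := by
    intro hX
    have hcard : Nat.card G = 13 * 95040 := by
      rw [card_of_sharp 6 hsharp (by rw [hX]; norm_num), hX]
      decide
    have hGfin : Finite G := Nat.finite_of_card_ne_zero (by rw [hcard]; norm_num)
    have hfaith : FaithfulSMul G X := faithful_of_sharp 6 hsharp (by rw [hX]; norm_num)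
    have hp : Nat.Prime 13 := by norm_num
    have : Fact (Nat.Prime 13) := ⟨hp⟩
    obtain ⟨z, hz⟩ := exists_prime_orderOf_dvd_card' (G := G) 13 (by rw [hcard]; norm_num)
    obtain ⟨r, hr, hc, n, hn, hmod⟩ := card_normalizer_of_sylow (t := 95040) hp hX hcard
      (by norm_num) (zpowers z) (by rw [Nat.card_zpowers, hz])
    have hr10 : r ∈ Nat.divisors 12 := by
      rw [Nat.mem_divisors]; exact ⟨hr, by norm_num⟩
    have hdiv : Nat.divisors 12 = {1, 2, 3, 4, 6, 12} := by decide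
    rw [hdiv] at hr10
    simp only [Finset.mem_insert, Finset.mem_singleton] at hr10
    rcases hr10 with rfl | rfl | rfl | rfl | rfl | rfl <;> omega
  omega

theorem jordan_ge6 (k : ℕ) (hk : 6 ≤ k) : ∀ (G : Type u) (X : Type v) [Group G] [MulAction G X] [Finite X]
    [IsMultiplyPretransitive G X k], (∀ x : Fin k ↪ X, stabilizer G x = ⊥) → k ≤ Nat.card X →
    (Nat.card X = k ∨ Nat.card X = k + 1 ∨ Nat.card X = k + 2) := by
  induction k, hk using Nat.le_induction with
  | base =>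
    intro G X _ _ _ _ hs h
    exact jordan6 hs h
  | succ k hk ih =>
    intro G X _ _ _ _ hs h
    have := sharp_descent k hs h (fun n => n = k ∨ n = k + 1 ∨ n = k + 2)
      (fun H Y _ _ _ _ hs h => ih H Y hs h)
    omega

end Cfsg.Agent.Lib.Helper3
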