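import Cfsg.Agent.Lib.Helper3.Graph5
import Cfsg.Agent.S1699

/-!
# Bases of the O'Nan group on 122760 points
-/

set_option autoImplicit false
set_option maxRecDepth 100000

namespace Cfsg.Agent.Lib.Helper3

open Cfsg.Agent.Lib.Helper11

section

variable {G : Type*} [Group G] (ψ : G →* Equiv.Perm ℕ)

theorem card_stabL_step' [Finite G] (bs : List ℕ) (b m : ℕ) (pts : Fin m → ℕ)
    (hinj : Function.Injective pts) (hreach : ∀ i, ∃ g ∈ stabL ψ bs, ψ g b = pts i) :
    m * Nat.card (stabL ψ (b :: bs)) ≤ Nat.card (stabL ψ bs) := by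
  have hle : stabL ψ (b :: bs) ≤ stabL ψ bs := by
    intro g hg c hc
    exact hg c (by simp [hc])
  rw [card_eq_relIndex_mul hle]
  apply Nat.mul_le_mul_right
  choose g hg hgb using hreach
  let F : Fin m → (stabL ψ bs) ⧸ ((stabL ψ (b :: bs)).subgroupOf (stabL ψ bs)) :=
    fun i => ((⟨g i, hg i⟩ : stabL ψ bs) : (stabL ψ bs) ⧸ _)
  have hF : Function.Injective F := by
    intro i j hij
    have h1 := QuotientGroup.eq.1 hij
    rw [Subgroup.mem_subgroupOf] at h1
    have h2 : ψ ((g i)⁻¹ * g j) b = b := h1 b (by simp)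
    rw [map_mul, Equiv.Perm.mul_apply, hgb j, map_inv, Equiv.Perm.inv_eq_iff_eq, hgb i] at h2
    exact hinj h2.symm
  have := Nat.card_le_card_of_injective F hF
  simpa [Subgroup.relIndex, Subgroup.index] using this

theorem chainChk_take (NT : ℕ → List (ℕ × ℕ)) (Lmax : ℕ) :
    ∀ (lv : List (List ℕ × ℕ × ℕ × ℕ × ℕ)) (bs : List ℕ) (k : ℕ),
      chainChk NT Lmax lv bs = true → chainChk NT Lmax (lv.take k) bs = true := by
  intro lv
  induction lv with
  | nil => intro bs k h; simpa using h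
  | cons x rest ih =>
    intro bs k h
    cases k with
    | zero => simp [chainChk]
    | succ k =>
      simp only [chainChk, Bool.and_eq_true, List.take_succ_cons] at h ⊢
      exact ⟨h.1, h.2.1, h.2.2.1, ih _ _ h.2.2.2⟩

/-- elements of a subgroup with prescribed image given by a word -/
theorem exists_of_word_mem (A : Subgroup G) (NT : ℕ → List (ℕ × ℕ)) (Ls : List ℕ)
    (hr : ∀ l ∈ Ls, ∃ g ∈ A, ψ g = netPerm (NT l)) (w : List ℕ) (hw : ∀ l ∈ w, l ∈ Ls) :
    ∃ g ∈ A, ψ g = wordPerm NT w := by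
  induction w with
  | nil => exact ⟨1, A.one_mem, by simp [wordPerm]⟩
  | cons a t ih =>
    obtain ⟨g, hgA, hg⟩ := ih (fun l hl => hw l (by simp [hl]))
    obtain ⟨x, hxA, hx⟩ := hr a (hw a (by simp))
    refine ⟨x * g, A.mul_mem hxA hgA, ?_⟩
    rw [map_mul, hx, hg]
    simp [wordPerm]

end

namespace ONB

open Cfsg.Agent.Lib.Helper11.ONo

set_option maxHeartbeats 0

theorem finON : Finite Cfsg.Spor.ON :=
  Nat.finite_of_card_ne_zero (by rw [Cfsg.Agent.S1699.result.2]; norm_num)

theorem hok2 : ∀ l, ∀ st ∈ ntOf ntl2 l, stOK (2 ^ (2 ^ 17)) st = true := ntOf_ok ntl2 _ nets2OK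

theorem card_stab10 : Nat.card (stabL psi [1, 0]) ≤ 64 := by
  have := finON
  have h := chain_card psi _ (ntOf ntl2) hok2 12 hrange (levels.take 2) []
    (chainChk_take _ _ _ _ 2 chainOK)
  rw [stabL_nil, Subgroup.card_top, Cfsg.Agent.S1699.result.2] at h
  have e1 : pushB (levels.take 2) [] = [1, 0] := by decide
  have e2 : ((levels.take 2).map fun x => x.2.2.2.2).prod = 122760 * 58653 := by decide
  rw [e1, e2] at h
  omega

theorem fix01 : ∀ l ∈ [9, 10, 11], mapChk (ntOf ntl2) [l] 0 0 = true ∧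
    mapChk (ntOf ntl2) [l] 1 1 = true := by decide +kernel

theorem mac_mem : ∀ l ∈ [9, 10, 11], ∃ g ∈ stabL psi [1, 0], psi g = netPerm (ntOf ntl2 l) := by
  intro l hl
  have hl12 : l < 12 := by
    simp only [List.mem_cons, List.mem_nil_iff, or_false] at hl
    omega
  obtain ⟨g, hg⟩ := hrange l hl12
  refine ⟨g, ?_, hg⟩
  obtain ⟨f0, f1⟩ := fix01 l hl
  have g0 := mapChk_spec _ _ hok2 _ _ _ f0
  have g1 := mapChk_spec _ _ hok2 _ _ _ f1
  rw [wordPerm_single] at g0 g1
  rw [mem_stabL]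
  intro b hb
  simp only [List.mem_cons, List.mem_nil_iff, or_false] at hb
  rcases hb with rfl | rfl
  · rw [hg, g1]
  · rw [hg, g0]

/-- the check for a third base point -/
def baseChk (z : ℕ) (WS : List (List ℕ)) (PS : List ℕ) : Prop :=
  PS.Nodup ∧ PS.length = 64 ∧ (∀ w ∈ WS, ∀ l ∈ w, l ∈ [9, 10, 11]) ∧
    ∀ i < 64, mapChk (ntOf ntl2) (WS.getD i []) z (PS.getD i 0) = true

noncomputable instance (z : ℕ) (WS : List (List ℕ)) (PS : List ℕ) : Decidable (baseChk z WS PS) := by
  unfold baseChk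
  infer_instance

theorem stab_bot (z : ℕ) (WS : List (List ℕ)) (PS : List ℕ) (h : baseChk z WS PS) :
    stabL psi [z, 1, 0] = ⊥ := by
  have := finON
  obtain ⟨hnd, hlen, hlet, hmap⟩ := h
  have hstep := card_stabL_step' psi [1, 0] z 64 (fun i => PS.getD i 0) (by
      intro i j hij
      simp only at hij
      rw [List.getD_eq_getElem _ _ (by rw [hlen]; exact i.2),
        List.getD_eq_getElem _ _ (by rw [hlen]; exact j.2)] at hij
      exact Fin.ext ((List.Nodup.getElem_inj_iff hnd).1 hij)) (by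
      intro i
      have hw : ∀ l ∈ WS.getD i [], l ∈ [9, 10, 11] := by
        by_cases hi : (i : ℕ) < WS.length
        · rw [List.getD_eq_getElem _ _ hi]
          exact hlet _ (List.getElem_mem hi)
        · rw [List.getD_eq_default _ _ (by omega)]
          simp
      obtain ⟨g, hgA, hg⟩ := exists_of_word_mem psi (stabL psi [1, 0]) (ntOf ntl2) [9, 10, 11]
        mac_mem _ hw
      refine ⟨g, hgA, ?_⟩
      rw [hg]
      exact mapChk_spec _ _ hok2 _ _ _ (hmap i i.2))
  have h2 := card_stab10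
  have h3 : Nat.card (stabL psi [z, 1, 0]) ≤ 1 := by omega
  exact Subgroup.eq_bot_of_card_le _ h3

end ONB

end Cfsg.Agent.Lib.Helper3
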