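import Mathlib

/-!
# The permutation representation of a simple group on the cosets of a subgroup
-/

set_option autoImplicit false

namespace Cfsg.Agent.Lib.Helper3

open MulAction

theorem exists_perm_rep {G : Type*} [Group G] (hs : IsSimpleGroup G) (H0 : Subgroup G) (n : ℕ)
    [NeZero n] (hidx : H0.index = n) (hn : 1 < n) :
    ∃ (H : Subgroup (Equiv.Perm (Fin n))) (e : G ≃* H), IsPretransitive H (Fin n) ∧
      ∀ g : G, e g ∈ stabilizer H (0 : Fin n) ↔ g ∈ H0 := by
  have hcard : Nat.card (G ⧸ H0) = n := hidx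
  have hfin : Finite (G ⧸ H0) := Nat.finite_of_card_ne_zero (by rw [hcard]; omega)
  let ε0 : (G ⧸ H0) ≃ Fin n := Finite.equivFinOfCardEq hcard
  let ε : (G ⧸ H0) ≃ Fin n := ε0.trans (Equiv.swap (ε0 (QuotientGroup.mk 1)) 0)
  have hε : ε (QuotientGroup.mk 1) = 0 := by
    show Equiv.swap (ε0 (QuotientGroup.mk 1)) 0 (ε0 (QuotientGroup.mk 1)) = 0
    rw [Equiv.swap_apply_left]
  let φ : G →* Equiv.Perm (Fin n) := (ε.permCongrHom.toMonoidHom).comp (toPermHom G (G ⧸ H0))
  have hφ : ∀ g x, φ g x = ε (g • ε.symm x) := fun g x => rfl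
  have hinj : Function.Injective φ := by
    rw [← MonoidHom.ker_eq_bot_iff]
    rcases hs.eq_bot_or_eq_top_of_normal φ.ker inferInstance with h | h
    · exact h
    · exfalso
      have h1 : H0 = ⊤ := by
        rw [eq_top_iff]
        intro g _
        have h2 : g ∈ φ.ker := by rw [h]; trivial
        have h3 : φ g 0 = 0 := by rw [MonoidHom.mem_ker.1 h2]; rfl
        rw [hφ, ← hε, Equiv.symm_apply_apply, EmbeddingLike.apply_eq_iff_eq] at h3
        have h4 : (QuotientGroup.mk (g * 1) : G ⧸ H0) = QuotientGroup.mk 1 := h3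
        rw [mul_one, QuotientGroup.eq] at h4
        simpa using h4
      rw [h1, Subgroup.index_top] at hidx
      omega
  refine ⟨φ.range, MonoidHom.ofInjective hinj, ⟨?_⟩, ?_⟩
  · intro x y
    obtain ⟨g, hg⟩ := MulAction.exists_smul_eq G (ε.symm x) (ε.symm y)
    refine ⟨⟨φ g, g, rfl⟩, ?_⟩
    show φ g x = y
    rw [hφ, hg, Equiv.apply_symm_apply]
  · intro g
    rw [mem_stabilizer_iff]
    have h0 : (MonoidHom.ofInjective hinj g) • (0 : Fin n) = φ g 0 := rfl
    rw [h0, hφ, ← hε, Equiv.symm_apply_apply, EmbeddingLike.apply_eq_iff_eq]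
    have h4 : g • (QuotientGroup.mk 1 : G ⧸ H0) = QuotientGroup.mk (g * 1) := rfl
    rw [h4, mul_one, QuotientGroup.eq]
    simp

/-- the stabiliser in the permutation representation -/
theorem stabilizer_equiv {G : Type*} [Group G] (H0 : Subgroup G) {n : ℕ} [NeZero n]
    (H : Subgroup (Equiv.Perm (Fin n))) (e : G ≃* H)
    (h : ∀ g : G, e g ∈ stabilizer H (0 : Fin n) ↔ g ∈ H0) :
    Nonempty (H0 ≃* stabilizer H (0 : Fin n)) := by
  have h1 : H0.map e.toMonoidHom = stabilizer H (0 : Fin n) := by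
    ext x
    constructor
    · rintro ⟨g, hg, rfl⟩
      exact (h g).2 hg
    · intro hx
      refine ⟨e.symm x, (h _).1 (by simpa using hx), by simp⟩
  exact ⟨(e.subgroupMap H0).trans (MulEquiv.subgroupCongr h1)⟩

/-- transport of a subgroup of given index and isomorphism type -/
theorem transport_subgroup {A B X : Type*} [Group A] [Group B] [Group X] (E : A ≃* B) (k : ℕ)
    (h : ∃ K : Subgroup A, K.index = k ∧ Nonempty (K ≃* X)) :
    ∃ K : Subgroup B, K.index = k ∧ Nonempty (K ≃* X) := by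
  obtain ⟨K, hk, ⟨f⟩⟩ := h
  refine ⟨K.map E.toMonoidHom, ?_, ⟨(E.subgroupMap K).symm.trans f⟩⟩
  rw [← hk]
  exact Subgroup.index_map_of_bijective E.bijective K

end Cfsg.Agent.Lib.Helper3
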