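import Mathlib
import Cfsg.Agent.Lib.Helper3.Stcs4

/-!
# Double transitivity of generated permutation groups, and actions on cosets
-/

set_option autoImplicit false

namespace Cfsg.Agent.Lib.Helper3

open Cfsg.Agent.Lib.Helper11 MulAction

theorem NetSetup.two_trans {ntl : List (List (ℕ × ℕ))} {n k INV nc : ℕ}
    (S : NetSetup ntl n k INV nc) (gens kgens okl : List ℕ) (hn : 1 < n)
    (hpre : IsPretransitive (lgrp (vL ntl n) gens) (Fin n))
    (hokl : ∀ x ∈ okl, vL ntl n x ∈ lgrp (vL ntl n) gens)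
    (hk : kgens.all (fun l => decide (l ∈ okl)) = true)
    (hkfix : fixPt ntl kgens 0 = true) (r m : ℕ) (hm : 1 + m = n)
    (hgrow : growChk (ntOf ntl) (kgens.map fun x => [x]) r 1 1 m = true) :
    IsMultiplyPretransitive (lgrp (vL ntl n) gens) (Fin n) 2 := by
  simp only [List.all_eq_true, decide_eq_true_eq] at hk
  have h0n : 0 < n := by omega
  have hKle : lgrp (vL ntl n) kgens ≤ lgrp (vL ntl n) gens :=
    lgrp_le _ (fun x hx => hokl x (hk x hx))
  have hfix := S.fix_of_fixPt kgens 0 h0n hkfix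
  have hreach : ∀ p : Fin n, p ≠ ⟨0, h0n⟩ → ∃ g ∈ lgrp (vL ntl n) kgens, g ⟨1, hn⟩ = p := by
    intro p hp
    have hp1 : 1 ≤ p.val := by
      rcases Nat.eq_zero_or_pos p.val with h | h
      · exact absurd (Fin.ext h) hp
      · exact h
    obtain ⟨g, hg, e⟩ := reach_fin _ S.hok S.hst _ 1 r 1 m hn hgrow p p.2 hp1 (by omega)
    exact ⟨g, wgrp_singletons_le ntl n kgens hg, e⟩
  rw [is_two_pretransitive_iff]
  intro a b c d hab hcd
  obtain ⟨g1, h1⟩ := hpre.exists_smul_eq a ⟨0, h0n⟩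
  obtain ⟨g2, h2⟩ := hpre.exists_smul_eq c ⟨0, h0n⟩
  have hb : g1 • b ≠ ⟨0, h0n⟩ := by
    rw [← h1]
    intro h
    exact hab (MulAction.injective g1 h).symm
  have hd : g2 • d ≠ ⟨0, h0n⟩ := by
    rw [← h2]
    intro h
    exact hcd (MulAction.injective g2 h).symm
  obtain ⟨kb, hkb, ekb⟩ := hreach _ hb
  obtain ⟨kd, hkd, ekd⟩ := hreach _ hd
  let KB : lgrp (vL ntl n) gens := ⟨kb, hKle hkb⟩
  let KD : lgrp (vL ntl n) gens := ⟨kd, hKle hkd⟩
  have fb : KB • (⟨0, h0n⟩ : Fin n) = ⟨0, h0n⟩ := hfix kb hkb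
  have fd : KD • (⟨0, h0n⟩ : Fin n) = ⟨0, h0n⟩ := hfix kd hkd
  have eb : KB • (⟨1, hn⟩ : Fin n) = g1 • b := ekb
  have ed : KD • (⟨1, hn⟩ : Fin n) = g2 • d := ekd
  refine ⟨g2⁻¹ * KD * KB⁻¹ * g1, ?_, ?_⟩
  · rw [mul_smul, mul_smul, mul_smul, h1, inv_smul_eq_iff.2 fb.symm, fd, inv_smul_eq_iff, h2]
  · rw [mul_smul, mul_smul, mul_smul, ← eb, inv_smul_smul, ed, inv_smul_smul]

/-- a doubly transitive action is doubly transitive on the cosets of a point stabiliser -/
theorem two_trans_cosets {G X : Type*} [Group G] [MulAction G X] (x0 : X)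
    [h2 : IsMultiplyPretransitive G X 2] :
    IsMultiplyPretransitive G (G ⧸ stabilizer G x0) 2 := by
  rw [is_two_pretransitive_iff] at h2 ⊢
  intro a b c d hab hcd
  have hinj := injective_ofQuotientStabilizer G x0
  obtain ⟨g, h1, h3⟩ := h2 (hinj.ne hab) (hinj.ne hcd)
  refine ⟨g, hinj ?_, hinj ?_⟩
  · rw [ofQuotientStabilizer_smul, h1]
  · rw [ofQuotientStabilizer_smul, h3]

/-- transport to an isomorphic group -/
theorem exists_two_trans_subgroup {G L X : Type*} [Group G] [Group L] [MulAction L X] (e : G ≃* L)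
    (x0 : X) [h2 : IsMultiplyPretransitive L X 2] :
    ∃ H : Subgroup G, H.index = Nat.card X ∧ Nonempty (H ≃* stabilizer L x0) ∧
      IsMultiplyPretransitive G (G ⧸ H) 2 := by
  let _ : MulAction G X := MulAction.compHom X e.toMonoidHom
  have hsm : ∀ (g : G) (x : X), g • x = e g • x := fun _ _ => rfl
  have h2G : IsMultiplyPretransitive G X 2 := by
    rw [is_two_pretransitive_iff] at h2 ⊢
    intro a b c d hab hcd
    obtain ⟨l, h1, h3⟩ := h2 hab hcd
    refine ⟨e.symm l, ?_, ?_⟩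
    · rw [hsm, MulEquiv.apply_symm_apply, h1]
    · rw [hsm, MulEquiv.apply_symm_apply, h3]
  have hpre : IsPretransitive G X := isPretransitive_of_is_two_pretransitive
  refine ⟨stabilizer G x0, index_stabilizer_of_transitive G x0, ?_, two_trans_cosets x0⟩
  refine ⟨{
    toFun := fun g => ⟨e g.1, g.2⟩
    invFun := fun l => ⟨e.symm l.1, ?_⟩
    left_inv := fun g => Subtype.ext (by simp)
    right_inv := fun l => Subtype.ext (by simp)
    map_mul' := fun a b => Subtype.ext (by simp) }⟩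
  rw [mem_stabilizer_iff, hsm, MulEquiv.apply_symm_apply]
  exact l.2

/-- a subgroup of the right order fixing a point is the point stabiliser -/
theorem stabilizer_iso_of_card {X : Type*} (L K : Subgroup (Equiv.Perm X)) (x0 : X)
    [IsPretransitive L X] [Finite L] (hKL : K ≤ L) (hfix : ∀ g ∈ K, g x0 = x0)
    (hc : Nat.card K * Nat.card X = Nat.card L) (hX : Nat.card X ≠ 0) :
    Nonempty (stabilizer L x0 ≃* K) := by
  have h1 : K.subgroupOf L ≤ stabilizer L x0 := by
    intro g hg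
    exact hfix g.1 hg
  have h2 : Nat.card (K.subgroupOf L) = Nat.card K :=
    Nat.card_congr (Subgroup.subgroupOfEquivOfLe hKL).toEquiv
  have h3 := (stabilizer L x0).index_mul_card
  rw [index_stabilizer_of_transitive L x0, ← hc, mul_comm] at h3
  have h4 : Nat.card (stabilizer L x0) = Nat.card K := Nat.eq_of_mul_eq_mul_right (Nat.pos_of_ne_zero hX) h3
  have h5 : K.subgroupOf L = stabilizer L x0 :=
    Subgroup.eq_of_le_of_card_ge h1 (by rw [h2, h4])
  exact ⟨(MulEquiv.subgroupCongr h5.symm).trans (Subgroup.subgroupOfEquivOfLe hKL)⟩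

end Cfsg.Agent.Lib.Helper3
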