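import Mathlib
import Cfsg.Agent.Lib.Helper3.Steiner

set_option autoImplicit false
set_option linter.unusedSectionVars false

namespace Cfsg.Agent.Lib.Helper3

open Cfsg Finset

variable {α : Type*} [Fintype α] [DecidableEq α] {B : Set (Finset α)}

theorem nInt_5_8_24 (hα : Fintype.card α = 24) (hB : IsSteinerSystem 5 8 B) {b0 : Finset α}
    (hb0 : b0 ∈ B) : nInt B b0 0 = 30 ∧ nInt B b0 1 = 0 ∧ nInt B b0 2 = 448 ∧ nInt B b0 3 = 0 ∧ nInt B b0 4 = 280 := by
  have l0 : ∀ J : Finset α, J.card = 0 → lam B J = 759 := by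
    intro J hJ
    have h := lam_mul hB J (by omega)
    rw [hJ, hα] at h
    norm_num [Nat.choose] at h
    omega
  have l1 : ∀ J : Finset α, J.card = 1 → lam B J = 253 := by
    intro J hJ
    have h := lam_mul hB J (by omega)
    rw [hJ, hα] at h
    norm_num [Nat.choose] at h
    omega
  have l2 : ∀ J : Finset α, J.card = 2 → lam B J = 77 := by
    intro J hJ
    have h := lam_mul hB J (by omega)
    rw [hJ, hα] at h
    norm_num [Nat.choose] at h
    omega
  have l3 : ∀ J : Finset α, J.card = 3 → lam B J = 21 := by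
    intro J hJ
    have h := lam_mul hB J (by omega)
    rw [hJ, hα] at h
    norm_num [Nat.choose] at h
    omega
  have l4 : ∀ J : Finset α, J.card = 4 → lam B J = 5 := by
    intro J hJ
    have h := lam_mul hB J (by omega)
    rw [hJ, hα] at h
    norm_num [Nat.choose] at h
    omega
  have e0 := inter_eq hB hb0 0 _ l0
  have e1 := inter_eq hB hb0 1 _ l1
  have e2 := inter_eq hB hb0 2 _ l2
  have e3 := inter_eq hB hb0 3 _ l3
  have e4 := inter_eq hB hb0 4 _ l4
  have n5 := nInt_eq_zero hB hb0 (i := 5) (by norm_num) (by norm_num)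
  have n6 := nInt_eq_zero hB hb0 (i := 6) (by norm_num) (by norm_num)
  have n7 := nInt_eq_zero hB hb0 (i := 7) (by norm_num) (by norm_num)
  have n8 := nInt_self hB hb0 (by norm_num)
  simp only [sum_range_succ, sum_range_zero, n5, n6, n7, n8] at e0 e1 e2 e3 e4
  norm_num [Nat.choose] at e0 e1 e2 e3 e4
  omega

theorem nInt_4_7_23 (hα : Fintype.card α = 23) (hB : IsSteinerSystem 4 7 B) {b0 : Finset α}
    (hb0 : b0 ∈ B) : nInt B b0 0 = 0 ∧ nInt B b0 1 = 112 ∧ nInt B b0 2 = 0 ∧ nInt B b0 3 = 140 := by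
  have l0 : ∀ J : Finset α, J.card = 0 → lam B J = 253 := by
    intro J hJ
    have h := lam_mul hB J (by omega)
    rw [hJ, hα] at h
    norm_num [Nat.choose] at h
    omega
  have l1 : ∀ J : Finset α, J.card = 1 → lam B J = 77 := by
    intro J hJ
    have h := lam_mul hB J (by omega)
    rw [hJ, hα] at h
    norm_num [Nat.choose] at h
    omega
  have l2 : ∀ J : Finset α, J.card = 2 → lam B J = 21 := by
    intro J hJ
    have h := lam_mul hB J (by omega)
    rw [hJ, hα] at h
    norm_num [Nat.choose] at h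
    omega
  have l3 : ∀ J : Finset α, J.card = 3 → lam B J = 5 := by
    intro J hJ
    have h := lam_mul hB J (by omega)
    rw [hJ, hα] at h
    norm_num [Nat.choose] at h
    omega
  have e0 := inter_eq hB hb0 0 _ l0
  have e1 := inter_eq hB hb0 1 _ l1
  have e2 := inter_eq hB hb0 2 _ l2
  have e3 := inter_eq hB hb0 3 _ l3
  have n4 := nInt_eq_zero hB hb0 (i := 4) (by norm_num) (by norm_num)
  have n5 := nInt_eq_zero hB hb0 (i := 5) (by norm_num) (by norm_num)
  have n6 := nInt_eq_zero hB hb0 (i := 6) (by norm_num) (by norm_num)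
  have n7 := nInt_self hB hb0 (by norm_num)
  simp only [sum_range_succ, sum_range_zero, n4, n5, n6, n7] at e0 e1 e2 e3
  norm_num [Nat.choose] at e0 e1 e2 e3
  omega

theorem nInt_3_6_22 (hα : Fintype.card α = 22) (hB : IsSteinerSystem 3 6 B) {b0 : Finset α}
    (hb0 : b0 ∈ B) : nInt B b0 0 = 16 ∧ nInt B b0 1 = 0 ∧ nInt B b0 2 = 60 := by
  have l0 : ∀ J : Finset α, J.card = 0 → lam B J = 77 := by
    intro J hJ
    have h := lam_mul hB J (by omega)
    rw [hJ, hα] at h
    norm_num [Nat.choose] at h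
    omega
  have l1 : ∀ J : Finset α, J.card = 1 → lam B J = 21 := by
    intro J hJ
    have h := lam_mul hB J (by omega)
    rw [hJ, hα] at h
    norm_num [Nat.choose] at h
    omega
  have l2 : ∀ J : Finset α, J.card = 2 → lam B J = 5 := by
    intro J hJ
    have h := lam_mul hB J (by omega)
    rw [hJ, hα] at h
    norm_num [Nat.choose] at h
    omega
  have e0 := inter_eq hB hb0 0 _ l0
  have e1 := inter_eq hB hb0 1 _ l1
  have e2 := inter_eq hB hb0 2 _ l2
  have n3 := nInt_eq_zero hB hb0 (i := 3) (by norm_num) (by norm_num)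
  have n4 := nInt_eq_zero hB hb0 (i := 4) (by norm_num) (by norm_num)
  have n5 := nInt_eq_zero hB hb0 (i := 5) (by norm_num) (by norm_num)
  have n6 := nInt_self hB hb0 (by norm_num)
  simp only [sum_range_succ, sum_range_zero, n3, n4, n5, n6] at e0 e1 e2
  norm_num [Nat.choose] at e0 e1 e2
  omega

theorem nInt_5_6_12 (hα : Fintype.card α = 12) (hB : IsSteinerSystem 5 6 B) {b0 : Finset α}
    (hb0 : b0 ∈ B) : nInt B b0 0 = 1 ∧ nInt B b0 1 = 0 ∧ nInt B b0 2 = 45 ∧ nInt B b0 3 = 40 ∧ nInt B b0 4 = 45 := by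
  have l0 : ∀ J : Finset α, J.card = 0 → lam B J = 132 := by
    intro J hJ
    have h := lam_mul hB J (by omega)
    rw [hJ, hα] at h
    norm_num [Nat.choose] at h
    omega
  have l1 : ∀ J : Finset α, J.card = 1 → lam B J = 66 := by
    intro J hJ
    have h := lam_mul hB J (by omega)
    rw [hJ, hα] at h
    norm_num [Nat.choose] at h
    omega
  have l2 : ∀ J : Finset α, J.card = 2 → lam B J = 30 := by
    intro J hJ
    have h := lam_mul hB J (by omega)
    rw [hJ, hα] at h
    norm_num [Nat.choose] at h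
    omega
  have l3 : ∀ J : Finset α, J.card = 3 → lam B J = 12 := by
    intro J hJ
    have h := lam_mul hB J (by omega)
    rw [hJ, hα] at h
    norm_num [Nat.choose] at h
    omega
  have l4 : ∀ J : Finset α, J.card = 4 → lam B J = 4 := by
    intro J hJ
    have h := lam_mul hB J (by omega)
    rw [hJ, hα] at h
    norm_num [Nat.choose] at h
    omega
  have e0 := inter_eq hB hb0 0 _ l0
  have e1 := inter_eq hB hb0 1 _ l1
  have e2 := inter_eq hB hb0 2 _ l2
  have e3 := inter_eq hB hb0 3 _ l3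
  have e4 := inter_eq hB hb0 4 _ l4
  have n5 := nInt_eq_zero hB hb0 (i := 5) (by norm_num) (by norm_num)
  have n6 := nInt_self hB hb0 (by norm_num)
  simp only [sum_range_succ, sum_range_zero, n5, n6] at e0 e1 e2 e3 e4
  norm_num [Nat.choose] at e0 e1 e2 e3 e4
  omega

end Cfsg.Agent.Lib.Helper3
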