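import Mathlib
import Cfsg.Agent.Lib.Helper3.Steiner2

set_option autoImplicit false
set_option linter.unusedSectionVars false

namespace Cfsg.Agent.Lib.Helper3

open Cfsg Finset

variable {α : Type*} [Fintype α] [DecidableEq α] {B : Set (Finset α)}

theorem inter_024 (hα : Fintype.card α = 24) (hB : IsSteinerSystem 5 8 B) {b c : Finset α}
    (hb : b ∈ B) (hc : c ∈ B) (hbc : b ≠ c) :
    (b ∩ c).card = 0 ∨ (b ∩ c).card = 2 ∨ (b ∩ c).card = 4 := by
  obtain ⟨_, n1, _, n3, _⟩ := nInt_5_8_24 hα hB hc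
  have h1 := ne_of_nInt_eq_zero n1 hb
  have h3 := ne_of_nInt_eq_zero n3 hb
  have h5 : ¬ 5 ≤ (b ∩ c).card := fun h => hbc (eq_of_le_card_inter hB hc hb h)
  omega

theorem inter_eq_of_four (hα : Fintype.card α = 24) (hB : IsSteinerSystem 5 8 B) {b c S : Finset α}
    (hb : b ∈ B) (hc : c ∈ B) (hbc : b ≠ c) (hS : S ⊆ b ∩ c) (h4 : S.card = 4) : b ∩ c = S := by
  have := inter_024 hα hB hb hc hbc
  have h2 := card_le_card hS
  exact (eq_of_subset_of_card_le hS (by omega)).symm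

theorem symmDiff_mem (hα : Fintype.card α = 24) (hB : IsSteinerSystem 5 8 B) {b c : Finset α}
    (hb : b ∈ B) (hc : c ∈ B) (h4 : (b ∩ c).card = 4) : symmDiff b c ∈ B := by
  have hb8 := hB.1 b hb
  have hc8 := hB.1 c hc
  obtain ⟨T1, hT1⟩ : ∃ T1, T1 = b \ c := ⟨_, rfl⟩
  obtain ⟨T2, hT2⟩ : ∃ T2, T2 = c \ b := ⟨_, rfl⟩
  have mT1 : ∀ a, a ∈ T1 ↔ a ∈ b ∧ a ∉ c := fun a => by rw [hT1, mem_sdiff]
  have mT2 : ∀ a, a ∈ T2 ↔ a ∈ c ∧ a ∉ b := fun a => by rw [hT2, mem_sdiff]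
  have cT1 : T1.card = 4 := by
    have := card_sdiff_add_card_inter b c
    rw [hT1]; omega
  have cT2 : T2.card = 4 := by
    have := card_sdiff_add_card_inter c b
    rw [inter_comm] at this
    rw [hT2]; omega
  have hsd : symmDiff b c = T1 ∪ T2 := by rw [hT1, hT2]; rfl
  have hdisj12 : Disjoint T1 T2 := by
    rw [disjoint_left]
    intro a h1 h2
    exact ((mT2 a).1 h2).2 ((mT1 a).1 h1).1
  -- general construction
  have constr : ∀ y ∈ T2, ∃ d ∈ B, y ∈ d ∧ d ∩ b = T1 ∧ d ∩ c ⊆ T2 ∧ d ≠ c := by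
    intro y hy
    have hyT1 : y ∉ T1 := fun h => ((mT2 y).1 hy).2 ((mT1 y).1 h).1
    obtain ⟨d, ⟨hd, hsub⟩, _⟩ := hB.2 (insert y T1) (by rw [card_insert_of_notMem hyT1, cT1])
    have hyd : y ∈ d := hsub (mem_insert_self _ _)
    have hT1d : T1 ⊆ d := fun a ha => hsub (mem_insert_of_mem ha)
    have hdb : d ≠ b := by
      rintro rfl
      exact ((mT2 y).1 hy).2 hyd
    have h1 : d ∩ b = T1 := by
      apply inter_eq_of_four hα hB hd hb hdb _ cT1
      intro a ha
      exact mem_inter.2 ⟨hT1d ha, ((mT1 a).1 ha).1⟩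
    refine ⟨d, hd, hyd, h1, ?_, ?_⟩
    · intro a ha
      rw [mem_inter] at ha
      rw [mT2]
      refine ⟨ha.2, fun hab => ?_⟩
      have : a ∈ d ∩ b := mem_inter.2 ⟨ha.1, hab⟩
      rw [h1, mT1] at this
      exact this.2 ha.2
    · rintro rfl
      obtain ⟨a, ha⟩ : T1.Nonempty := by rw [← card_pos]; omega
      exact ((mT1 a).1 ha).2 (hT1d ha)
  obtain ⟨y, hy⟩ : T2.Nonempty := by rw [← card_pos]; omega
  obtain ⟨d, hd, hyd, hdb, hdc, hdnc⟩ := constr y hy
  have hT1d : T1 ⊆ d := by rw [← hdb]; exact inter_subset_left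
  have hydc : y ∈ d ∩ c := mem_inter.2 ⟨hyd, ((mT2 y).1 hy).1⟩
  rcases inter_024 hα hB hd hc hdnc with h0 | h2 | h4'
  · rw [card_eq_zero] at h0
    rw [h0] at hydc
    exact absurd hydc (notMem_empty y)
  swap
  · -- the good case
    have h1 : d ∩ c = T2 := eq_of_subset_of_card_le hdc (by omega)
    have hT2d : T2 ⊆ d := by rw [← h1]; exact inter_subset_left
    have h2 : T1 ∪ T2 = d := by
      apply eq_of_subset_of_card_le (union_subset hT1d hT2d)
      rw [card_union_of_disjoint hdisj12, cT1, cT2, hB.1 d hd]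
    rw [hsd, h2]
    exact hd
  -- the bad case
  exfalso
  obtain ⟨z, hz⟩ : (T2 \ (d ∩ c)).Nonempty := by
    rw [← card_pos, card_sdiff_of_subset hdc]; omega
  rw [mem_sdiff] at hz
  obtain ⟨hzT2, hzdc⟩ := hz
  have hzd : z ∉ d := fun h => hzdc (mem_inter.2 ⟨h, ((mT2 z).1 hzT2).1⟩)
  obtain ⟨d', hd', hzd', hd'b, hd'c, hd'nc⟩ := constr z hzT2
  have hT1d' : T1 ⊆ d' := by rw [← hd'b]; exact inter_subset_left
  have hdd' : d ≠ d' := by rintro rfl; exact hzd hzd'
  have hdd'i : d ∩ d' = T1 := by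
    apply inter_eq_of_four hα hB hd hd' hdd' _ cT1
    intro a ha
    exact mem_inter.2 ⟨hT1d ha, hT1d' ha⟩
  have hdisjc : Disjoint (d ∩ c) (d' ∩ c) := by
    rw [disjoint_left]
    intro a h1 h2
    rw [mem_inter] at h1 h2
    have : a ∈ d ∩ d' := mem_inter.2 ⟨h1.1, h2.1⟩
    rw [hdd'i, mT1] at this
    exact this.2 h1.2
  have hyd' : y ∉ d' := by
    intro h
    exact (disjoint_left.1 hdisjc) hydc (mem_inter.2 ⟨h, ((mT2 y).1 hy).1⟩)
  have hzd'c : z ∈ d' ∩ c := mem_inter.2 ⟨hzd', ((mT2 z).1 hzT2).1⟩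
  have hun : (d ∩ c) ∪ (d' ∩ c) = T2 := by
    apply eq_of_subset_of_card_le (union_subset hdc hd'c)
    rw [card_union_of_disjoint hdisjc, cT2, h2]
    rcases inter_024 hα hB hd' hc hd'nc with h0 | h2' | h4'
    · rw [card_eq_zero] at h0
      rw [h0] at hzd'c
      exact absurd hzd'c (notMem_empty z)
    · omega
    · omega
  obtain ⟨x8, hx8⟩ : T1.Nonempty := by rw [← card_pos]; omega
  obtain ⟨R, hR⟩ : ∃ R, R = T1.erase x8 := ⟨_, rfl⟩
  have cR : R.card = 3 := by rw [hR, card_erase_of_mem hx8, cT1]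
  have hRT1 : R ⊆ T1 := by rw [hR]; exact erase_subset _ _
  have hyb : y ∉ b := ((mT2 y).1 hy).2
  have hzb : z ∉ b := ((mT2 z).1 hzT2).2
  have hRb : ∀ a ∈ R, a ∈ b := fun a ha => ((mT1 a).1 (hRT1 ha)).1
  have hyR : y ∉ R := fun h => hyb (hRb y h)
  have hzR : z ∉ R := fun h => hzb (hRb z h)
  have hyz : y ≠ z := by rintro rfl; exact hzd hyd
  obtain ⟨e, ⟨he, hsub⟩, _⟩ := hB.2 (insert y (insert z R)) (by
    rw [card_insert_of_notMem, card_insert_of_notMem hzR, cR]
    rw [mem_insert, not_or]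
    exact ⟨hyz, hyR⟩)
  have hye : y ∈ e := hsub (mem_insert_self _ _)
  have hze : z ∈ e := hsub (mem_insert_of_mem (mem_insert_self _ _))
  have hRe : R ⊆ e := fun a ha => hsub (mem_insert_of_mem (mem_insert_of_mem ha))
  have hed : e ≠ d := by rintro rfl; exact hzd hze
  have hed' : e ≠ d' := by rintro rfl; exact hyd' hye
  have heb : e ≠ b := by rintro rfl; exact hyb hye
  have hec : e ≠ c := by
    rintro rfl
    obtain ⟨a, ha⟩ : R.Nonempty := by rw [← card_pos]; omega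
    exact ((mT1 a).1 (hRT1 ha)).2 (hRe ha)
  have hedi : e ∩ d = insert y R := by
    apply inter_eq_of_four hα hB he hd hed
    · intro a ha
      rw [mem_insert] at ha
      rcases ha with rfl | ha
      · exact mem_inter.2 ⟨hye, hyd⟩
      · exact mem_inter.2 ⟨hRe ha, hT1d (hRT1 ha)⟩
    · rw [card_insert_of_notMem hyR, cR]
  have hed'i : e ∩ d' = insert z R := by
    apply inter_eq_of_four hα hB he hd' hed'
    · intro a ha
      rw [mem_insert] at ha
      rcases ha with rfl | ha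
      · exact mem_inter.2 ⟨hze, hzd'⟩
      · exact mem_inter.2 ⟨hRe ha, hT1d' (hRT1 ha)⟩
    · rw [card_insert_of_notMem hzR, cR]
  have hx8e : x8 ∉ e := by
    intro h
    have : x8 ∈ e ∩ d := mem_inter.2 ⟨h, hT1d hx8⟩
    rw [hedi, mem_insert] at this
    rcases this with h1 | h1
    · rw [← h1] at hyb
      exact hyb ((mT1 x8).1 hx8).1
    · rw [hR] at h1
      exact (notMem_erase x8 T1) h1
  have heT1 : e ∩ T1 = R := by
    ext a
    rw [mem_inter]
    constructor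
    · rintro ⟨h1, h2⟩
      rw [hR, mem_erase]
      exact ⟨by rintro rfl; exact hx8e h1, h2⟩
    · intro h
      exact ⟨hRe h, hRT1 h⟩
  have heT2 : e ∩ T2 = {y, z} := by
    ext a
    rw [mem_inter, mem_insert, mem_singleton]
    constructor
    · rintro ⟨h1, h2⟩
      have hab : a ∉ b := ((mT2 a).1 h2).2
      rw [← hun, mem_union, mem_inter, mem_inter] at h2
      rcases h2 with h2 | h2
      · have : a ∈ e ∩ d := mem_inter.2 ⟨h1, h2.1⟩
        rw [hedi, mem_insert] at this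
        rcases this with h3 | h3
        · exact Or.inl h3
        · exact absurd (hRb a h3) hab
      · have : a ∈ e ∩ d' := mem_inter.2 ⟨h1, h2.1⟩
        rw [hed'i, mem_insert] at this
        rcases this with h3 | h3
        · exact Or.inr h3
        · exact absurd (hRb a h3) hab
    · rintro (rfl | rfl)
      · exact ⟨hye, hy⟩
      · exact ⟨hze, hzT2⟩
  -- cardinalities
  have hbsplit : e ∩ b = (e ∩ T1) ∪ (e ∩ (b ∩ c)) := by
    ext a
    simp only [mem_inter, mem_union, mT1]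
    tauto
  have hcsplit : e ∩ c = (e ∩ T2) ∪ (e ∩ (b ∩ c)) := by
    ext a
    simp only [mem_inter, mem_union, mT2]
    tauto
  have hd1 : Disjoint (e ∩ T1) (e ∩ (b ∩ c)) := by
    rw [disjoint_left]
    intro a h1 h2
    simp only [mem_inter, mT1] at h1 h2
    exact h1.2.2 h2.2.2
  have hd2 : Disjoint (e ∩ T2) (e ∩ (b ∩ c)) := by
    rw [disjoint_left]
    intro a h1 h2
    simp only [mem_inter, mT2] at h1 h2
    exact h1.2.2 h2.2.1
  have c1 : (e ∩ b).card = 3 + (e ∩ (b ∩ c)).card := by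
    rw [hbsplit, card_union_of_disjoint hd1, heT1, cR]
  have c2 : (e ∩ c).card = 2 + (e ∩ (b ∩ c)).card := by
    rw [hcsplit, card_union_of_disjoint hd2, heT2, card_pair hyz]
  have k1 := inter_024 hα hB he hb heb
  have k2 := inter_024 hα hB he hc hec
  omega

end Cfsg.Agent.Lib.Helper3
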