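import Mathlib
import Cfsg.Agent.Lib.Helper3.Zass

set_option autoImplicit false

namespace Cfsg.Agent.Lib.Helper3

open MulAction Subgroup Cfsg

/-- nontrivial normal subgroups of faithful 2-transitive groups are transitive -/
theorem normal_pretransitive {G X : Type*} [Group G] [MulAction G X] [FaithfulSMul G X]
    (h2 : IsMultiplyPretransitive G X 2) (N : Subgroup G) [hNn : N.Normal] (hNb : N ≠ ⊥) :
    IsPretransitive N X := by
  have hprim : IsPreprimitive G X := isPreprimitive_of_is_two_pretransitive h2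
  apply IsQuasiPreprimitive.isPretransitive_of_normal (G := G)
  intro hfix
  apply hNb
  rw [eq_bot_iff]
  intro n hn
  rw [mem_bot]
  apply FaithfulSMul.eq_of_smul_eq_smul (α := X)
  intro x
  have hx : x ∈ fixedPoints N X := by rw [hfix]; trivial
  rw [one_smul]
  exact hx ⟨n, hn⟩

theorem pretransitive_of_free {H X : Type*} [Group H] [MulAction H X] [Finite X]
    (hcard : Nat.card X ≤ Nat.card H) (hfree : ∀ h : H, ∀ x : X, h • x = x → h = 1) :
    IsPretransitive H X := by
  refine ⟨fun a b => ?_⟩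
  have hinj : Function.Injective (fun h : H => h • a) := by
    intro h1 h2 h
    have : h2⁻¹ * h1 = 1 := by
      apply hfree _ a
      simp only at h
      rw [mul_smul, h, inv_smul_smul]
    rw [inv_mul_eq_one] at this
    exact this.symm
  have hbij := hinj.bijective_of_nat_card_le hcard
  obtain ⟨h, hh⟩ := hbij.2 b
  exact ⟨h, hh⟩

variable {G Ω : Type*} [Group G] [MulAction G Ω]

theorem zass_kernel_trans [Finite Ω] (a : Ω) (K : Subgroup G)
    (hK : ∀ u, u ∈ K ↔ u • a = a ∧ (u = 1 ∨ ∀ c, u • c = c → c = a))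
    (hcard : Nat.card K + 1 = Nat.card Ω) {c d : Ω} (hc : c ≠ a) (hd : d ≠ a) :
    ∃ u ∈ K, u • c = d := by
  have hinj : Function.Injective
      (fun u : K => (⟨(u : G) • c, by
        intro h
        apply hc
        have h1 := ((hK u).1 u.2).1
        rw [← h1] at h
        exact MulAction.injective _ h⟩ : {x : Ω // x ≠ a})) := by
    intro u v h
    have h' : (u : G) • c = (v : G) • c := congrArg Subtype.val h
    have h1 : (v : G)⁻¹ * u ∈ K := K.mul_mem (K.inv_mem v.2) u.2
    have h2 : ((v : G)⁻¹ * u) • c = c := by rw [mul_smul, h', inv_smul_smul]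
    rcases ((hK _).1 h1).2 with h3 | h3
    · rw [inv_mul_eq_one] at h3
      exact Subtype.ext h3.symm
    · exact absurd (h3 c h2) hc
  have hc2 : Nat.card {x : Ω // x ≠ a} ≤ Nat.card K := by
    classical
    have := Nat.card_congr (Equiv.sumCompl (fun x : Ω => x = a))
    rw [Nat.card_sum, Nat.card_unique] at this
    have h2 : Nat.card {x : Ω // ¬ x = a} = Nat.card {x : Ω // x ≠ a} := rfl
    omega
  obtain ⟨u, hu⟩ := (hinj.bijective_of_nat_card_le hc2).2 ⟨d, hd⟩
  exact ⟨u, u.2, congrArg Subtype.val hu⟩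

/-- a nontrivial normal subgroup contains a nonidentity element fixing two points -/
theorem zass_normal_fix_two [Finite Ω] (hZ : IsZassenhausGroup G Ω) (N : Subgroup G) [hNn : N.Normal]
    (hNb : N ≠ ⊥) : ∃ n ∈ N, n ≠ 1 ∧ ∃ c d : Ω, c ≠ d ∧ n • c = c ∧ n • d = d := by
  have hfin := zass_finite hZ
  have hf := hZ.1
  have hNt := normal_pretransitive hZ.2.1 N hNb
  by_contra hcon
  push Not at hcon
  obtain ⟨a, ha⟩ := hZ.2.2.2.2 N hNn hNt
  obtain ⟨b, hb⟩ := zass_exists_ne hZ a
  obtain ⟨x, hx1⟩ : ∃ x : stabilizer N a, x ≠ 1 := by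
    by_contra h
    push Not at h
    apply ha
    rw [eq_bot_iff]
    intro y hy
    exact congrArg Subtype.val (h ⟨y, hy⟩)
  obtain ⟨L, hLn, hLmem, hLcard, _⟩ := frob_kernel_of_action (A := N) (X := Ω) a
    ⟨x, fun h => hx1 (Subtype.ext h), x.2⟩ ⟨b, hb⟩ (by
      intro g c d hcd hgc hgd
      by_contra hg
      exact hcon g g.2 (fun h => hg (Subtype.ext h)) c d hcd hgc hgd)
  have hL1n : (L.map N.subtype).Normal := by
    constructor
    rintro _ ⟨y, hy, rfl⟩ g
    refine ⟨⟨g * y * g⁻¹, hNn.conj_mem y y.2 g⟩, (hLmem _).2 ?_, rfl⟩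
    rcases (hLmem y).1 hy with h | h
    · left
      apply Subtype.ext
      simp [h]
    · right
      intro c hc
      apply h (g⁻¹ • c)
      have hc' : (g * (y : G) * g⁻¹) • c = c := hc
      show (y : G) • g⁻¹ • c = g⁻¹ • c
      rw [mul_smul, mul_smul, smul_eq_iff_eq_inv_smul] at hc'
      exact hc'
  have hfree : ∀ h : L.map N.subtype, ∀ c : Ω, h • c = c → h = 1 := by
    rintro ⟨_, y, hy, rfl⟩ c hc
    rcases (hLmem y).1 hy with h | h
    · apply Subtype.ext
      simp [h]
    · exact absurd hc (h c)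
  have hL1t : IsPretransitive (L.map N.subtype) Ω := by
    apply pretransitive_of_free _ hfree
    rw [Nat.card_congr (L.equivMapOfInjective _ N.subtype_injective).symm.toEquiv, hLcard]
  obtain ⟨a', ha'⟩ := hZ.2.2.2.2 _ hL1n hL1t
  apply ha'
  rw [eq_bot_iff]
  intro y hy
  rw [mem_bot]
  exact hfree y a' hy

/-- a nontrivial normal subgroup contains all the kernels -/
theorem zass_kernel_le_normal [Finite Ω] (hZ : IsZassenhausGroup G Ω) (N : Subgroup G)
    [hNn : N.Normal] (hNb : N ≠ ⊥) (a : Ω) (u : G) (hua : u • a = a)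
    (hu : ∀ c, u • c = c → c = a) : u ∈ N := by
  obtain ⟨K, hK, hcard, hcomp⟩ := zass_kernel hZ a
  obtain ⟨n, hn, hn1, c, d, hcd, hnc, hnd⟩ := zass_normal_fix_two hZ N hNb
  obtain ⟨b, hb⟩ := zass_exists_ne hZ a
  obtain ⟨t, htc, htd⟩ := zass_two_trans hZ hcd (Ne.symm hb)
  have hn' : t * n * t⁻¹ ∈ N ⊓ stabilizer G a := by
    refine ⟨hNn.conj_mem n hn t, ?_⟩
    show (t * n * t⁻¹) • a = a
    rw [mul_smul, mul_smul, ← htc, inv_smul_smul, hnc]
  have hn'b : (t * n * t⁻¹) • b = b := by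
    rw [mul_smul, mul_smul, ← htd, inv_smul_smul, hnd]
  have hn'1 : t * n * t⁻¹ ≠ 1 := by
    intro h
    apply hn1
    have : n = t⁻¹ * (t * n * t⁻¹) * t := by group
    rw [this, h]; group
  rcases hcomp (N ⊓ stabilizer G a) (by
      intro h hh m hm
      exact ⟨hNn.conj_mem m hm.1 h, (stabilizer G a).mul_mem ((stabilizer G a).mul_mem hh hm.2)
        ((stabilizer G a).inv_mem hh)⟩) inf_le_right with h | h
  · exfalso
    rcases ((hK _).1 (h hn')).2 with h1 | h1
    · exact hn'1 h1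
    · exact hb (h1 b hn'b)
  · exact (h ((hK u).2 ⟨hua, Or.inr hu⟩)).1

end Cfsg.Agent.Lib.Helper3
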