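import Mathlib
import Cfsg.Agent.Lib.Helper3.Zass2

set_option autoImplicit false

namespace Cfsg.Agent.Lib.Helper3

open MulAction Subgroup Cfsg

variable {G Ω : Type*} [Group G] [MulAction G Ω]

/-- in odd degree an involution has exactly one fixed point -/
theorem zass_invol_unique_fix [Finite Ω] (hZ : IsZassenhausGroup G Ω) (hodd : Odd (Nat.card Ω))
    (s : G) (hs1 : s ≠ 1) (hs : s * s = 1) : ∃ c : Ω, s • c = c ∧ ∀ d : Ω, s • d = d → d = c := by
  classical
  have := Fintype.ofFinite Ω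
  obtain ⟨f, hf⟩ : ∃ f : Function.End Ω, f = (fun x : Ω => s • x) := ⟨_, rfl⟩
  have hff : f ^ 2 ^ 1 = 1 := by
    rw [pow_one, pow_two]
    funext x
    show f (f x) = x
    rw [hf]
    show s • s • x = x
    rw [← mul_smul, hs, one_smul]
  have h1 := Equiv.Perm.card_fixedPoints_modEq (α := Ω) (f := f) (p := 2) (n := 1) hff
  subst hf
  rw [Nat.card_eq_fintype_card] at hodd
  have h2 : Odd (Fintype.card (Function.fixedPoints (fun x : Ω => s • x))) := by
    rw [Nat.odd_iff] at hodd ⊢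
    rw [← h1, hodd]
  have h3 : Fintype.card (Function.fixedPoints (fun x : Ω => s • x)) =
      (Finset.univ.filter (fun x : Ω => s • x = x)).card := by
    rw [Fintype.card_subtype]
    rfl
  rw [h3] at h2
  have h4 : ¬ 2 < (Finset.univ.filter (fun x : Ω => s • x = x)).card := by
    rw [Finset.two_lt_card_iff]
    rintro ⟨a, b, c, ha, hb, hc, hab, hac, hbc⟩
    simp only [Finset.mem_filter, Finset.mem_univ, true_and] at ha hb hc
    exact hs1 (zass_three hZ hab hbc hac ha hb hc)
  have h5 : (Finset.univ.filter (fun x : Ω => s • x = x)).card = 1 := by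
    obtain ⟨k, hk⟩ := h2
    omega
  obtain ⟨c, hc⟩ := Finset.card_eq_one.1 h5
  refine ⟨c, ?_, ?_⟩
  · have : c ∈ Finset.univ.filter (fun x : Ω => s • x = x) := by rw [hc]; simp
    simpa using this
  · intro d hd
    have : d ∈ Finset.univ.filter (fun x : Ω => s • x = x) := by simp [hd]
    rw [hc] at this
    simpa using this

/-- in odd degree, the two point stabiliser has odd order -/
theorem zass_two_stab_odd [Finite Ω] (hZ : IsZassenhausGroup G Ω) (hodd : Odd (Nat.card Ω))
    {a b : Ω} (hab : a ≠ b) : Odd (Nat.card (stabilizer G a ⊓ stabilizer G b : Subgroup G)) := by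
  have hfin := zass_finite hZ
  by_contra h
  rw [Nat.not_odd_iff_even, even_iff_two_dvd] at h
  obtain ⟨s, hs⟩ := exists_prime_orderOf_dvd_card' 2 h
  have hs2 : (s : G) * s = 1 := by
    have := pow_orderOf_eq_one s
    rw [hs, pow_two] at this
    exact congrArg Subtype.val this
  have hs1 : (s : G) ≠ 1 := by
    intro h1
    have : s = 1 := Subtype.ext h1
    rw [this, orderOf_one] at hs
    omega
  obtain ⟨c, hc, huniq⟩ := zass_invol_unique_fix hZ hodd s hs1 hs2
  have ha : (s : G) • a = a := s.2.1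
  have hb : (s : G) • b = b := s.2.2
  exact hab ((huniq a ha).trans (huniq b hb).symm)

theorem zass_exists_swap_invol [Finite Ω] (hZ : IsZassenhausGroup G Ω) (hodd : Odd (Nat.card Ω))
    {a b : Ω} (hab : a ≠ b) : ∃ t : G, t * t = 1 ∧ t • a = b ∧ t • b = a := by
  have hfin := zass_finite hZ
  obtain ⟨x, hxa, hxb⟩ := zass_two_trans hZ hab (Ne.symm hab)
  obtain ⟨j, hj⟩ := zass_two_stab_odd hZ hodd hab
  have hx2 : x * x ∈ (stabilizer G a ⊓ stabilizer G b : Subgroup G) := by
    constructor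
    · show (x * x) • a = a
      rw [mul_smul, hxa, hxb]
    · show (x * x) • b = b
      rw [mul_smul, hxb, hxa]
  have hpow : (x * x) ^ (2 * j + 1) = 1 := by
    have := pow_card_eq_one' (x := (⟨x * x, hx2⟩ : (stabilizer G a ⊓ stabilizer G b : Subgroup G)))
    rw [hj] at this
    exact congrArg Subtype.val this
  have hxj : (x * x) ^ j ∈ (stabilizer G a ⊓ stabilizer G b : Subgroup G) := Subgroup.pow_mem _ hx2 j
  refine ⟨(x * x) ^ j * x, ?_, ?_, ?_⟩
  · have hc : Commute ((x * x) ^ j) x := ((Commute.refl x).mul_left (Commute.refl x)).pow_left j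
    calc (x * x) ^ j * x * ((x * x) ^ j * x) = (x * x) ^ j * (x * (x * x) ^ j) * x := by group
      _ = (x * x) ^ j * ((x * x) ^ j * x) * x := by rw [hc.eq]
      _ = (x * x) ^ (2 * j + 1) := by rw [pow_succ, two_mul, pow_add]; group
      _ = 1 := hpow
  · rw [mul_smul, hxa]
    exact hxj.2
  · rw [mul_smul, hxb]
    exact hxj.1

theorem zass_odd_normal_eq_top [Finite Ω] (hZ : IsZassenhausGroup G Ω) (hodd : Odd (Nat.card Ω))
    (N : Subgroup G) [hNn : N.Normal] (hNb : N ≠ ⊥) : N = ⊤ := by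
  have hfin := zass_finite hZ
  have hf := hZ.1
  have hNt := normal_pretransitive hZ.2.1 N hNb
  obtain ⟨g0, hg0, a, b, hab, _, _⟩ := hZ.2.2.2.1
  obtain ⟨t, ht2, hta, htb⟩ := zass_exists_swap_invol hZ hodd hab
  have ht1 : t ≠ 1 := by
    intro h
    rw [h, one_smul] at hta
    exact hab hta
  have htinv : t⁻¹ = t := inv_eq_of_mul_eq_one_left ht2
  obtain ⟨c, hc, huniq⟩ := zass_invol_unique_fix hZ hodd t ht1 ht2
  have htN : t ∈ N := zass_kernel_le_normal hZ N hNb c t hc huniq
  have hca : c ≠ a := by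
    intro h
    rw [h, hta] at hc
    exact hab hc.symm
  have hcb : c ≠ b := by
    intro h
    rw [h, htb] at hc
    exact hab hc
  -- the two point stabiliser
  have hconj : ∀ h : (stabilizer G a ⊓ stabilizer G b : Subgroup G),
      (h : G)⁻¹ * (t * h * t⁻¹) ∈ (stabilizer G a ⊓ stabilizer G b : Subgroup G) := by
    intro h
    apply Subgroup.mul_mem _ (Subgroup.inv_mem _ h.2)
    have h1 : (h : G) • a = a := h.2.1
    have h2 : (h : G) • b = b := h.2.2
    constructor
    · show (t * h * t⁻¹) • a = a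
      rw [htinv, mul_smul, mul_smul, hta, h2, htb]
    · show (t * h * t⁻¹) • b = b
      rw [htinv, mul_smul, mul_smul, htb, h1, hta]
  have hinj : Function.Injective (fun h : (stabilizer G a ⊓ stabilizer G b : Subgroup G) =>
      (⟨(h : G)⁻¹ * (t * h * t⁻¹), hconj h⟩ : (stabilizer G a ⊓ stabilizer G b : Subgroup G))) := by
    intro h1 h2 h
    have h' : (h1 : G)⁻¹ * (t * h1 * t⁻¹) = (h2 : G)⁻¹ * (t * h2 * t⁻¹) := congrArg Subtype.val h
    have hcomm : t * ((h2 : G) * (h1 : G)⁻¹) = ((h2 : G) * (h1 : G)⁻¹) * t := by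
      have e1 : (h2 : G) * (h1 : G)⁻¹ = t * h2 * t⁻¹ * (t * h1 * t⁻¹)⁻¹ := by
        rw [eq_mul_inv_iff_mul_eq, mul_assoc, h', mul_inv_cancel_left]
      have e2 : t * h2 * t⁻¹ * (t * h1 * t⁻¹)⁻¹ = t * ((h2 : G) * (h1 : G)⁻¹) * t⁻¹ := by group
      rw [e2] at e1
      rw [eq_mul_inv_iff_mul_eq] at e1
      exact e1.symm
    have hfixc : ((h2 : G) * (h1 : G)⁻¹) • c = c := by
      apply huniq
      rw [← mul_smul, hcomm, mul_smul, hc]
    have hm : (h2 : G) * (h1 : G)⁻¹ ∈ (stabilizer G a ⊓ stabilizer G b : Subgroup G) :=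
      Subgroup.mul_mem _ h2.2 (Subgroup.inv_mem _ h1.2)
    have := zass_three hZ hab (Ne.symm hcb) (Ne.symm hca) hm.1 hm.2 hfixc
    rw [mul_inv_eq_one] at this
    exact Subtype.ext this.symm
  have hsurj := Finite.injective_iff_surjective.1 hinj
  have hHN : ∀ h : G, h • a = a → h • b = b → h ∈ N := by
    intro h ha hb
    obtain ⟨h0, hh0⟩ := hsurj ⟨h, ha, hb⟩
    have e : (h0 : G)⁻¹ * (t * h0 * t⁻¹) = h := congrArg Subtype.val hh0
    rw [← e]
    have e2 : (h0 : G)⁻¹ * (t * h0 * t⁻¹) = ((h0 : G)⁻¹ * t * ((h0 : G)⁻¹)⁻¹) * t⁻¹ := by group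
    rw [e2]
    exact N.mul_mem (hNn.conj_mem t htN _) (N.inv_mem htN)
  obtain ⟨K, hK, hcard, _⟩ := zass_kernel hZ a
  have hKN : K ≤ N := by
    intro u hu
    obtain ⟨h1, h2 | h2⟩ := (hK u).1 hu
    · rw [h2]; exact N.one_mem
    · exact zass_kernel_le_normal hZ N hNb a u h1 h2
  have hGa : ∀ g : G, g • a = a → g ∈ N := by
    intro g hg
    have hgb : g • b ≠ a := by
      intro h
      rw [← hg] at h
      exact hab (MulAction.injective g h).symm
    obtain ⟨u, hu, hub⟩ := zass_kernel_trans a K hK hcard (Ne.symm hab) hgb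
    have hua := ((hK u).1 hu).1
    have : u⁻¹ * g ∈ N := by
      apply hHN
      · rw [mul_smul, hg, inv_smul_eq_iff, hua]
      · rw [mul_smul, inv_smul_eq_iff, hub]
    have e : g = u * (u⁻¹ * g) := by group
    rw [e]
    exact N.mul_mem (hKN hu) this
  rw [eq_top_iff]
  intro g _
  obtain ⟨n, hn⟩ := hNt.exists_smul_eq a (g • a)
  have hn' : (n : G) • a = g • a := hn
  have : (n : G)⁻¹ * g ∈ N := by
    apply hGa
    rw [mul_smul, inv_smul_eq_iff, hn']
  have e : g = n * ((n : G)⁻¹ * g) := by group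
  rw [e]
  exact N.mul_mem n.2 this

end Cfsg.Agent.Lib.Helper3
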