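import Mathlib
import Cfsg.Agent.Lib.Helper3.Zass3

set_option autoImplicit false

namespace Cfsg.Agent.Lib.Helper3

open MulAction Subgroup Cfsg

/-- uniqueness of the regular normal subgroup -/
theorem regular_normal_le {N Ω : Type*} [Group N] [MulAction N Ω] [FaithfulSMul N Ω]
    (h2 : IsMultiplyPretransitive N Ω 2)
    (h3 : ∀ g : N, ∀ a b c : Ω, a ≠ b → b ≠ c → a ≠ c → g • a = a → g • b = b → g • c = c → g = 1)
    (hcard : ∃ a b c : Ω, a ≠ b ∧ b ≠ c ∧ a ≠ c)
    (M1 M2 : Subgroup N) [hn1 : M1.Normal] [hn2 : M2.Normal]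
    (ht1 : ∀ c d : Ω, ∃ m ∈ M1, m • c = d) (ht2 : ∀ c d : Ω, ∃ m ∈ M2, m • c = d)
    (hf1 : ∀ m ∈ M1, ∀ c : Ω, m • c = c → m = 1) :
    M1 ≤ M2 := by
  by_cases hI : M1 ⊓ M2 = ⊥
  · exfalso
    have hcomm : ∀ x ∈ M1, ∀ y ∈ M2, x * y = y * x := fun x hx y hy =>
      (Subgroup.commute_of_normal_of_disjoint M1 M2 hn1 hn2 (disjoint_iff.2 hI) x y hx hy).eq
    obtain ⟨a, b, c, hab, hbc, hac⟩ := hcard
    -- centralisers in M1 are tiny
    have hcent : ∀ x ∈ M1, x ≠ 1 → ∀ m ∈ M1, m * x = x * m → m = 1 ∨ m = x := by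
      intro x hx hx1 m hm hmx
      by_contra hcon
      push Not at hcon
      obtain ⟨y, hy, hya⟩ := ht2 a (x • a)
      have hz1 : x⁻¹ * y ≠ 1 := by
        intro h
        rw [inv_mul_eq_one] at h
        apply hx1
        have : x ∈ M1 ⊓ M2 := ⟨hx, h ▸ hy⟩
        rw [hI] at this
        exact this
      apply hz1
      have hfix : ∀ w ∈ M1, w * x = x * w → (x⁻¹ * y) • (w • a) = w • a := by
        intro w hw hwx
        have e : x⁻¹ * y * w = w * (x⁻¹ * y) := by
          have e1 : y * w = w * y := (hcomm w hw y hy).symm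
          have e2 : x⁻¹ * w = w * x⁻¹ := by
            rw [inv_mul_eq_iff_eq_mul, ← mul_assoc, ← hwx, mul_assoc, mul_inv_cancel, mul_one]
          rw [mul_assoc, e1, ← mul_assoc, e2, mul_assoc]
        rw [← mul_smul, e, mul_smul, mul_smul, hya, inv_smul_smul]
      have hne : ∀ w1 ∈ M1, ∀ w2 ∈ M1, w1 ≠ w2 → w1 • a ≠ w2 • a := by
        intro w1 hw1 w2 hw2 hw h
        apply hw
        have : w2⁻¹ * w1 = 1 := by
          apply hf1 _ (M1.mul_mem (M1.inv_mem hw2) hw1) a
          rw [mul_smul, h, inv_smul_smul]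
        rw [inv_mul_eq_one] at this
        exact this.symm
      exact h3 _ ((1 : N) • a) (x • a) (m • a) (hne 1 M1.one_mem x hx (Ne.symm hx1))
        (hne x hx m hm (Ne.symm hcon.2)) (hne 1 M1.one_mem m hm (Ne.symm hcon.1))
        (hfix 1 M1.one_mem (by simp)) (hfix x hx rfl) (hfix m hm hmx)
    have hsq : ∀ x ∈ M1, x * x = 1 := by
      intro x hx
      by_cases hx1 : x = 1
      · rw [hx1, one_mul]
      · rcases hcent x hx hx1 (x * x) (M1.mul_mem hx hx) (by group) with h | h
        · exact h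
        · exfalso
          apply hx1
          exact mul_eq_left.1 h
    obtain ⟨x, hx, hxa⟩ := ht1 a b
    obtain ⟨w, hw, hwa⟩ := ht1 a c
    have hx1 : x ≠ 1 := by
      intro h
      rw [h, one_smul] at hxa
      exact hab hxa
    have hw1 : w ≠ 1 := by
      intro h
      rw [h, one_smul] at hwa
      exact hac hwa
    have hwx : w ≠ x := by
      intro h
      rw [h, hxa] at hwa
      exact hbc hwa
    have hcm : w * x = x * w := by
      have e1 := hsq (w * x) (M1.mul_mem hw hx)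
      have e2 := hsq x hx
      have e3 := hsq w hw
      calc w * x = w * x * (x * w * (x * w)) := by rw [hsq _ (M1.mul_mem hx hw), mul_one]
        _ = w * (x * x) * w * (x * w) := by group
        _ = x * w := by rw [e2, mul_one, e3, one_mul]
    rcases hcent x hx hx1 w hw hcm with h | h
    · exact hw1 h
    · exact hwx h
  · have hIt := normal_pretransitive h2 (M1 ⊓ M2) hI
    obtain ⟨a, _⟩ := hcard
    intro x hx
    obtain ⟨i, hi⟩ := hIt.exists_smul_eq a (x • a)
    have hi' : (i : N) • a = x • a := hi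
    have : (i : N)⁻¹ * x = 1 := by
      apply hf1 _ (M1.mul_mem (M1.inv_mem i.2.1) hx) a
      rw [mul_smul, ← hi', inv_smul_smul]
    rw [inv_mul_eq_one] at this
    rw [← this]
    exact i.2.2

variable {G Ω : Type*} [Group G] [MulAction G Ω]

theorem zass_normal_zass [Finite Ω] (hZ : IsZassenhausGroup G Ω) (N : Subgroup G) [hNn : N.Normal]
    (hNb : N ≠ ⊥) : IsZassenhausGroup N Ω := by
  have hfin := zass_finite hZ
  have hf := hZ.1
  have hNt := normal_pretransitive hZ.2.1 N hNb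
  have hfN : FaithfulSMul N Ω := by
    constructor
    intro n1 n2 h
    apply Subtype.ext
    apply FaithfulSMul.eq_of_smul_eq_smul (α := Ω)
    exact h
  have h2N : IsMultiplyPretransitive N Ω 2 := by
    rw [is_two_pretransitive_iff]
    intro a b c d hab hcd
    obtain ⟨n1, hn1⟩ := hNt.exists_smul_eq a c
    obtain ⟨K, hK, hcard, _⟩ := zass_kernel hZ c
    have hne : n1 • b ≠ c := by
      intro h
      rw [← hn1] at h
      exact hab (MulAction.injective n1 h).symm
    obtain ⟨u, hu, hub⟩ := zass_kernel_trans c K hK hcard hne (Ne.symm hcd)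
    have huN : u ∈ N := by
      obtain ⟨h1, h2 | h2⟩ := (hK u).1 hu
      · rw [h2]; exact N.one_mem
      · exact zass_kernel_le_normal hZ N hNb c u h1 h2
    refine ⟨⟨u, huN⟩ * n1, ?_, ?_⟩
    · rw [mul_smul, hn1]
      exact ((hK u).1 hu).1
    · rw [mul_smul]
      exact hub
  have h3N : ∀ g : N, ∀ a b c : Ω, a ≠ b → b ≠ c → a ≠ c → g • a = a → g • b = b → g • c = c →
      g = 1 := by
    intro g a b c hab hbc hac ha hb hc
    apply Subtype.ext
    exact zass_three hZ hab hbc hac ha hb hc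
  refine ⟨hfN, h2N, h3N, ?_, ?_⟩
  · obtain ⟨n, hn, hn1, c, d, hcd, hnc, hnd⟩ := zass_normal_fix_two hZ N hNb
    exact ⟨⟨n, hn⟩, fun h => hn1 (congrArg Subtype.val h), c, d, hcd, hnc, hnd⟩
  · intro M hMn hMt
    by_contra hcon
    push Not at hcon
    have hfree : ∀ m ∈ M, ∀ c : Ω, m • c = c → m = 1 := by
      intro m hm c hc
      have : (⟨m, hm⟩ : M) ∈ stabilizer M c := hc
      rw [hcon c] at this
      exact congrArg Subtype.val this
    have htr : ∀ c d : Ω, ∃ m ∈ M, m • c = d := by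
      intro c d
      obtain ⟨m, hm⟩ := hMt.exists_smul_eq c d
      exact ⟨m, m.2, hm⟩
    have hcard3 : ∃ a b c : Ω, a ≠ b ∧ b ≠ c ∧ a ≠ c := by
      obtain ⟨g0, hg0, a, b, hab, _, _⟩ := hZ.2.2.2.1
      obtain ⟨c, hca, hcb⟩ := zass_exists_third hZ hab
      exact ⟨a, b, c, hab, Ne.symm hcb, Ne.symm hca⟩
    have hconj : ∀ g : G, M.map (MulAut.conjNormal g : MulAut N).toMonoidHom ≤ M := by
      intro g
      have hn2 : (M.map (MulAut.conjNormal g : MulAut N).toMonoidHom).Normal :=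
        hMn.map _ (MulAut.conjNormal g : MulAut N).surjective
      apply regular_normal_le h2N h3N hcard3 _ _ _ htr
      · rintro _ ⟨m, hm, rfl⟩ c hc
        have hc' : (g * (m : G) * g⁻¹) • c = c := hc
        have : m = 1 := by
          apply hfree m hm (g⁻¹ • c)
          show (m : G) • g⁻¹ • c = g⁻¹ • c
          rw [mul_smul, mul_smul, smul_eq_iff_eq_inv_smul] at hc'
          exact hc'
        rw [this, map_one]
      · intro c d
        obtain ⟨m, hm, hmc⟩ := htr (g⁻¹ • c) (g⁻¹ • d)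
        refine ⟨_, ⟨m, hm, rfl⟩, ?_⟩
        show (g * (m : G) * g⁻¹) • c = d
        have hmc' : (m : G) • g⁻¹ • c = g⁻¹ • d := hmc
        rw [mul_smul, mul_smul, hmc', smul_inv_smul]
    have hM1n : (M.map N.subtype).Normal := by
      constructor
      rintro _ ⟨m, hm, rfl⟩ g
      exact ⟨_, hconj g ⟨m, hm, rfl⟩, rfl⟩
    have hM1t : IsPretransitive (M.map N.subtype) Ω := by
      constructor
      intro c d
      obtain ⟨m, hm, hmc⟩ := htr c d
      exact ⟨⟨m, ⟨m, hm, rfl⟩⟩, hmc⟩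
    obtain ⟨a, ha⟩ := hZ.2.2.2.2 _ hM1n hM1t
    apply ha
    rw [eq_bot_iff]
    rintro ⟨_, m, hm, rfl⟩ hy
    rw [mem_bot]
    apply Subtype.ext
    have : m = 1 := hfree m hm a hy
    show (m : G) = 1
    rw [this]
    rfl

end Cfsg.Agent.Lib.Helper3
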